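import Mathlib
import Cfsg.Prelude.Def_Characters
import Cfsg.Prelude.Def_Blocks
import Cfsg.Agent.Helper15.CD3Defs
import Cfsg.Agent.Helper15.CharInner
import Cfsg.Agent.Helper79.Basic
import Cfsg.Agent.Helper79.Linear

/-!
# Piece P10a of the CALL for S4460 (Isaacs 12.15): the set `cd3X R m` is closed under products
-/

set_option autoImplicit false

namespace Cfsg.Agent.Helper81

open Cfsg Cfsg.Agent.Helper15
open scoped ComplexConjugate

universe u

/-- A finite sum of natural numbers (in `ℂ`) with a nonzero term is nonzero. -/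
theorem cd3x_sum_nat_ne_zero {ι : Type*} [Fintype ι] (f : ι → ℂ)
    (hf : ∀ i, ∃ k : ℕ, f i = (k : ℂ)) (i₀ : ι) (h0 : f i₀ ≠ 0) : ∑ i, f i ≠ 0 := by
  classical
  choose N hN using hf
  have h1 : ∑ i, f i = ((∑ i, N i : ℕ) : ℂ) := by
    rw [Nat.cast_sum]
    exact Finset.sum_congr rfl (fun i _ => hN i)
  rw [h1]
  have h2 : N i₀ ≠ 0 := by
    intro h
    apply h0
    rw [hN i₀, h]
    simp
  have h3 : N i₀ ≤ ∑ i, N i :=
    Finset.single_le_sum (f := N) (fun i _ => Nat.zero_le _) (Finset.mem_univ i₀)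
  have h4 : (∑ i, N i) ≠ 0 := by omega
  exact_mod_cast h4

/-- If `θ` is a constituent of the character `b` and `η` is a constituent of `c * θ`, then `η` is a
constituent of `c * b`. -/
theorem cd3x_mul_constituent {R : Type u} [Group R] [Fintype R] {b c : R → ℂ}
    (hb : IsCharacter R b) (hc : IsCharacter R c) (θ η : IrrCharacter R)
    (h1 : classInner b (θ : R → ℂ) ≠ 0)
    (h2 : classInner (c * (θ : R → ℂ)) (η : R → ℂ) ≠ 0) :
    classInner (c * b) (η : R → ℂ) ≠ 0 := by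
  classical
  haveI : Fintype (IrrCharacter R) := Fintype.ofFinite _
  have hbs := classFun_eq_sum (isClassFunction_of_isChar hb)
  have h3 : c * b = ∑ β : IrrCharacter R, classInner b (β : R → ℂ) • (c * (β : R → ℂ)) := by
    conv_lhs => rw [hbs]
    rw [Finset.mul_sum]
    refine Finset.sum_congr rfl (fun β _ => ?_)
    rw [mul_smul_comm]
  rw [h3, classInner_sum_left]
  have h4 : ∀ β : IrrCharacter R,
      classInner (classInner b (β : R → ℂ) • (c * (β : R → ℂ))) (η : R → ℂ) =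
        classInner b (β : R → ℂ) * classInner (c * (β : R → ℂ)) (η : R → ℂ) :=
    fun β => classInner_smul_left _ _ _
  simp only [h4]
  refine cd3x_sum_nat_ne_zero _ ?_ θ (mul_ne_zero h1 h2)
  intro β
  obtain ⟨k1, hk1⟩ := inner_nat hb (isChar_of_irr β.2)
  obtain ⟨k2, hk2⟩ := inner_nat (Helper79.isCharacter_mul hc (isChar_of_irr β.2)) (isChar_of_irr η.2)
  exact ⟨k1 * k2, by rw [hk1, hk2]; push_cast; ring⟩

/-- `[conj(χ₁) ξ, χ₂] = conj [χ₁ χ₂, ξ]`. -/
theorem cd3x_inner_conj_mul {G : Type u} [Group G] [Fintype G] (a b c : G → ℂ) :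
    classInner ((fun g => conj (a g)) * c) b = conj (classInner (a * b) c) := by
  unfold classInner
  rw [map_mul, map_sum, map_inv₀, Complex.conj_natCast]
  congr 1
  apply Finset.sum_congr rfl
  intro g _
  simp only [Pi.mul_apply, map_mul, Complex.conj_conj]
  ring

/-- Elements of a perfect subgroup lie in the commutator subgroup. -/
theorem cd3x_mem_commutator {G : Type u} [Group G] (R : Subgroup G)
    (hperf : commutator R = ⊤) {x : G} (hx : x ∈ R) : x ∈ commutator G := by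
  have h1 : (⟨x, hx⟩ : R) ∈ commutator R := by rw [hperf]; exact Subgroup.mem_top _
  have h2 : x ∈ (commutator R).map R.subtype := ⟨⟨x, hx⟩, h1, rfl⟩
  rw [commutator_def, Subgroup.map_commutator] at h2
  rw [commutator_def]
  exact Subgroup.commutator_mono le_top le_top h2

/-- PIECE P10a of the CALL for S4460. -/
theorem cd3_X_closed {G : Type u} [Group G] [Fintype G] (R : Subgroup G) [R.Normal] [Fintype R]
    (hperf : commutator R = ⊤) (m n : ℕ) (hmn : m ≠ n)
    (hcd : ∀ χ : IrrCharacter G, charDegree (χ : G → ℂ) = 1 ∨ charDegree (χ : G → ℂ) = m ∨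
      charDegree (χ : G → ℂ) = n)
    (hpure : ∀ χ ψ ξ : IrrCharacter G, charDegree (χ : G → ℂ) = m →
      charDegree (ψ : G → ℂ) = n → (∃ x ∈ R, (χ : G → ℂ) x ≠ (χ : G → ℂ) 1) →
      (∃ x ∈ R, (ψ : G → ℂ) x ≠ (ψ : G → ℂ) 1) →
      classInner ((χ : G → ℂ) * (ψ : G → ℂ)) (ξ : G → ℂ) ≠ 0 → charDegree (ξ : G → ℂ) = n)
    (θ₁ θ₂ : IrrCharacter R) (h₁ : θ₁ ∈ cd3X R m) (h₂ : θ₂ ∈ cd3X R m) (η : IrrCharacter R)
    (hη : classInner ((θ₁ : R → ℂ) * (θ₂ : R → ℂ)) (η : R → ℂ) ≠ 0) : η ∈ cd3X R m := by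
  classical
  haveI : Fintype (IrrCharacter G) := Fintype.ofFinite _
  have h₂' := h₂
  have h₁' := h₁
  rcases h₁ with h₁ | ⟨χ₁, hd₁, hx₁, hc₁⟩
  · -- `θ₁ = 1`
    have h3 : ((θ₁ : R → ℂ) * (θ₂ : R → ℂ)) = (θ₂ : R → ℂ) := by
      rw [h₁]; funext x; simp
    rw [h3, irr_inner] at hη
    have h4 : θ₂ = η := by
      by_contra h
      rw [if_neg h] at hη
      exact hη rfl
    rw [← h4]
    exact h₂'
  rcases h₂ with h₂ | ⟨χ₂, hd₂, hx₂, hc₂⟩
  · -- `θ₂ = 1`
    have h3 : ((θ₁ : R → ℂ) * (θ₂ : R → ℂ)) = (θ₁ : R → ℂ) := by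
      rw [h₂]; funext x; simp
    rw [h3, irr_inner] at hη
    have h4 : θ₁ = η := by
      by_contra h
      rw [if_neg h] at hη
      exact hη rfl
    rw [← h4]
    exact h₁'
  -- main case
  have hρ₁ : IsCharacter R (fun r : R => (χ₁ : G → ℂ) r) :=
    Helper79.isCharacter_restrict (isChar_of_irr χ₁.2) R
  have hρ₂ : IsCharacter R (fun r : R => (χ₂ : G → ℂ) r) :=
    Helper79.isCharacter_restrict (isChar_of_irr χ₂.2) R
  -- `η` is a constituent of `(χ₁ χ₂)_R`
  have h5 : classInner ((θ₁ : R → ℂ) * (fun r : R => (χ₂ : G → ℂ) r)) (η : R → ℂ) ≠ 0 :=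
    cd3x_mul_constituent hρ₂ (isChar_of_irr θ₁.2) θ₂ η hc₂ hη
  have h6 : classInner ((fun r : R => (χ₂ : G → ℂ) r) * (fun r : R => (χ₁ : G → ℂ) r))
      (η : R → ℂ) ≠ 0 := by
    refine cd3x_mul_constituent hρ₁ hρ₂ θ₁ η hc₁ ?_
    rw [mul_comm]
    exact h5
  -- decompose `χ₁ χ₂`
  have hprod : IsCharacter G ((χ₁ : G → ℂ) * (χ₂ : G → ℂ)) :=
    Helper79.isCharacter_mul (isChar_of_irr χ₁.2) (isChar_of_irr χ₂.2)
  have hsum := classFun_eq_sum (isClassFunction_of_isChar hprod)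
  have h7 : ((fun r : R => (χ₂ : G → ℂ) r) * (fun r : R => (χ₁ : G → ℂ) r)) =
      ∑ ξ : IrrCharacter G, classInner ((χ₁ : G → ℂ) * (χ₂ : G → ℂ)) (ξ : G → ℂ) •
        (fun r : R => (ξ : G → ℂ) r) := by
    funext r
    have h8 := congrFun hsum (r : G)
    simp only [Pi.mul_apply, Finset.sum_apply, Pi.smul_apply, smul_eq_mul] at h8 ⊢
    rw [mul_comm]
    exact h8
  rw [h7, classInner_sum_left] at h6
  obtain ⟨ξ, -, hξ⟩ := Finset.exists_ne_zero_of_sum_ne_zero h6
  rw [classInner_smul_left] at hξ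
  have hcξ : classInner ((χ₁ : G → ℂ) * (χ₂ : G → ℂ)) (ξ : G → ℂ) ≠ 0 := left_ne_zero_of_mul hξ
  have hξη : classInner (fun r : R => (ξ : G → ℂ) r) (η : R → ℂ) ≠ 0 := right_ne_zero_of_mul hξ
  by_cases hker : ∀ x ∈ R, (ξ : G → ℂ) x = (ξ : G → ℂ) 1
  · -- `R ≤ ker ξ`: `η = 1`
    left
    have h9 : (fun r : R => (ξ : G → ℂ) r) = ((ξ : G → ℂ) 1) • (fun _ : R => (1 : ℂ)) := by
      funext r
      simp [hker r r.2]
    rw [h9, classInner_smul_left] at hξη
    have h10 := right_ne_zero_of_mul hξη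
    by_contra hne
    exact h10 (irr_inner_ne Helper79.isIrrCharacter_one η.2 (fun h => hne h.symm))
  · push_neg at hker
    rcases hcd ξ with hdeg | hdeg | hdeg
    · -- linear: impossible
      exfalso
      obtain ⟨x, hxR, hx⟩ := hker
      exact hx (Helper79.irr_commutator_le_ker_of_linear ξ hdeg x (cd3x_mem_commutator R hperf hxR))
    · right
      exact ⟨ξ, hdeg, hker, hξη⟩
    · exfalso
      have hconj : IsIrrCharacter G (fun g => conj ((χ₁ : G → ℂ) g)) :=
        Helper79.isIrrCharacter_conj χ₁.2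
      have hdc : charDegree (fun g => conj ((χ₁ : G → ℂ) g)) = m := by
        rw [← hd₁]
        unfold charDegree
        rw [Complex.conj_re]
      have hxc : ∃ x ∈ R, (fun g => conj ((χ₁ : G → ℂ) g)) x ≠
          (fun g => conj ((χ₁ : G → ℂ) g)) 1 := by
        obtain ⟨x, hxR, hx⟩ := hx₁
        refine ⟨x, hxR, ?_⟩
        intro h
        exact hx ((starRingEnd ℂ).injective h)
      have hin : classInner ((fun g => conj ((χ₁ : G → ℂ) g)) * (ξ : G → ℂ)) (χ₂ : G → ℂ) ≠ 0 := by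
        rw [cd3x_inner_conj_mul]
        intro h
        apply hcξ
        have := congrArg (starRingEnd ℂ) h
        simpa using this
      have := hpure ⟨_, hconj⟩ ξ χ₂ hdc hdeg hxc hker hin
      rw [hd₂] at this
      exact hmn this

end Cfsg.Agent.Helper81
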