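-- helper81 library: piece PF2 of helper95's CALL S5874 (part 4).
-- A perfect group acting on a 2-dimensional tensor factor fixes no symmetric form there.
import Mathlib
import Cfsg.Prelude.Def_GeometricClasses
import Cfsg.Agent.Helper96.SpCore
import Cfsg.Agent.Helper96.SpY3

set_option autoImplicit false
open Cfsg Cfsg.Geo Matrix
open scoped commutatorElement

namespace Cfsg.Agent.Helper81

variable {F : Type*} [Field F]

/-- a `2 × 2` matrix of determinant one fixing the symmetric form `B₁` commutes with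
`B₁⁻¹ * !![0,1;-1,0]` -/
theorem kq_comm_J (B₁ g : Matrix (Fin 2) (Fin 2) F) (hB₁det : B₁.det ≠ 0) (hB : B₁ᵀ = B₁)
    (hdet : g.det = 1) (hg : gᵀ * B₁ * g = B₁) :
    (B₁⁻¹ * !![(0 : F), 1; -1, 0]) * g = g * (B₁⁻¹ * !![(0 : F), 1; -1, 0]) := by
  have hu : IsUnit B₁.det := isUnit_iff_ne_zero.mpr hB₁det
  have h1 : !![(0 : F), 1; -1, 0] * g = (Matrix.adjugate g)ᵀ * !![(0 : F), 1; -1, 0] := by
    ext i j
    fin_cases i <;> fin_cases j <;>
      simp [Matrix.adjugate_fin_two, Matrix.mul_apply, Fin.sum_univ_two]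
  have h2 : gᵀ * B₁ = B₁ * Matrix.adjugate g := by
    calc gᵀ * B₁ = gᵀ * B₁ * (g * Matrix.adjugate g) := by
          rw [Matrix.mul_adjugate, hdet, one_smul, mul_one]
      _ = B₁ * Matrix.adjugate g := by rw [← mul_assoc, hg]
  have h3 : B₁ * g = (Matrix.adjugate g)ᵀ * B₁ := by
    have h := congrArg Matrix.transpose h2
    rw [Matrix.transpose_mul, Matrix.transpose_mul, Matrix.transpose_transpose, hB] at h
    exact h
  have h4 : g * B₁⁻¹ = B₁⁻¹ * (Matrix.adjugate g)ᵀ := by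
    calc g * B₁⁻¹ = B₁⁻¹ * (B₁ * g) * B₁⁻¹ := by
          rw [← mul_assoc, Matrix.nonsing_inv_mul _ hu, one_mul]
      _ = B₁⁻¹ * (Matrix.adjugate g)ᵀ := by
          rw [h3, mul_assoc, mul_assoc, Matrix.mul_nonsing_inv _ hu, mul_one]
  rw [mul_assoc, h1, ← mul_assoc, ← h4, mul_assoc]

theorem o12_perfect_two (h2 : (2 : F) ≠ 0) {n k : ℕ} (S : Subgroup (GL (Fin n) F))
    (hSperf : ⁅S, S⁆ = S) {e : Fin n ≃ Fin 2 × Fin k} {P : GL (Fin n) F}
    {ρ : Matrix (Fin n) (Fin n) F → Matrix (Fin 2) (Fin 2) F}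
    (hTD : Cfsg.Agent.Helper96.TensorData S 2 k e P ρ)
    (B₁ : Matrix (Fin 2) (Fin 2) F) (hB₁det : B₁.det ≠ 0) (hB : B₁ᵀ = B₁)
    (hfix : ∀ s ∈ matrixSet S, (ρ s)ᵀ * B₁ * ρ s = B₁) : False := by
  classical
  have hu : IsUnit B₁.det := isUnit_iff_ne_zero.mpr hB₁det
  obtain ⟨ψ, -, hψ⟩ := Cfsg.Agent.Helper96.Sy.rhoHom_exists hTD
  obtain ⟨J, hJ⟩ : ∃ J : Matrix (Fin 2) (Fin 2) F, J = B₁⁻¹ * !![(0 : F), 1; -1, 0] := ⟨_, rfl⟩
  -- the subgroup of `S` of the elements commuting with `J`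
  let K : Subgroup S :=
    { carrier := {x | J * ((ψ x : GL (Fin 2) F) : Matrix (Fin 2) (Fin 2) F)
        = ((ψ x : GL (Fin 2) F) : Matrix (Fin 2) (Fin 2) F) * J}
      mul_mem' := by
        intro a b ha hb
        simp only [Set.mem_setOf_eq] at ha hb ⊢
        rw [map_mul, Units.val_mul, ← mul_assoc, ha, mul_assoc, hb, mul_assoc]
      one_mem' := by
        simp only [Set.mem_setOf_eq]
        rw [map_one, Units.val_one, mul_one, one_mul]
      inv_mem' := by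
        intro a ha
        simp only [Set.mem_setOf_eq] at ha ⊢
        rw [map_inv]
        have h1 : (((ψ a)⁻¹ : GL (Fin 2) F) : Matrix (Fin 2) (Fin 2) F)
            * ((ψ a : GL (Fin 2) F) : Matrix (Fin 2) (Fin 2) F) = 1 := by
          rw [← Units.val_mul, inv_mul_cancel, Units.val_one]
        have h2 : ((ψ a : GL (Fin 2) F) : Matrix (Fin 2) (Fin 2) F)
            * (((ψ a)⁻¹ : GL (Fin 2) F) : Matrix (Fin 2) (Fin 2) F) = 1 := by
          rw [← Units.val_mul, mul_inv_cancel, Units.val_one]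
        calc J * (((ψ a)⁻¹ : GL (Fin 2) F) : Matrix (Fin 2) (Fin 2) F)
            = (((ψ a)⁻¹ : GL (Fin 2) F) : Matrix (Fin 2) (Fin 2) F)
              * (((ψ a : GL (Fin 2) F) : Matrix (Fin 2) (Fin 2) F) * J)
              * (((ψ a)⁻¹ : GL (Fin 2) F) : Matrix (Fin 2) (Fin 2) F) := by
              rw [← mul_assoc, h1, one_mul]
          _ = (((ψ a)⁻¹ : GL (Fin 2) F) : Matrix (Fin 2) (Fin 2) F) * J := by
              rw [← ha, mul_assoc, mul_assoc, h2, mul_one] }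
  have hK : ∀ x : S, x ∈ K ↔ J * ((ψ x : GL (Fin 2) F) : Matrix (Fin 2) (Fin 2) F)
        = ((ψ x : GL (Fin 2) F) : Matrix (Fin 2) (Fin 2) F) * J := fun x => Iff.rfl
  -- commutators lie in `K`
  have hcomm : ∀ a b : S, ⁅a, b⁆ ∈ K := by
    intro a b
    rw [hK, hJ]
    apply kq_comm_J B₁ _ hB₁det hB
    · rw [map_commutatorElement]
      have h1 : Matrix.GeneralLinearGroup.det ⁅ψ a, ψ b⁆ = 1 := by
        rw [map_commutatorElement]
        exact commutatorElement_eq_one_iff_commute.mpr (Commute.all _ _)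
      rw [← Matrix.GeneralLinearGroup.val_det_apply, h1, Units.val_one]
    · rw [hψ]
      exact hfix _ ⟨(⁅a, b⁆ : S), (⁅a, b⁆ : S).2, rfl⟩
  have hle : ⁅S, S⁆ ≤ K.map S.subtype := by
    rw [Subgroup.commutator_le]
    intro a ha b hb
    refine ⟨⁅(⟨a, ha⟩ : S), ⟨b, hb⟩⁆, hcomm _ _, ?_⟩
    rfl
  rw [hSperf] at hle
  have hall : ∀ s ∈ matrixSet S, J * ρ s = ρ s * J := by
    rintro _ ⟨x, hx, rfl⟩
    obtain ⟨y, hy, hyx⟩ := hle hx
    have hy' := (hK y).mp hy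
    rw [hψ] at hy'
    have e1 : ((y : GL (Fin n) F)) = x := hyx
    rw [e1] at hy'
    exact hy'
  obtain ⟨c, hc⟩ := hTD.cent J hall
  have hS0 : !![(0 : F), 1; -1, 0] = c • B₁ := by
    have h1 : B₁ * J = !![(0 : F), 1; -1, 0] := by
      rw [hJ, ← mul_assoc, Matrix.mul_nonsing_inv _ hu, one_mul]
    rw [← h1, hc, Matrix.mul_smul, mul_one]
  have hT : (!![(0 : F), 1; -1, 0])ᵀ = !![(0 : F), 1; -1, 0] := by
    rw [hS0, Matrix.transpose_smul, hB]
  have h01 := congrFun (congrFun hT 0) 1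
  simp [Matrix.transpose_apply] at h01
  apply h2
  have h5 : (2 : F) = 1 - (-1) := by ring
  rw [h5, h01]
  ring

end Cfsg.Agent.Helper81
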