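-- helper81 library: piece N5 of helper95's CALL S5874.
-- Omega(Q) (n ≥ 5, finite field, every characteristic) is not contained in a subfield group.
import Mathlib
import Cfsg.Prelude.Def_GeometricClasses
import Cfsg.Agent.Helper94.ONd1
import Cfsg.Agent.Helper97.ONot

set_option autoImplicit false
open Cfsg Cfsg.Geo Matrix

namespace Cfsg.Agent.Helper81

variable {ι : Type} [Fintype ι] [DecidableEq ι] {F : Type*} [Field F]

/-- a vector not orthogonal to everything is not orthogonal to some column of `P` -/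
theorem kq_exists_polar_ne (Q : QuadraticForm F (ι → F)) (P : GL ι F) {u w : ι → F}
    (hw : QuadraticMap.polar ⇑Q u w ≠ 0) :
    ∃ j, QuadraticMap.polar ⇑Q u ((P : Matrix ι ι F) *ᵥ Pi.single j 1) ≠ 0 := by
  classical
  by_contra hcon
  push Not at hcon
  apply hw
  have hL : (QuadraticMap.polarBilin Q u).comp (Matrix.mulVecLin (P : Matrix ι ι F)) = 0 := by
    apply (Pi.basisFun F ι).ext
    intro j
    simp only [Pi.basisFun_apply, LinearMap.comp_apply, Matrix.mulVecLin_apply,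
      LinearMap.zero_apply]
    exact hcon j
  have h1 := congrArg (fun L => L (((P⁻¹ : GL ι F) : Matrix ι ι F) *ᵥ w)) hL
  simp only [LinearMap.comp_apply, Matrix.mulVecLin_apply, LinearMap.zero_apply] at h1
  rw [Matrix.mulVec_mulVec, ← Units.val_mul, mul_inv_cancel, Units.val_one, Matrix.one_mulVec] at h1
  exact h1

/-- powers of an Eichler transformation -/
theorem kq_oE_pow [Fintype F] (Q : QuadraticForm F (ι → F)) (u b : ι → F) (hu : Q u = 0)
    (hub : QuadraticMap.polar ⇑Q u b = 0) (k : ℕ) :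
    (Helper94.oE Q u b) ^ k = Helper94.oE Q u ((k : F) • b) := by
  induction k with
  | zero => rw [pow_zero, Nat.cast_zero, zero_smul, Helper94.oE_zero Q u hu]
  | succ k ih =>
    have h1 : QuadraticMap.polar ⇑Q u ((k : F) • b) = 0 := by
      rw [QuadraticMap.polar_smul_right, hub, smul_zero]
    rw [pow_succ, ih, Helper94.oE_mul Q u _ _ hu h1 hub]
    congr 1
    push_cast
    module

theorem o12_notOmega_subfield [Fintype F] (Q : (ι → F) → F) (hQ : IsNondegenerateQuadraticForm Q)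
    (hn : 5 ≤ Fintype.card ι) (F₀ : Subfield F) (hF₀ : F₀ ≠ ⊤) (P : GL ι F) :
    ¬ omegaGL Q ≤ subfieldSubgroup F₀ P := by
  classical
  intro hle
  obtain ⟨p, hchar⟩ := CharP.exists F
  have hp : p.Prime :=
    (CharP.char_is_prime_or_zero F p).resolve_right (CharP.char_ne_zero_of_finite F p)
  have : Fact p.Prime := ⟨hp⟩
  have hne : Nonempty ι := Fintype.card_pos_iff.mp (by omega)
  obtain ⟨Q', hQ'⟩ : ∃ Q' : QuadraticForm F (ι → F), Q' = Helper98.op_qf Q hQ := ⟨_, rfl⟩
  have hcoe : ⇑Q' = Q := by rw [hQ']; rfl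
  have hnd : (QuadraticMap.polarBilin Q').Nondegenerate := by
    rw [hQ']; exact Helper98.op_qf_nondeg Q hQ
  -- a totally singular pair
  obtain ⟨u, hu0, hu, -, -⟩ := Helper45.exists_sing_perp2 Q' hn 0 0
  obtain ⟨w, hw⟩ : ∃ w, QuadraticMap.polar ⇑Q' u w ≠ 0 := by
    rw [hcoe]; exact (hQ.nondegenerate u hu0).2
  obtain ⟨v, hv0, hv, huv, hwv⟩ := Helper45.exists_sing_perp2 Q' hn u w
  have hvu : ∀ c : F, v ≠ c • u := by
    intro c hc
    rw [hc, QuadraticMap.polar_smul_right, QuadraticMap.polar_comm] at hwv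
    have hc0 : c ≠ 0 := by
      rintro rfl
      exact hv0 (by rw [hc, zero_smul])
    rcases smul_eq_zero.mp hwv with h | h
    · exact hc0 h
    · exact hw h
  obtain ⟨j, hj⟩ := kq_exists_polar_ne Q' P hw
  obtain ⟨x, hx⟩ : ∃ x : ι → F, x = (P : Matrix ι ι F) *ᵥ Pi.single j 1 := ⟨_, rfl⟩
  rw [← hx] at hj
  obtain ⟨y, hy⟩ : ∃ y : ι → F, y = QuadraticMap.polar ⇑Q' v x • u - QuadraticMap.polar ⇑Q' u x • v :=
    ⟨_, rfl⟩
  have hy0 : y ≠ 0 := by
    intro h0
    rw [hy, sub_eq_zero] at h0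
    apply hvu ((QuadraticMap.polar ⇑Q' u x)⁻¹ * QuadraticMap.polar ⇑Q' v x)
    rw [← smul_smul, h0, smul_smul, inv_mul_cancel₀ hj, one_smul]
  have hPy : ((P⁻¹ : GL ι F) : Matrix ι ι F) *ᵥ y ≠ 0 := by
    intro h0
    apply hy0
    have h1 := congrArg (fun z => (P : Matrix ι ι F) *ᵥ z) h0
    simp only [Matrix.mulVec_mulVec, Matrix.mulVec_zero] at h1
    rwa [← Units.val_mul, mul_inv_cancel, Units.val_one, Matrix.one_mulVec] at h1
  obtain ⟨i, hi⟩ := Helper97.Gen.exists_ne_zero_coord hPy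
  -- the entries
  have key : ∀ l : F, l * ((((P⁻¹ : GL ι F) : Matrix ι ι F) *ᵥ y) i) ∈ F₀ := by
    intro l
    have hul : QuadraticMap.polar ⇑Q' u (l • v) = 0 := by
      rw [QuadraticMap.polar_smul_right, huv, smul_zero]
    obtain ⟨E, hE⟩ : ∃ E : ↥(isometryGroup F ⇑Q'), E = Helper94.oE Q' u (l • v) := ⟨_, rfl⟩
    have hEΩ : E ∈ Omega F ⇑Q' := by rw [hE]; exact Helper94.oE_mem_omega Q' hnd hn u (l • v)
    have hEp : E ^ p = 1 := by
      rw [hE, kq_oE_pow Q' u (l • v) hu hul, CharP.cast_eq_zero, zero_smul, Helper94.oE_zero Q' u hu]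
    have hmv : ∀ z : ι → F, ((E : GL ι F) : Matrix ι ι F) *ᵥ z
        = z + l • (QuadraticMap.polar ⇑Q' v z • u - QuadraticMap.polar ⇑Q' u z • v) := by
      intro z
      have h1 := Helper94.mv_oE Q' u (l • v) hu hul z
      rw [← hE] at h1
      have h2 : ((E : GL ι F) : Matrix ι ι F) *ᵥ z = Helper45.mv ⇑Q' E z := rfl
      rw [h2, h1, QuadraticMap.polar_smul_left, QuadraticMap.map_smul, hv]
      simp only [smul_eq_mul, mul_zero, zero_mul, sub_zero]
      module
    have hmem : (E : GL ι F) ∈ subfieldSubgroup F₀ P := by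
      apply hle
      have h1 : (E : GL ι F) ∈ (Omega F ⇑Q').map (isometryGroup F ⇑Q').subtype :=
        Subgroup.mem_map_of_mem _ hEΩ
      have h2 : omegaGL Q = (Omega F ⇑Q').map (isometryGroup F ⇑Q').subtype := by
        subst hQ'
        rfl
      rw [h2]
      exact h1
    have hEp' : (E : GL ι F) ^ p = 1 := by
      rw [← Subgroup.coe_pow, hEp]
      rfl
    have hr := Helper97.Gen.unipotent_rational F₀ P (E : GL ι F) hEp' hmem i j
    have e1 : ((P⁻¹ * (E : GL ι F) * P : GL ι F) : Matrix ι ι F) i j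
        = (((P⁻¹ : GL ι F) : Matrix ι ι F) *ᵥ (((E : GL ι F) : Matrix ι ι F) *ᵥ x)) i := by
      rw [hx, Matrix.mulVec_mulVec, Matrix.mulVec_mulVec, ← Units.val_mul, ← Units.val_mul,
        Matrix.mulVec_single_one]
      rfl
    rw [e1, hmv x, ← hy, Matrix.mulVec_add, Matrix.mulVec_smul, hx, Matrix.mulVec_mulVec,
      ← Units.val_mul, inv_mul_cancel, Units.val_one, Matrix.one_mulVec] at hr
    simp only [Pi.add_apply, Pi.smul_apply, smul_eq_mul, Pi.single_apply] at hr
    have h3 : (if i = j then (1 : F) else 0) ∈ F₀ := by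
      split_ifs
      · exact F₀.one_mem
      · exact F₀.zero_mem
    have h4 := F₀.sub_mem hr h3
    rwa [add_sub_cancel_left] at h4
  obtain ⟨c, hc⟩ : ∃ c : F, c = (((P⁻¹ : GL ι F) : Matrix ι ι F) *ᵥ y) i := ⟨_, rfl⟩
  rw [← hc] at key hi
  have hcF : c ∈ F₀ := by
    have := key 1
    rwa [one_mul] at this
  apply hF₀
  rw [eq_top_iff]
  intro θ _
  have h1 := F₀.mul_mem (key θ) (F₀.inv_mem hcF)
  rwa [mul_assoc, mul_inv_cancel₀ hi, mul_one] at h1

end Cfsg.Agent.Helper81
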