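import Mathlib
import Cfsg.Agent.Helper96.C3SDefs

/-!
# Piece PHI of the CALL for S5664: an `F`-form which is `K`-self-adjoint and `K`-alternating is
the trace of a `K`-form
-/

set_option autoImplicit false

namespace Cfsg.Agent.Helper81.C3S

open Module Cfsg.Agent.Helper96.C3S

variable {F K V : Type*} [Field F] [Field K] [Algebra F K] [AddCommGroup V] [Module F V]
  [Module K V] [IsScalarTower F K V]

/-- every `F`-linear functional on `K` is `k ↦ Tr (k * x)` -/
theorem phi_repr [Finite F] [Finite K] (l : K →ₗ[F] F) :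
    ∃ x : K, ∀ k : K, Algebra.trace F K (k * x) = l k := by
  haveI : Module.Finite F K := Module.Finite.of_finite
  haveI : Algebra.IsSeparable F K := inferInstance
  have hnd := traceForm_nondegenerate F K
  refine ⟨(LinearMap.BilinForm.toDual (Algebra.traceForm F K) hnd).symm l, fun k => ?_⟩
  have h := LinearMap.BilinForm.apply_toDual_symm_apply (B := Algebra.traceForm F K) (hB := hnd) l k
  rw [Algebra.traceForm_apply] at h
  rw [mul_comm]
  exact h

/-- uniqueness of the representing element -/
theorem phi_unique [Finite F] [Finite K] (x y : K)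
    (h : ∀ k : K, Algebra.trace F K (k * x) = Algebra.trace F K (k * y)) : x = y := by
  have h1 : x - y = 0 := by
    apply trace_nd (F := F)
    intro k
    rw [mul_sub, map_sub, h k, sub_self]
  exact sub_eq_zero.mp h1

/-- the functional `k ↦ f (k • u) v` -/
noncomputable def phiLam (f : LinearMap.BilinForm F V) (u v : V) : K →ₗ[F] F :=
  (f.flip v).comp ((LinearMap.toSpanSingleton K V u).restrictScalars F)

theorem phiLam_apply (f : LinearMap.BilinForm F V) (u v : V) (k : K) :
    phiLam f u v k = f (k • u) v := rfl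

/-- the value `φ u v` -/
noncomputable def phiFun [Finite F] [Finite K] (f : LinearMap.BilinForm F V) (u v : V) : K :=
  Classical.choose (phi_repr (phiLam (K := K) f u v))

theorem phiFun_spec [Finite F] [Finite K] (f : LinearMap.BilinForm F V) (u v : V) (k : K) :
    Algebra.trace F K (k * phiFun (K := K) f u v) = f (k • u) v :=
  Classical.choose_spec (phi_repr (phiLam (K := K) f u v)) k

/-- PIECE PHI: an `F`-form which is `K`-self-adjoint and `K`-alternating is the trace of a
`K`-form -/
theorem exists_phi [Finite F] [Finite K] (f : LinearMap.BilinForm F V)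
    (hsa : ∀ (k : K) (u v : V), f (k • u) v = f u (k • v))
    (halt : ∀ (k : K) (v : V), f (k • v) v = 0)
    (hnd : ∀ u, (∀ v, f u v = 0) → u = 0) :
    ∃ φ : LinearMap.BilinForm K V, (∀ u v, Algebra.trace F K (φ u v) = f u v) ∧
      (∀ v, φ v v = 0) ∧ (∀ u, (∀ v, φ u v = 0) → u = 0) := by
  have h1 : ∀ (m₁ m₂ n : V), phiFun (K := K) f (m₁ + m₂) n =
      phiFun (K := K) f m₁ n + phiFun (K := K) f m₂ n := by
    intro m₁ m₂ n
    apply phi_unique (F := F)
    intro k
    rw [mul_add, map_add, phiFun_spec, phiFun_spec, phiFun_spec, smul_add, map_add,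
      LinearMap.add_apply]
  have h2 : ∀ (c : K) (m n : V), phiFun (K := K) f (c • m) n = c • phiFun (K := K) f m n := by
    intro c m n
    apply phi_unique (F := F)
    intro k
    rw [smul_eq_mul, ← mul_assoc, phiFun_spec, phiFun_spec, smul_smul]
  have h3 : ∀ (m n₁ n₂ : V), phiFun (K := K) f m (n₁ + n₂) =
      phiFun (K := K) f m n₁ + phiFun (K := K) f m n₂ := by
    intro m n₁ n₂
    apply phi_unique (F := F)
    intro k
    rw [mul_add, map_add, phiFun_spec, phiFun_spec, phiFun_spec, map_add]
  have h4 : ∀ (c : K) (m n : V), phiFun (K := K) f m (c • n) = c • phiFun (K := K) f m n := by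
    intro c m n
    apply phi_unique (F := F)
    intro k
    rw [smul_eq_mul, mul_left_comm, ← mul_assoc, phiFun_spec, phiFun_spec, ← hsa c (k • m) n,
      smul_smul]
  have hφ : ∀ u v, LinearMap.mk₂ K (phiFun (K := K) f) h1 h2 h3 h4 u v = phiFun (K := K) f u v :=
    fun u v => rfl
  have htr : ∀ u v, Algebra.trace F K (LinearMap.mk₂ K (phiFun (K := K) f) h1 h2 h3 h4 u v) =
      f u v := by
    intro u v
    have h := phiFun_spec (K := K) f u v 1
    rw [one_mul, one_smul] at h
    rw [hφ]
    exact h
  refine ⟨LinearMap.mk₂ K (phiFun (K := K) f) h1 h2 h3 h4, htr, ?_, ?_⟩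
  · intro v
    rw [hφ]
    apply trace_nd (F := F)
    intro k
    rw [phiFun_spec, halt]
  · intro u hu
    apply hnd
    intro v
    rw [← htr, hu, map_zero]

end Cfsg.Agent.Helper81.C3S
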