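import Mathlib
import Cfsg.Prelude.Def_GeometricClasses
import Cfsg.Prelude.Def_ClassicalGeometry
import Cfsg.Agent.Helper98.C3A
import Cfsg.Agent.Helper97.GBasic

/-!
# Piece WLIB of the CALL for S5664: the concrete library (matrices over an arbitrary index type)
-/

set_option autoImplicit false

namespace Cfsg.Agent.Helper81.C3S

open Module

universe u

variable {F : Type u} [Field F] [Fintype F] {ι : Type} [Fintype ι] [DecidableEq ι]

/-- PIECE WLIB (1/4) -/
theorem gl_of_end (f g : Module.End F (ι → F)) (h1 : f * g = 1) (h2 : g * f = 1) :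
    ∃ G : Matrix.GeneralLinearGroup ι F, Matrix.toLin' (G : Matrix ι ι F) = f := by
  refine ⟨⟨LinearMap.toMatrix' f, LinearMap.toMatrix' g, ?_, ?_⟩, ?_⟩
  · rw [← LinearMap.toMatrix'_mul, h1, LinearMap.toMatrix'_one]
  · rw [← LinearMap.toMatrix'_mul, h2, LinearMap.toMatrix'_one]
  · simp

theorem wlib_toLin_mul (A B : Matrix ι ι F) :
    (Matrix.toLin' (A * B) : Module.End F (ι → F)) = Matrix.toLin' A * Matrix.toLin' B := by
  rw [Matrix.toLin'_mul]; rfl

/-- PIECE WLIB (2/4) -/
theorem toLin_gl_inv (G : Matrix.GeneralLinearGroup ι F) :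
    (Matrix.toLin' (G : Matrix ι ι F) : Module.End F (ι → F)) *
      Matrix.toLin' ((G⁻¹ : Matrix.GeneralLinearGroup ι F) : Matrix ι ι F) = 1 ∧
    (Matrix.toLin' ((G⁻¹ : Matrix.GeneralLinearGroup ι F) : Matrix ι ι F) : Module.End F (ι → F)) *
      Matrix.toLin' (G : Matrix ι ι F) = 1 := by
  constructor
  · rw [← wlib_toLin_mul, ← Units.val_mul, mul_inv_cancel, Units.val_one, Matrix.toLin'_one]; rfl
  · rw [← wlib_toLin_mul, ← Units.val_mul, inv_mul_cancel, Units.val_one, Matrix.toLin'_one]; rfl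

/-- PIECE WLIB (3/4) -/
theorem c3P_of_subgroup (M : Subgroup (Matrix.GeneralLinearGroup ι F)) :
    Helper98.C3P (fun f : Module.End F (ι → F) =>
      ∃ g ∈ M, Matrix.toLin' (g : Matrix ι ι F) = f) := by
  refine ⟨⟨1, M.one_mem, by simp; rfl⟩, ?_, ?_⟩
  · rintro f g ⟨a, ha, rfl⟩ ⟨b, hb, rfl⟩
    exact ⟨a * b, M.mul_mem ha hb, by rw [Units.val_mul, wlib_toLin_mul]⟩
  · rintro f g ⟨a, ha, rfl⟩ h1 h2
    refine ⟨a⁻¹, M.inv_mem ha, ?_⟩
    obtain ⟨e1, e2⟩ := toLin_gl_inv a
    calc (Matrix.toLin' ((a⁻¹ : Matrix.GeneralLinearGroup ι F) : Matrix ι ι F) :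
          Module.End F (ι → F))
        = Matrix.toLin' ((a⁻¹ : Matrix.GeneralLinearGroup ι F) : Matrix ι ι F) *
            (Matrix.toLin' (a : Matrix ι ι F) * g) := by rw [h1, mul_one]
      _ = g := by rw [← mul_assoc, e2, one_mul]

theorem wlib_mat_ext (A B : Matrix ι ι F) (h : ∀ v, Matrix.mulVec A v = Matrix.mulVec B v) :
    A = B := by
  apply Matrix.toLin'.injective
  apply LinearMap.ext
  intro v
  rw [Matrix.toLin'_apply, Matrix.toLin'_apply]
  exact h v

/-- PIECE WLIB (4/4): membership in the normaliser of the image of `K'` is `K'`-semilinearity -/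
theorem mem_normalizer_iff (K' : Type u) [Field K'] [Algebra F K'] [Module K' (ι → F)]
    [IsScalarTower F K' (ι → F)] [Finite K'] (K : Subalgebra F (Matrix ι ι F))
    (j : K' → Matrix ι ι F) (hj : ∀ (k : K') (v : ι → F), k • v = Matrix.mulVec (j k) v)
    (hK : ∀ x, x ∈ K ↔ ∃ k, j k = x) (G : Matrix.GeneralLinearGroup ι F) :
    G ∈ Cfsg.Geo.subalgebraNormalizer K ↔
      Helper98.c3_N K' (Matrix.toLin' (G : Matrix ι ι F) : Module.End F (ι → F)) := by
  have hGG : (G : Matrix ι ι F) * ((G⁻¹ : Matrix.GeneralLinearGroup ι F) : Matrix ι ι F) = 1 := by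
    rw [← Units.val_mul, mul_inv_cancel, Units.val_one]
  have hGG' : ((G⁻¹ : Matrix.GeneralLinearGroup ι F) : Matrix ι ι F) * (G : Matrix ι ι F) = 1 := by
    rw [← Units.val_mul, inv_mul_cancel, Units.val_one]
  constructor
  · intro hG
    rw [Helper97.Gen.mem_subalgebraNormalizer_iff] at hG
    obtain ⟨e1, e2⟩ := toLin_gl_inv G
    refine ⟨⟨_, e1, e2⟩, fun k => ?_⟩
    obtain ⟨k', hk'⟩ := (hK _).mp ((hG (j k)).mp ((hK _).mpr ⟨k, rfl⟩))
    refine ⟨k', fun v => ?_⟩
    rw [hj k', hk', hj k, Matrix.toLin'_apply, Matrix.toLin'_apply, Matrix.mulVec_mulVec,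
      Matrix.mulVec_mulVec, mul_assoc, mul_assoc, hGG', mul_one]
  · rintro ⟨-, hs⟩
    rw [Helper97.Gen.mem_subalgebraNormalizer_iff]
    have hconj : ∀ x ∈ K, (G : Matrix ι ι F) * x *
        ((G⁻¹ : Matrix.GeneralLinearGroup ι F) : Matrix ι ι F) ∈ K := by
      intro x hx
      obtain ⟨k, rfl⟩ := (hK x).mp hx
      obtain ⟨k', hk'⟩ := hs k
      have e : (G : Matrix ι ι F) * j k = j k' * (G : Matrix ι ι F) := by
        apply wlib_mat_ext
        intro v
        have := hk' v
        rw [hj k', hj k, Matrix.toLin'_apply, Matrix.toLin'_apply, Matrix.mulVec_mulVec,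
          Matrix.mulVec_mulVec] at this
        exact this
      rw [e, mul_assoc, hGG, mul_one]
      exact (hK _).mpr ⟨k', rfl⟩
    intro x
    refine ⟨hconj x, fun hx => ?_⟩
    -- conjugation is an injective self-map of the finite set `K`
    have hfin : Finite K := inferInstance
    let c : K → K := fun y => ⟨_, hconj y.1 y.2⟩
    have hinj : Function.Injective c := by
      intro y z hyz
      have h1 : (G : Matrix ι ι F) * y.1 *
          ((G⁻¹ : Matrix.GeneralLinearGroup ι F) : Matrix ι ι F) =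
          (G : Matrix ι ι F) * z.1 *
          ((G⁻¹ : Matrix.GeneralLinearGroup ι F) : Matrix ι ι F) := congrArg Subtype.val hyz
      apply Subtype.ext
      calc y.1 = ((G⁻¹ : Matrix.GeneralLinearGroup ι F) : Matrix ι ι F) *
            ((G : Matrix ι ι F) * y.1 *
              ((G⁻¹ : Matrix.GeneralLinearGroup ι F) : Matrix ι ι F)) *
            (G : Matrix ι ι F) := by
              rw [← mul_assoc, ← mul_assoc, hGG', one_mul, mul_assoc, hGG', mul_one]
        _ = z.1 := by
              rw [h1, ← mul_assoc, ← mul_assoc, hGG', one_mul, mul_assoc, hGG', mul_one]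
    obtain ⟨y, hy⟩ := (Finite.injective_iff_surjective.mp hinj) ⟨_, hx⟩
    have h1 : (G : Matrix ι ι F) * y.1 *
        ((G⁻¹ : Matrix.GeneralLinearGroup ι F) : Matrix ι ι F) =
        (G : Matrix ι ι F) * x *
        ((G⁻¹ : Matrix.GeneralLinearGroup ι F) : Matrix ι ι F) := congrArg Subtype.val hy
    have h2 : y.1 = x := by
      calc y.1 = ((G⁻¹ : Matrix.GeneralLinearGroup ι F) : Matrix ι ι F) *
            ((G : Matrix ι ι F) * y.1 *
              ((G⁻¹ : Matrix.GeneralLinearGroup ι F) : Matrix ι ι F)) *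
            (G : Matrix ι ι F) := by
              rw [← mul_assoc, ← mul_assoc, hGG', one_mul, mul_assoc, hGG', mul_one]
        _ = x := by
              rw [h1, ← mul_assoc, ← mul_assoc, hGG', one_mul, mul_assoc, hGG', mul_one]
    rw [← h2]; exact y.2

end Cfsg.Agent.Helper81.C3S
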