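import Mathlib

/-!
# Rank lemmas for Robinson's theorem

* `rob_rank_map` : the rank of a square matrix over a field does not change under a field
  extension.
* `rob_rank_eq_card` : if an integer matrix `q` is congruent modulo a maximal ideal `I ∋ p` to
  `∑_b u_b(i) c_b v_b(j)` with `c_b ∉ I`, and the families `u`, `v` have right inverses modulo
  `I`, then the rank of `q` modulo `p` is the number of `b`.
-/

set_option autoImplicit false

namespace Cfsg.Agent.Helper81

open Matrix

theorem rob_rank_fromBlocks_one (L : Type*) [Field L] (r k : ℕ) :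
    (Matrix.fromBlocks (1 : Matrix (Fin r) (Fin r) L) 0 0 (0 : Matrix (Fin k) (Fin k) L)).rank
      = r := by
  classical
  have h1 : (Matrix.fromBlocks (1 : Matrix (Fin r) (Fin r) L) 0 0 (0 : Matrix (Fin k) (Fin k) L))
      = Matrix.diagonal (Sum.elim (fun _ : Fin r => (1 : L)) (fun _ : Fin k => (0 : L))) := by
    rw [← Matrix.fromBlocks_diagonal, Matrix.diagonal_one, Matrix.diagonal_zero]
  rw [h1, Matrix.rank_diagonal]
  have e : {i : Fin r ⊕ Fin k // Sum.elim (fun _ : Fin r => (1 : L)) (fun _ : Fin k => (0 : L)) i ≠ 0}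
      ≃ Fin r :=
    { toFun := fun x => match x with
        | ⟨Sum.inl a, _⟩ => a
        | ⟨Sum.inr _, h⟩ => absurd rfl h
      invFun := fun a => ⟨Sum.inl a, by simp⟩
      left_inv := by
        rintro ⟨a | b, h⟩
        · rfl
        · exact absurd rfl h
      right_inv := fun a => rfl }
  rw [Fintype.card_congr e, Fintype.card_fin]

/-- The rank of a square matrix over a field is invariant under field extension. -/
theorem rob_rank_map {K L : Type*} [Field K] [Field L] (f : K →+* L) {m : Type*} [Fintype m]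
    [DecidableEq m] (A : Matrix m m K) : (A.map f).rank = A.rank := by
  obtain ⟨V, U, e, hV, hU, h⟩ := Matrix.exists_rank_normal_form A
  have hV' : IsUnit (V.map f).det := by
    have := hV.map f.mapMatrix
    rw [RingHom.mapMatrix_apply] at this
    exact (Matrix.isUnit_iff_isUnit_det _).mp this
  have hU' : IsUnit (U.map f).det := by
    have := hU.map f.mapMatrix
    rw [RingHom.mapMatrix_apply] at this
    exact (Matrix.isUnit_iff_isUnit_det _).mp this
  have h' : V.map f * A.map f * U.map f =
      (Matrix.fromBlocks (1 : Matrix (Fin A.rank) (Fin A.rank) L) 0 0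
        (0 : Matrix (Fin (Fintype.card m - A.rank)) (Fin (Fintype.card m - A.rank)) L)).submatrix
          e e := by
    rw [← Matrix.map_mul, ← Matrix.map_mul, h, ← Matrix.submatrix_map, Matrix.fromBlocks_map]
    simp
  have h2 : (V.map f * A.map f * U.map f).rank = (A.map f).rank := by
    rw [Matrix.rank_mul_eq_left_of_isUnit_det _ _ hU', Matrix.rank_mul_eq_right_of_isUnit_det _ _ hV']
  rw [← h2, h', Matrix.rank_submatrix, rob_rank_fromBlocks_one]

/-- **Rank of a matrix congruent to a nondegenerate sum of rank-one matrices.** -/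
theorem rob_rank_eq_card {R : Type*} [CommRing R] (I : Ideal R) [hI : I.IsMaximal] {p : ℕ}
    [Fact p.Prime] (hp : (p : R) ∈ I) {ι β : Type*} [Fintype ι] [DecidableEq ι] [Fintype β]
    [DecidableEq β] (q : ι → ι → ℕ) (u v : β → ι → R) (c : β → R) (X Y : ι → β → R)
    (hc : ∀ b, c b ∉ I)
    (hq : ∀ i j, (q i j : R) - ∑ b, u b i * c b * v b j ∈ I)
    (hvX : ∀ b b', (∑ j, v b j * X j b') - (if b = b' then 1 else 0) ∈ I)
    (huY : ∀ b b', (∑ i, u b i * Y i b') - (if b = b' then 1 else 0) ∈ I) :
    (Matrix.of fun i j => ((q i j : ℕ) : ZMod p)).rank = Fintype.card β := by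
  classical
  letI : Field (R ⧸ I) := Ideal.Quotient.field I
  have hp0 : ((p : ℕ) : R ⧸ I) = 0 := by
    have h : Ideal.Quotient.mk I (p : R) = 0 := Ideal.Quotient.eq_zero_iff_mem.mpr hp
    simpa using h
  haveI : CharP (R ⧸ I) p := (CharP.charP_iff_prime_eq_zero (Fact.out : p.Prime)).mpr hp0
  let f : ZMod p →+* R ⧸ I := ZMod.castHom (dvd_refl p) (R ⧸ I)
  let φ : R →+* R ⧸ I := Ideal.Quotient.mk I
  set A : Matrix ι ι (ZMod p) := Matrix.of fun i j => ((q i j : ℕ) : ZMod p) with hAdef
  rw [← rob_rank_map f A]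
  let Um : Matrix β ι (R ⧸ I) := Matrix.of fun b i => φ (u b i)
  let Vm : Matrix β ι (R ⧸ I) := Matrix.of fun b j => φ (v b j)
  let Xm : Matrix ι β (R ⧸ I) := Matrix.of fun j b => φ (X j b)
  let Ym : Matrix ι β (R ⧸ I) := Matrix.of fun i b => φ (Y i b)
  let Cm : Matrix β β (R ⧸ I) := Matrix.diagonal fun b => φ (c b)
  have hA : A.map f = Umᵀ * Cm * Vm := by
    ext i j
    have h1 : φ (q i j : R) = φ (∑ b, u b i * c b * v b j) := Ideal.Quotient.eq.mpr (hq i j)
    simp only [Matrix.map_apply, hAdef, Matrix.of_apply, map_natCast]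
    rw [map_natCast] at h1
    rw [h1, map_sum, Matrix.mul_apply]
    refine Finset.sum_congr rfl fun b _ => ?_
    simp [Um, Cm, Vm, Matrix.mul_apply, Matrix.diagonal_apply, Matrix.transpose_apply, map_mul]
  have hVX : Vm * Xm = 1 := by
    ext b b'
    have h1 : φ (∑ j, v b j * X j b') = φ (if b = b' then 1 else 0) :=
      Ideal.Quotient.eq.mpr (hvX b b')
    rw [Matrix.mul_apply, Matrix.one_apply]
    simp only [Vm, Xm, Matrix.of_apply]
    rw [map_sum] at h1
    simp only [map_mul] at h1
    rw [h1]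
    split_ifs <;> simp
  have hUY : Um * Ym = 1 := by
    ext b b'
    have h1 : φ (∑ i, u b i * Y i b') = φ (if b = b' then 1 else 0) :=
      Ideal.Quotient.eq.mpr (huY b b')
    rw [Matrix.mul_apply, Matrix.one_apply]
    simp only [Um, Ym, Matrix.of_apply]
    rw [map_sum] at h1
    simp only [map_mul] at h1
    rw [h1]
    split_ifs <;> simp
  have hCrank : Cm.rank = Fintype.card β := by
    rw [Matrix.rank_diagonal]
    have : ∀ b, φ (c b) ≠ 0 := fun b h => hc b (Ideal.Quotient.eq_zero_iff_mem.mp h)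
    rw [Fintype.card_subtype]
    simp [this]
  apply le_antisymm
  · rw [hA, Matrix.mul_assoc]
    exact (Matrix.rank_mul_le_left _ _).trans (Matrix.rank_le_card_width _)
  · have h3 : Ymᵀ * (A.map f) * Xm = Cm := by
      rw [hA]
      calc Ymᵀ * (Umᵀ * Cm * Vm) * Xm = (Um * Ym)ᵀ * Cm * (Vm * Xm) := by
            rw [Matrix.transpose_mul]
            simp only [Matrix.mul_assoc]
        _ = Cm := by rw [hVX, hUY]; simp
    rw [← hCrank, ← h3]
    exact (Matrix.rank_mul_le_left _ _).trans (Matrix.rank_mul_le_right _ _)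

end Cfsg.Agent.Helper81
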