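import Mathlib
import Cfsg.Agent.Helper45.StDefs

/-!
# Auxiliary lemmas for the orthogonal BN-pair pieces RANK1B, DECOMPS, DECOMPB (CALL S2547)
-/

set_option autoImplicit false
set_option linter.unusedSectionVars false

universe u

namespace Cfsg.Agent.Helper81.StAux

open Cfsg Cfsg.Agent.Helper13 Cfsg.Agent.Helper95.SpBN Cfsg.Agent.Helper45 Cfsg.Agent.Helper45.St

variable {ι : Type} [Fintype ι] [DecidableEq ι] {F : Type u} [Field F]
  {Q : QuadraticForm F (ι → F)} {m : ℕ} {L R : Fin m → ι}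

theorem flagP_zero (k : ℕ) : FlagP L k (0 : ι → F) := fun _ hc => absurd rfl hc

theorem flagP_add {k : ℕ} {x y : ι → F} (hx : FlagP L k x) (hy : FlagP L k y) :
    FlagP L k (x + y) := by
  intro c hc
  by_cases h : x c = 0
  · apply hy c
    rw [Pi.add_apply, h, zero_add] at hc
    exact hc
  · exact hx c h

theorem flagP_smul {k : ℕ} {x : ι → F} (t : F) (hx : FlagP L k x) : FlagP L k (t • x) := by
  intro c hc
  apply hx c
  intro h
  rw [Pi.smul_apply, h, smul_zero] at hc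
  exact hc rfl

theorem flagP_neg {k : ℕ} {x : ι → F} (hx : FlagP L k x) : FlagP L k (-x) := by
  intro c hc
  apply hx c
  intro h
  rw [Pi.neg_apply, h, neg_zero] at hc
  exact hc rfl

theorem flagP_sub {k : ℕ} {x y : ι → F} (hx : FlagP L k x) (hy : FlagP L k y) :
    FlagP L k (x - y) := by
  rw [sub_eq_add_neg]
  exact flagP_add hx (flagP_neg hy)

theorem flagP_evl (i : Fin m) (k : ℕ) (hi : (i : ℕ) < k) : FlagP L k (ev L R F (Sum.inl i)) :=
  flagP_mono (Nat.succ_le_of_lt hi) _ (flagP_ev i)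

theorem flagP_R (H : HypPairs Q m L R) {k : ℕ} {x : ι → F} (hx : FlagP L k x) (i : Fin m) :
    x (R i) = 0 := by
  by_contra h
  obtain ⟨i', _, h'⟩ := hx _ h
  exact H.hLR i' i h'.symm

theorem flagP_L (H : HypPairs Q m L R) {k : ℕ} {x : ι → F} (hx : FlagP L k x) (i : Fin m)
    (hi : k ≤ (i : ℕ)) : x (L i) = 0 := by
  by_contra h
  obtain ⟨i', hi', h'⟩ := hx _ h
  have h2 := H.hL h'
  subst h2
  omega

theorem flagP_drop {k : ℕ} {x : ι → F} (hx : FlagP L (k + 1) x)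
    (h0 : ∀ i : Fin m, (i : ℕ) = k → x (L i) = 0) : FlagP L k x := by
  intro c hc
  obtain ⟨i, hi, rfl⟩ := hx c hc
  refine ⟨i, ?_, rfl⟩
  by_contra h
  exact hc (h0 i (by omega))

/-- induction principle for vectors of `E_k` -/
theorem flagP_ind (H : HypPairs Q m L R) (P : (ι → F) → Prop) (h0 : P 0)
    (hstep : ∀ (x : ι → F) (i : Fin m) (c : F), P x → (∀ i', x (R i') = 0) →
      P (x + c • ev L R F (Sum.inl i))) :
    ∀ (k : ℕ) (x : ι → F), FlagP L k x → P x := by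
  intro k
  induction k with
  | zero =>
    intro x hx
    have h1 : x = 0 := by
      funext c
      by_contra h
      obtain ⟨i, hi, _⟩ := hx c h
      exact Nat.not_lt_zero _ hi
    rw [h1]
    exact h0
  | succ k ih =>
    intro x hx
    by_cases hk : k < m
    · have hx' : FlagP L k (x - x (L ⟨k, hk⟩) • ev L R F (Sum.inl ⟨k, hk⟩)) := by
        intro c hc
        by_cases hcl : c = L ⟨k, hk⟩
        · exfalso
          apply hc
          rw [hcl, Pi.sub_apply, Pi.smul_apply, ev_apply, idx_inl, if_pos rfl, smul_eq_mul,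
            mul_one, sub_self]
        · rw [Pi.sub_apply, Pi.smul_apply, ev_apply, idx_inl, if_neg hcl, smul_zero,
            sub_zero] at hc
          obtain ⟨i, hi, rfl⟩ := hx c hc
          refine ⟨i, ?_, rfl⟩
          by_contra h
          have h3 : i = ⟨k, hk⟩ := Fin.ext (by show (i : ℕ) = k; omega)
          exact hcl (by rw [h3])
      have h4 := hstep _ ⟨k, hk⟩ (x (L ⟨k, hk⟩)) (ih _ hx') (fun i' => flagP_R H hx' i')
      rwa [sub_add_cancel] at h4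
    · apply ih
      intro c hc
      obtain ⟨i, hi, rfl⟩ := hx c hc
      exact ⟨i, by have := i.2; omega, rfl⟩

theorem polar_V0_ev (H : HypPairs Q m L R) (w : ι → F) (hw : InV0 L R w) (a : Fin m ⊕ Fin m) :
    QuadraticMap.polar ⇑Q w (ev L R F a) = 0 := by
  rw [QuadraticMap.polar_comm, polar_ev H, hw]

/-- `V₀ ⊥ E_k` -/
theorem polar_V0_flagP (H : HypPairs Q m L R) (w : ι → F) (hw : InV0 L R w) (k : ℕ) (x : ι → F)
    (hx : FlagP L k x) : QuadraticMap.polar ⇑Q w x = 0 := by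
  refine flagP_ind H (fun x => QuadraticMap.polar ⇑Q w x = 0) ?_ ?_ k x hx
  · exact QuadraticMap.polar_zero_right _ _
  · intro x i c hx _
    show QuadraticMap.polar ⇑Q w (x + c • ev L R F (Sum.inl i)) = 0
    rw [QuadraticMap.polar_add_right, hx, QuadraticMap.polar_smul_right, polar_V0_ev H w hw,
      smul_zero, add_zero]

/-- `E_k` is totally singular -/
theorem Q_flagP (H : HypPairs Q m L R) (k : ℕ) (x : ι → F) (hx : FlagP L k x) : Q x = 0 := by
  refine flagP_ind H (fun x => Q x = 0) ?_ ?_ k x hx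
  · exact map_zero Q
  · intro x i c hx hR
    show Q (x + c • ev L R F (Sum.inl i)) = 0
    rw [Q_add', hx, QuadraticMap.map_smul, ev_quad H, QuadraticMap.polar_smul_right,
      QuadraticMap.polar_comm, polar_ev H, tauP_inl, idx_inr, hR, smul_zero, smul_zero,
      add_zero, add_zero]

theorem mv_xB_fix (H : HypPairs Q m L R) (a : Fin m ⊕ Fin m) (w : ι → F) (hw : InV0 L R w)
    (x : ι → F) (h1 : x (idx L R (tauP m a)) = 0) (h2 : QuadraticMap.polar ⇑Q w x = 0) :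
    mv ⇑Q (xB Q L R a w) x = x := by
  rw [mv_xB H a w hw, h1, h2, mul_zero, sub_zero, zero_smul, zero_smul, add_zero, sub_zero]

theorem mv_xB_tau (H : HypPairs Q m L R) (a : Fin m ⊕ Fin m) (w : ι → F) (hw : InV0 L R w) :
    mv ⇑Q (xB Q L R a w) (ev L R F (tauP m a)) =
      ev L R F (tauP m a) - Q w • ev L R F a - w := by
  rw [mv_xB H a w hw, polar_V0_ev H w hw, ev_apply, if_pos rfl, zero_sub, mul_one, one_smul,
    neg_smul, ← sub_eq_add_neg]

theorem mv_xB_V0 (H : HypPairs Q m L R) (a : Fin m ⊕ Fin m) (w : ι → F) (hw : InV0 L R w)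
    (x : ι → F) (hx : InV0 L R x) :
    mv ⇑Q (xB Q L R a w) x = x + QuadraticMap.polar ⇑Q w x • ev L R F a := by
  rw [mv_xB H a w hw, hx, mul_zero, sub_zero, zero_smul, sub_zero]

theorem mv_xB_ev (H : HypPairs Q m L R) (a c : Fin m ⊕ Fin m) (hc : c ≠ tauP m a) (w : ι → F)
    (hw : InV0 L R w) : mv ⇑Q (xB Q L R a w) (ev L R F c) = ev L R F c := by
  apply mv_xB_fix H a w hw
  · rw [ev_apply, if_neg]
    intro h
    exact hc (idx_injective H h).symm
  · exact polar_V0_ev H w hw c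

theorem inV0_smul (t : F) (w : ι → F) (hw : InV0 L R w) : InV0 L R (t • w) := by
  intro a
  rw [Pi.smul_apply, hw a, smul_zero]

/-- the short-root reflection fixes `E_j` pointwise -/
theorem mv_sB_flag (H : HypPairs Q m L R) (v₀ : ι → F) (hv₀ : InV0 L R v₀) (j : Fin m)
    (x : ι → F) (hx : FlagP L (j : ℕ) x) : mv ⇑Q (sB Q L R j v₀) x = x := by
  unfold sB
  have hw : InV0 L R ((Q v₀)⁻¹ • v₀) := inV0_smul _ _ hv₀
  have h1 : mv ⇑Q (xB Q L R (Sum.inl j) v₀) x = x :=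
    mv_xB_fix H _ _ hv₀ x (by rw [tauP_inl, idx_inr]; exact flagP_R H hx j)
      (polar_V0_flagP H v₀ hv₀ _ x hx)
  have h2 : mv ⇑Q (xB Q L R (Sum.inr j) ((Q v₀)⁻¹ • v₀)) x = x :=
    mv_xB_fix H _ _ hw x (by rw [tauP_inr, idx_inl]; exact flagP_L H hx j le_rfl)
      (polar_V0_flagP H _ hw _ x hx)
  rw [mv_mul, mv_mul, h1, h2, h1]

/-- the short-root reflection maps `f_j` to `-(Q v₀) e_j` -/
theorem mv_sB_f (H : HypPairs Q m L R) (v₀ : ι → F) (hv₀ : InV0 L R v₀) (hq₀ : Q v₀ ≠ 0)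
    (j : Fin m) :
    mv ⇑Q (sB Q L R j v₀) (ev L R F (Sum.inr j)) = (-(Q v₀)) • ev L R F (Sum.inl j) := by
  unfold sB
  have hw : InV0 L R ((Q v₀)⁻¹ • v₀) := inV0_smul _ _ hv₀
  have h1 : mv ⇑Q (xB Q L R (Sum.inl j) v₀) (ev L R F (Sum.inr j)) =
      ev L R F (Sum.inr j) - Q v₀ • ev L R F (Sum.inl j) - v₀ :=
    mv_xB_tau H (Sum.inl j) v₀ hv₀
  have h2 : mv ⇑Q (xB Q L R (Sum.inr j) ((Q v₀)⁻¹ • v₀)) (ev L R F (Sum.inr j)) =
      ev L R F (Sum.inr j) :=
    mv_xB_ev H _ _ (by rw [tauP_inr]; exact Sum.inr_ne_inl) _ hw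
  have h3 : mv ⇑Q (xB Q L R (Sum.inr j) ((Q v₀)⁻¹ • v₀)) (ev L R F (Sum.inl j)) =
      ev L R F (Sum.inl j) - Q ((Q v₀)⁻¹ • v₀) • ev L R F (Sum.inr j) - (Q v₀)⁻¹ • v₀ :=
    mv_xB_tau H (Sum.inr j) _ hw
  have h4 : mv ⇑Q (xB Q L R (Sum.inr j) ((Q v₀)⁻¹ • v₀)) v₀ =
      v₀ + QuadraticMap.polar ⇑Q ((Q v₀)⁻¹ • v₀) v₀ • ev L R F (Sum.inr j) :=
    mv_xB_V0 H _ _ hw v₀ hv₀
  have h5 : mv ⇑Q (xB Q L R (Sum.inl j) v₀) (ev L R F (Sum.inl j)) = ev L R F (Sum.inl j) :=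
    mv_xB_ev H _ _ (by rw [tauP_inl]; exact Sum.inl_ne_inr) _ hv₀
  have h6 : Q ((Q v₀)⁻¹ • v₀) = (Q v₀)⁻¹ := by
    rw [QuadraticMap.map_smul, smul_eq_mul, mul_assoc, inv_mul_cancel₀ hq₀, mul_one]
  have h7 : QuadraticMap.polar ⇑Q ((Q v₀)⁻¹ • v₀) v₀ = 2 := by
    rw [QuadraticMap.polar_smul_left, Helper44.polar_self_eq, smul_eq_mul, mul_comm, mul_assoc,
      mul_inv_cancel₀ hq₀, mul_one]
  have h8 : Q v₀ * (Q v₀)⁻¹ = 1 := mul_inv_cancel₀ hq₀
  have hA : mv ⇑Q (xB Q L R (Sum.inr j) ((Q v₀)⁻¹ • v₀))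
      (ev L R F (Sum.inr j) - Q v₀ • ev L R F (Sum.inl j) - v₀) =
      (-(Q v₀)) • ev L R F (Sum.inl j) := by
    rw [mv_sub, mv_sub, mv_smul, h2, h3, h4, h6, h7, smul_sub, smul_sub, smul_smul, smul_smul,
      h8, one_smul, one_smul]
    module
  rw [mv_mul, mv_mul, h1, hA, mv_smul, h5]

theorem mv_inv_of (s : ↥(isometryGroup F ⇑Q)) (x y : ι → F) (h : mv ⇑Q s x = y) :
    mv ⇑Q s⁻¹ y = x := by
  rw [← h, mv_inv_cancel']

/-- the diagonal entries of a Borel element do not vanish -/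
theorem borel_diag_ne (H : HypPairs Q m L R) (g : ↥(isometryGroup F ⇑Q)) (hg : g ∈ borelO Q L)
    (j : Fin m) : mv ⇑Q g (ev L R F (Sum.inl j)) (L j) ≠ 0 := by
  intro h0
  have h1 : FlagP L (j : ℕ) (mv ⇑Q g (ev L R F (Sum.inl j))) :=
    flagP_drop (flag_of_mem_borelO g hg j) (fun i hi => by rw [Fin.ext hi]; exact h0)
  have h2 := (hg _ _ h1).2
  rw [mv_inv_cancel'] at h2
  have h3 := flagP_L H h2 j le_rfl
  rw [ev_apply, idx_inl, if_pos rfl] at h3
  exact one_ne_zero h3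

end Cfsg.Agent.Helper81.StAux
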