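import Mathlib
import Cfsg.Agent.Helper45.StDefs
import Cfsg.Agent.Helper81.StAux

/-!
# CALL S2547 piece DECOMPS
-/

set_option autoImplicit false
set_option linter.unusedSectionVars false

universe u

namespace Cfsg.Agent.Helper81.StDECOMPS

open Cfsg Cfsg.Agent.Helper13 Cfsg.Agent.Helper95.SpBN Cfsg.Agent.Helper45 Cfsg.Agent.Helper45.St
  Cfsg.Agent.Helper81.StAux

variable {ι : Type} [Fintype ι] [DecidableEq ι] {F : Type u} [Field F]
  {Q : QuadraticForm F (ι → F)} {m : ℕ} {L R : Fin m → ι}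

theorem evl_L (H : HypPairs Q m L R) (i k : Fin m) :
    ev L R F (Sum.inl i) (L k) = if k = i then 1 else 0 := by
  rw [ev_apply, idx_inl]
  by_cases h : k = i
  · rw [if_pos h, if_pos (by rw [h])]
  · rw [if_neg h, if_neg (fun h' => h (H.hL h'))]

theorem evl_R (H : HypPairs Q m L R) (i k : Fin m) : ev L R F (Sum.inl i) (R k) = 0 := by
  rw [ev_apply, idx_inl, if_neg (H.hLR i k).symm]

theorem rb_eq (j j' : Fin m) (hj' : (j' : ℕ) = (j : ℕ) + 1) : rb j = Sum.inl j' := by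
  have h : (j : ℕ) + 1 < m := by
    rw [← hj']
    exact j'.2
  unfold rb
  rw [dif_pos h]
  exact congrArg Sum.inl (Fin.ext hj'.symm)

theorem mv_xa (H : HypPairs Q m L R) (j j' : Fin m) (hj' : (j' : ℕ) = (j : ℕ) + 1) (t : F)
    (x : ι → F) :
    mv ⇑Q (xa Q L R j t) x =
      x + (t * x (L j')) • ev L R F (Sum.inl j) - (t * x (R j)) • ev L R F (Sum.inr j') := by
  unfold xa
  rw [rb_eq j j' hj']
  have hab : tauP m (Sum.inl j') ≠ tauP m (ra j) := by
    show (Sum.inr j' : Fin m ⊕ Fin m) ≠ Sum.inr j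
    intro h
    have h2 := congrArg Fin.val (Sum.inr.inj h)
    omega
  rw [mv_xS H _ _ hab t x]
  rfl

theorem mv_ya (H : HypPairs Q m L R) (j j' : Fin m) (hj' : (j' : ℕ) = (j : ℕ) + 1) (t : F)
    (x : ι → F) :
    mv ⇑Q (ya Q L R j t) x =
      x + (t * x (L j)) • ev L R F (Sum.inl j') - (t * x (R j')) • ev L R F (Sum.inr j) := by
  unfold ya
  rw [rb_eq j j' hj']
  have hab : tauP m (ra j) ≠ tauP m (Sum.inl j') := by
    show (Sum.inr j : Fin m ⊕ Fin m) ≠ Sum.inr j'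
    intro h
    have h2 := congrArg Fin.val (Sum.inr.inj h)
    omega
  rw [mv_xS H _ _ hab t x]
  rfl

theorem mv_xa_E (H : HypPairs Q m L R) (j j' : Fin m) (hj' : (j' : ℕ) = (j : ℕ) + 1) (t : F)
    (x : ι → F) (hx : x (R j) = 0) :
    mv ⇑Q (xa Q L R j t) x = x + (t * x (L j')) • ev L R F (Sum.inl j) := by
  rw [mv_xa H j j' hj', hx, mul_zero, zero_smul, sub_zero]

theorem mv_ya_E (H : HypPairs Q m L R) (j j' : Fin m) (hj' : (j' : ℕ) = (j : ℕ) + 1) (t : F)
    (x : ι → F) (hx : x (R j') = 0) :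
    mv ⇑Q (ya Q L R j t) x = x + (t * x (L j)) • ev L R F (Sum.inl j') := by
  rw [mv_ya H j j' hj', hx, mul_zero, zero_smul, sub_zero]

/-- the long-root reflection on vectors without `f_j`, `f_{j+1}` components -/
theorem sig_E (H : HypPairs Q m L R) (v₀ : ι → F) (j j' : Fin m)
    (hj' : (j' : ℕ) = (j : ℕ) + 1) (x : ι → F) (hR : x (R j) = 0) (hR' : x (R j') = 0) :
    mv ⇑Q (sigE Q L R v₀ j) x =
      x + (x (L j') - x (L j)) • ev L R F (Sum.inl j) -
        (x (L j) + x (L j')) • ev L R F (Sum.inl j') := by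
  have hj : (j : ℕ) + 1 < m := by
    rw [← hj']
    exact j'.2
  have hne : j' ≠ j := by
    intro h
    rw [h] at hj'
    omega
  unfold sigE
  rw [if_pos hj, mv_mul, mv_mul, mv_xa_E H j j' hj' 1 x hR,
    mv_ya_E H j j' hj' (-1) _ (by
      rw [Pi.add_apply, Pi.smul_apply, hR', evl_R H, smul_zero, add_zero]),
    mv_xa_E H j j' hj' 1 _ (by
      simp only [Pi.add_apply, Pi.smul_apply, hR, evl_R H, smul_zero, add_zero])]
  simp only [Pi.add_apply, Pi.smul_apply, evl_L H, if_pos, if_neg hne, smul_eq_mul, mul_one,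
    mul_zero, add_zero, one_mul]
  module

theorem sig_coord (H : HypPairs Q m L R) (v₀ : ι → F) (j j' : Fin m)
    (hj' : (j' : ℕ) = (j : ℕ) + 1) (x : ι → F) (hR : x (R j) = 0) (hR' : x (R j') = 0)
    (c : ι) :
    mv ⇑Q (sigE Q L R v₀ j) x c =
      if c = L j then x (L j') else if c = L j' then - x (L j) else x c := by
  have hne : j' ≠ j := by
    intro h
    rw [h] at hj'
    omega
  have hLne : L j ≠ L j' := fun h => hne (H.hL h).symm
  rw [sig_E H v₀ j j' hj' x hR hR', Pi.sub_apply, Pi.add_apply, Pi.smul_apply, Pi.smul_apply,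
    ev_apply, ev_apply, idx_inl, idx_inl, smul_eq_mul, smul_eq_mul]
  by_cases h1 : c = L j
  · have h2 : c ≠ L j' := fun h => hLne (h1.symm.trans h)
    simp only [if_pos h1, if_neg h2]
    rw [h1]
    ring
  · by_cases h2 : c = L j'
    · simp only [if_neg h1, if_pos h2]
      rw [h2]
      ring
    · simp only [if_neg h1, if_neg h2]
      ring

theorem p_DECOMPS (H : HypPairs Q m L R) (hB : BCrit Q L R) (v₀ : ι → F) (j : Fin m)
    (hj : (j : ℕ) + 1 < m) (g : ↥(isometryGroup F ⇑Q)) (hg : g ∈ borelO Q L) :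
    ∃ t : F, sigE Q L R v₀ j * (g * xa Q L R j t) * (sigE Q L R v₀ j)⁻¹ ∈ borelO Q L := by
  obtain ⟨j', hj'⟩ : ∃ j' : Fin m, (j' : ℕ) = (j : ℕ) + 1 := ⟨⟨_, hj⟩, rfl⟩
  have hne : j' ≠ j := by
    intro h
    rw [h] at hj'
    omega
  obtain ⟨α, hα⟩ : ∃ α : F, α = mv ⇑Q g (ev L R F (Sum.inl j)) (L j) := ⟨_, rfl⟩
  obtain ⟨γ, hγ⟩ : ∃ γ : F, γ = mv ⇑Q g (ev L R F (Sum.inl j')) (L j) := ⟨_, rfl⟩
  have hα0 : α ≠ 0 := by
    rw [hα]
    exact borel_diag_ne H g hg j
  have hgj : FlagP L ((j : ℕ) + 1) (mv ⇑Q g (ev L R F (Sum.inl j))) :=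
    flag_of_mem_borelO g hg j
  have hgj' : FlagP L ((j : ℕ) + 2) (mv ⇑Q g (ev L R F (Sum.inl j'))) := by
    have h1 : FlagP L ((j' : ℕ) + 1) (mv ⇑Q g (ev L R F (Sum.inl j'))) :=
      flag_of_mem_borelO g hg j'
    rwa [hj'] at h1
  have hs_i : ∀ i : Fin m, i ≠ j → i ≠ j' →
      mv ⇑Q (sigE Q L R v₀ j) (ev L R F (Sum.inl i)) = ev L R F (Sum.inl i) := by
    intro i h1 h2
    have h3 : ¬ j = i := fun h => h1 h.symm
    have h4 : ¬ j' = i := fun h => h2 h.symm
    rw [sig_E H v₀ j j' hj' _ (evl_R H i j) (evl_R H i j')]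
    simp only [evl_L H, if_neg h3, if_neg h4, sub_zero, zero_smul, add_zero]
  have hs_j : mv ⇑Q (sigE Q L R v₀ j) (ev L R F (Sum.inl j)) =
      (-1 : F) • ev L R F (Sum.inl j') := by
    rw [sig_E H v₀ j j' hj' _ (evl_R H j j) (evl_R H j j')]
    simp only [evl_L H, if_true, if_neg hne]
    module
  have hs_j' : mv ⇑Q (sigE Q L R v₀ j) (ev L R F (Sum.inl j')) = ev L R F (Sum.inl j) := by
    rw [sig_E H v₀ j j' hj' _ (evl_R H j' j) (evl_R H j' j')]
    simp only [evl_L H, if_true, if_neg hne.symm]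
    module
  refine ⟨-γ / α, hB _ ?_⟩
  intro i
  rw [mv_mul, mv_mul, mv_mul]
  by_cases hij : i = j
  · rw [hij]
    have hsinv : mv ⇑Q (sigE Q L R v₀ j)⁻¹ (ev L R F (Sum.inl j)) = ev L R F (Sum.inl j') :=
      mv_inv_of _ _ _ hs_j'
    have hxa : mv ⇑Q (xa Q L R j (-γ / α)) (ev L R F (Sum.inl j')) =
        ev L R F (Sum.inl j') + (-γ / α) • ev L R F (Sum.inl j) := by
      rw [mv_xa_E H j j' hj' _ _ (evl_R H j' j), evl_L H, if_pos rfl, mul_one]
    rw [hsinv, hxa, mv_add, mv_smul]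
    have hy : FlagP L ((j : ℕ) + 2) (mv ⇑Q g (ev L R F (Sum.inl j')) +
        (-γ / α) • mv ⇑Q g (ev L R F (Sum.inl j))) :=
      flagP_add hgj' (flagP_smul _ (flagP_mono (Nat.le_succ _) _ hgj))
    have hyj : (mv ⇑Q g (ev L R F (Sum.inl j')) +
        (-γ / α) • mv ⇑Q g (ev L R F (Sum.inl j))) (L j) = 0 := by
      rw [Pi.add_apply, Pi.smul_apply, ← hγ, ← hα, smul_eq_mul]
      field_simp
      ring
    intro c hc
    rw [sig_coord H v₀ j j' hj' _ (flagP_R H hy j) (flagP_R H hy j')] at hc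
    by_cases h1 : c = L j
    · exact ⟨j, Nat.lt_succ_self _, h1⟩
    · rw [if_neg h1] at hc
      by_cases h2 : c = L j'
      · rw [if_pos h2, hyj, neg_zero] at hc
        exact absurd rfl hc
      · rw [if_neg h2] at hc
        obtain ⟨i', hi', rfl⟩ := hy c hc
        refine ⟨i', ?_, rfl⟩
        have h3 : (i' : ℕ) ≠ j := fun h => h1 (by rw [Fin.ext h])
        have h4 : (i' : ℕ) ≠ (j : ℕ) + 1 := fun h => h2 (by rw [Fin.ext (h.trans hj'.symm)])
        omega
  · by_cases hij' : i = j'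
    · rw [hij']
      have hsinv : mv ⇑Q (sigE Q L R v₀ j)⁻¹ (ev L R F (Sum.inl j')) =
          (-1 : F) • ev L R F (Sum.inl j) := by
        apply mv_inv_of
        rw [mv_smul, hs_j, smul_smul, neg_mul_neg, one_mul, one_smul]
      have hxa : mv ⇑Q (xa Q L R j (-γ / α)) (ev L R F (Sum.inl j)) = ev L R F (Sum.inl j) := by
        rw [mv_xa_E H j j' hj' _ _ (evl_R H j j), evl_L H, if_neg hne, mul_zero, zero_smul,
          add_zero]
      rw [hsinv, mv_smul, hxa, mv_smul, mv_smul]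
      apply flagP_smul
      intro c hc
      rw [sig_coord H v₀ j j' hj' _ (flagP_R H hgj j) (flagP_R H hgj j')] at hc
      by_cases h1 : c = L j
      · exact ⟨j, by omega, h1⟩
      · by_cases h2 : c = L j'
        · exact ⟨j', by omega, h2⟩
        · rw [if_neg h1, if_neg h2] at hc
          obtain ⟨i', hi', rfl⟩ := hgj c hc
          exact ⟨i', by omega, rfl⟩
    · have hsinv : mv ⇑Q (sigE Q L R v₀ j)⁻¹ (ev L R F (Sum.inl i)) = ev L R F (Sum.inl i) :=
        mv_inv_of _ _ _ (hs_i i hij hij')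
      have hxa : mv ⇑Q (xa Q L R j (-γ / α)) (ev L R F (Sum.inl i)) = ev L R F (Sum.inl i) := by
        rw [mv_xa_E H j j' hj' _ _ (evl_R H i j), evl_L H, if_neg (fun h => hij' h.symm),
          mul_zero, zero_smul, add_zero]
      rw [hsinv, hxa]
      have hgi : FlagP L ((i : ℕ) + 1) (mv ⇑Q g (ev L R F (Sum.inl i))) :=
        flag_of_mem_borelO g hg i
      have hi3 : (i : ℕ) ≠ j := fun h => hij (Fin.ext h)
      intro c hc
      rw [sig_coord H v₀ j j' hj' _ (flagP_R H hgi j) (flagP_R H hgi j')] at hc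
      by_cases h1 : c = L j
      · rw [if_pos h1] at hc
        obtain ⟨i', hi', h3⟩ := hgi _ hc
        have h4 : (i' : ℕ) = (j : ℕ) + 1 := by rw [← H.hL h3, hj']
        exact ⟨j, by omega, h1⟩
      · rw [if_neg h1] at hc
        by_cases h2 : c = L j'
        · rw [if_pos h2] at hc
          have hc' : mv ⇑Q g (ev L R F (Sum.inl i)) (L j) ≠ 0 := fun h => hc (by rw [h, neg_zero])
          obtain ⟨i', hi', h3⟩ := hgi _ hc'
          have h4 : (i' : ℕ) = (j : ℕ) := by rw [← H.hL h3]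
          exact ⟨j', by omega, h2⟩
        · rw [if_neg h2] at hc
          exact hgi c hc

end Cfsg.Agent.Helper81.StDECOMPS
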