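import Mathlib
import Cfsg.Agent.Helper45.StDefs
import Cfsg.Agent.Helper81.StAux
import Cfsg.Agent.Helper81.StDECOMPS

/-!
# More auxiliary lemmas for the orthogonal BN-pair pieces (CALL S2547): the simple reflections on
the frame vectors `e_i`
-/

set_option autoImplicit false
set_option linter.unusedSectionVars false

universe u

namespace Cfsg.Agent.Helper81.StAux2

open Cfsg Cfsg.Agent.Helper13 Cfsg.Agent.Helper95.SpBN Cfsg.Agent.Helper45 Cfsg.Agent.Helper45.St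
  Cfsg.Agent.Helper81.StAux Cfsg.Agent.Helper81.StDECOMPS

variable {ι : Type} [Fintype ι] [DecidableEq ι] {F : Type u} [Field F]
  {Q : QuadraticForm F (ι → F)} {m : ℕ} {L R : Fin m → ι}

theorem sig_ev_i (H : HypPairs Q m L R) (v₀ : ι → F) (j j' : Fin m)
    (hj' : (j' : ℕ) = (j : ℕ) + 1) (i : Fin m) (h1 : i ≠ j) (h2 : i ≠ j') :
    mv ⇑Q (sigE Q L R v₀ j) (ev L R F (Sum.inl i)) = ev L R F (Sum.inl i) := by
  have h3 : ¬ j = i := fun h => h1 h.symm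
  have h4 : ¬ j' = i := fun h => h2 h.symm
  rw [sig_E H v₀ j j' hj' _ (evl_R H i j) (evl_R H i j')]
  simp only [evl_L H, if_neg h3, if_neg h4, sub_zero, zero_smul, add_zero]

theorem sig_ev_j (H : HypPairs Q m L R) (v₀ : ι → F) (j j' : Fin m)
    (hj' : (j' : ℕ) = (j : ℕ) + 1) :
    mv ⇑Q (sigE Q L R v₀ j) (ev L R F (Sum.inl j)) = (-1 : F) • ev L R F (Sum.inl j') := by
  have hne : j' ≠ j := by
    intro h
    rw [h] at hj'
    omega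
  rw [sig_E H v₀ j j' hj' _ (evl_R H j j) (evl_R H j j')]
  simp only [evl_L H, if_true, if_neg hne]
  module

theorem sig_ev_j' (H : HypPairs Q m L R) (v₀ : ι → F) (j j' : Fin m)
    (hj' : (j' : ℕ) = (j : ℕ) + 1) :
    mv ⇑Q (sigE Q L R v₀ j) (ev L R F (Sum.inl j')) = ev L R F (Sum.inl j) := by
  have hne : j' ≠ j := by
    intro h
    rw [h] at hj'
    omega
  rw [sig_E H v₀ j j' hj' _ (evl_R H j' j) (evl_R H j' j')]
  simp only [evl_L H, if_true, if_neg hne.symm]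
  module

/-- the short-root reflection maps `e_j` to `-(Q v₀)⁻¹ f_j` -/
theorem mv_sB_e (H : HypPairs Q m L R) (v₀ : ι → F) (hv₀ : InV0 L R v₀) (hq₀ : Q v₀ ≠ 0)
    (j : Fin m) :
    mv ⇑Q (sB Q L R j v₀) (ev L R F (Sum.inl j)) = (-(Q v₀)⁻¹) • ev L R F (Sum.inr j) := by
  unfold sB
  have hw : InV0 L R ((Q v₀)⁻¹ • v₀) := inV0_smul _ _ hv₀
  have h1 : mv ⇑Q (xB Q L R (Sum.inr j) ((Q v₀)⁻¹ • v₀)) (ev L R F (Sum.inl j)) =
      ev L R F (Sum.inl j) - Q ((Q v₀)⁻¹ • v₀) • ev L R F (Sum.inr j) - (Q v₀)⁻¹ • v₀ :=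
    mv_xB_tau H (Sum.inr j) _ hw
  have h2 : mv ⇑Q (xB Q L R (Sum.inl j) v₀) (ev L R F (Sum.inl j)) = ev L R F (Sum.inl j) :=
    mv_xB_ev H _ _ (by rw [tauP_inl]; exact Sum.inl_ne_inr) _ hv₀
  have h3 : mv ⇑Q (xB Q L R (Sum.inl j) v₀) (ev L R F (Sum.inr j)) =
      ev L R F (Sum.inr j) - Q v₀ • ev L R F (Sum.inl j) - v₀ :=
    mv_xB_tau H (Sum.inl j) v₀ hv₀
  have h4 : mv ⇑Q (xB Q L R (Sum.inl j) v₀) ((Q v₀)⁻¹ • v₀) =
      (Q v₀)⁻¹ • v₀ + QuadraticMap.polar ⇑Q v₀ ((Q v₀)⁻¹ • v₀) • ev L R F (Sum.inl j) :=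
    mv_xB_V0 H _ _ hv₀ _ hw
  have h6 : Q ((Q v₀)⁻¹ • v₀) = (Q v₀)⁻¹ := by
    rw [QuadraticMap.map_smul, smul_eq_mul, mul_assoc, inv_mul_cancel₀ hq₀, mul_one]
  have h7 : QuadraticMap.polar ⇑Q v₀ ((Q v₀)⁻¹ • v₀) = 2 := by
    rw [QuadraticMap.polar_smul_right, Helper44.polar_self_eq, smul_eq_mul, mul_comm,
      mul_assoc, mul_inv_cancel₀ hq₀, mul_one]
  have h8 : (Q v₀)⁻¹ * Q v₀ = 1 := inv_mul_cancel₀ hq₀
  have hA : mv ⇑Q (xB Q L R (Sum.inl j) v₀)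
      (ev L R F (Sum.inl j) - (Q v₀)⁻¹ • ev L R F (Sum.inr j) - (Q v₀)⁻¹ • v₀) =
      (-(Q v₀)⁻¹) • ev L R F (Sum.inr j) := by
    rw [mv_sub, mv_sub, h4, mv_smul, h2, h3, h7, smul_sub, smul_sub, smul_smul, h8, one_smul]
    module
  rw [mv_mul, mv_mul, h2, h1, h6, hA]

end Cfsg.Agent.Helper81.StAux2
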