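import Mathlib
import Cfsg.Agent.Helper45.StDefs
import Cfsg.Agent.Helper81.StAux2

/-!
# CALL S2547 piece CNE
-/

set_option autoImplicit false
set_option linter.unusedSectionVars false

universe u

namespace Cfsg.Agent.Helper81.StCNE

open Cfsg Cfsg.Agent.Helper13 Cfsg.Agent.Helper95.SpBN Cfsg.Agent.Helper45 Cfsg.Agent.Helper45.St
  Cfsg.Agent.Helper81.StAux Cfsg.Agent.Helper81.StDECOMPS Cfsg.Agent.Helper81.StAux2

variable {ι : Type} [Fintype ι] [DecidableEq ι] {F : Type u} [Field F]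
  {Q : QuadraticForm F (ι → F)} {m : ℕ} {L R : Fin m → ι}

theorem p_CNES (H : HypPairs Q m L R) (v₀ : ι → F) (j : Fin m) (hj : (j : ℕ) + 1 < m) :
    sigE Q L R v₀ j * xa Q L R j 1 * sigE Q L R v₀ j ∉ borelO Q L := by
  obtain ⟨j', hj'⟩ : ∃ j' : Fin m, (j' : ℕ) = (j : ℕ) + 1 := ⟨⟨_, hj⟩, rfl⟩
  have hne : j' ≠ j := by
    intro h
    rw [h] at hj'
    omega
  intro hmem
  have h1 : FlagP L ((j : ℕ) + 1) (mv ⇑Q (sigE Q L R v₀ j * xa Q L R j 1 * sigE Q L R v₀ j)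
      (ev L R F (Sum.inl j))) := flag_of_mem_borelO _ hmem j
  have h2 : mv ⇑Q (xa Q L R j 1) (ev L R F (Sum.inl j')) =
      ev L R F (Sum.inl j') + ev L R F (Sum.inl j) := by
    rw [mv_xa_E H j j' hj' _ _ (evl_R H j' j), evl_L H, if_pos rfl, mul_one, one_smul]
  rw [mv_mul, mv_mul, sig_ev_j H v₀ j j' hj', mv_smul, h2, mv_smul, mv_add,
    sig_ev_j' H v₀ j j' hj', sig_ev_j H v₀ j j' hj'] at h1
  have h3 := flagP_L H h1 j' (by omega)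
  simp only [Pi.add_apply, Pi.smul_apply, evl_L H, if_neg hne, if_true, smul_eq_mul, mul_one,
    zero_add, neg_mul_neg] at h3
  exact one_ne_zero h3

theorem p_CNEB (H : HypPairs Q m L R) (v₀ : ι → F) (hv₀ : InV0 L R v₀) (hq₀ : Q v₀ ≠ 0)
    (j : Fin m) (hj : ¬ (j : ℕ) + 1 < m) :
    sigE Q L R v₀ j * xB Q L R (Sum.inl j) v₀ * sigE Q L R v₀ j ∉ borelO Q L := by
  have hs : sigE Q L R v₀ j = sB Q L R j v₀ := by
    unfold sigE
    rw [if_neg hj]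
  intro hmem
  rw [hs] at hmem
  have h1 : FlagP L ((j : ℕ) + 1) (mv ⇑Q (sB Q L R j v₀ * xB Q L R (Sum.inl j) v₀ *
      sB Q L R j v₀) (ev L R F (Sum.inl j))) := flag_of_mem_borelO _ hmem j
  rw [mv_mul, mv_mul, mv_sB_e H v₀ hv₀ hq₀ j, mv_smul] at h1
  have hx : mv ⇑Q (xB Q L R (Sum.inl j) v₀) (ev L R F (Sum.inr j)) =
      ev L R F (Sum.inr j) - Q v₀ • ev L R F (Sum.inl j) - v₀ :=
    mv_xB_tau H (Sum.inl j) v₀ hv₀
  rw [hx] at h1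
  have h2 := flagP_R H h1 j
  have h3 := polar_ev H (Sum.inl j) (mv ⇑Q (sB Q L R j v₀)
    ((-(Q v₀)⁻¹) • (ev L R F (Sum.inr j) - Q v₀ • ev L R F (Sum.inl j) - v₀)))
  rw [tauP_inl, idx_inr, h2] at h3
  have hsinv : mv ⇑Q (sB Q L R j v₀) ((-(Q v₀)⁻¹) • ev L R F (Sum.inr j)) =
      ev L R F (Sum.inl j) := by
    rw [mv_smul, mv_sB_f H v₀ hv₀ hq₀ j, smul_smul, neg_mul_neg, inv_mul_cancel₀ hq₀, one_smul]
  have h4 := mv_polar Q (sB Q L R j v₀) ((-(Q v₀)⁻¹) • ev L R F (Sum.inr j))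
    ((-(Q v₀)⁻¹) • (ev L R F (Sum.inr j) - Q v₀ • ev L R F (Sum.inl j) - v₀))
  rw [hsinv, h3] at h4
  rw [QuadraticMap.polar_smul_left, QuadraticMap.polar_smul_right, QuadraticMap.polar_sub_right,
    QuadraticMap.polar_sub_right, QuadraticMap.polar_smul_right, polar_ev_ev H, polar_ev_ev H,
    polar_ev_V0 H _ v₀ hv₀, if_neg (by rw [tauP_inr]; exact Sum.inr_ne_inl),
    if_pos (by rw [tauP_inr])] at h4
  simp only [smul_eq_mul, mul_one, zero_sub, sub_zero, mul_neg] at h4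
  have h5 : -(-(Q v₀)⁻¹ * (-(Q v₀)⁻¹ * Q v₀)) = -(Q v₀)⁻¹ := by
    rw [neg_mul (Q v₀)⁻¹ (Q v₀), inv_mul_cancel₀ hq₀, mul_neg, mul_one, neg_neg]
  rw [h5] at h4
  exact inv_ne_zero hq₀ (neg_eq_zero.mp h4.symm)

end Cfsg.Agent.Helper81.StCNE
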