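import Mathlib
import Cfsg.Agent.Helper45.StDefs
import Cfsg.Agent.Helper81.StAux

/-!
# CALL S2547 piece DECOMPB
-/

set_option autoImplicit false
set_option linter.unusedSectionVars false

universe u

namespace Cfsg.Agent.Helper81.StDECOMPB

open Cfsg Cfsg.Agent.Helper13 Cfsg.Agent.Helper95.SpBN Cfsg.Agent.Helper45 Cfsg.Agent.Helper45.St
  Cfsg.Agent.Helper81.StAux

variable {ι : Type} [Fintype ι] [DecidableEq ι] {F : Type u} [Field F]
  {Q : QuadraticForm F (ι → F)} {m : ℕ} {L R : Fin m → ι}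

theorem p_DECOMPB (H : HypPairs Q m L R) (hB : BCrit Q L R) (v₀ : ι → F) (hv₀ : InV0 L R v₀)
    (hq₀ : Q v₀ ≠ 0) (j : Fin m) (hj : ¬ (j : ℕ) + 1 < m) (g : ↥(isometryGroup F ⇑Q))
    (hg : g ∈ borelO Q L) :
    ∃ v : ι → F, InV0 L R v ∧
      sigE Q L R v₀ j * (g * xB Q L R (Sum.inl j) v) * (sigE Q L R v₀ j)⁻¹ ∈ borelO Q L := by
  classical
  have hs : sigE Q L R v₀ j = sB Q L R j v₀ := by
    unfold sigE
    rw [if_neg hj]
  have hmj : m = (j : ℕ) + 1 := by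
    have h4 := j.2
    omega
  obtain ⟨u, hu⟩ : ∃ u : ι → F, u = mv ⇑Q g⁻¹ (ev L R F (Sum.inr j)) := ⟨_, rfl⟩
  have hgu : mv ⇑Q g u = ev L R F (Sum.inr j) := by rw [hu, mv_inv_cancel]
  have huR : ∀ i : Fin m, u (R i) = mv ⇑Q g (ev L R F (Sum.inl i)) (L j) := by
    intro i
    have h1 : QuadraticMap.polar ⇑Q (ev L R F (Sum.inl i)) u = u (R i) :=
      polar_ev H (Sum.inl i) u
    have h3 := mv_polar Q g (ev L R F (Sum.inl i)) u
    rw [hgu, QuadraticMap.polar_comm, polar_ev H, h1] at h3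
    exact h3.symm
  obtain ⟨b, hb⟩ : ∃ b : F, b = u (R j) := ⟨_, rfl⟩
  have hb0 : b ≠ 0 := by
    rw [hb, huR]
    exact borel_diag_ne H g hg j
  have huRi : ∀ i : Fin m, i ≠ j → u (R i) = 0 := by
    intro i hij
    rw [huR]
    have hlt : (i : ℕ) + 1 ≤ (j : ℕ) := by
      have h3 := i.2
      have h4 := j.2
      have h5 : (i : ℕ) ≠ j := fun h => hij (Fin.ext h)
      omega
    exact flagP_L H (flag_of_mem_borelO g hg i) j hlt
  obtain ⟨v', hv'⟩ : ∃ v' : ι → F, ∀ c, v' c = if ∃ a, c = idx L R a then 0 else u c :=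
    ⟨fun c => if ∃ a, c = idx L R a then 0 else u c, fun c => rfl⟩
  have hv'0 : InV0 L R v' := fun a => by rw [hv', if_pos ⟨a, rfl⟩]
  obtain ⟨v, hv⟩ : ∃ v : ι → F, v = (-b⁻¹) • v' := ⟨_, rfl⟩
  have hv0 : InV0 L R v := by
    rw [hv]
    exact inV0_smul _ _ hv'0
  obtain ⟨y, hy⟩ : ∃ y : ι → F,
      y = ev L R F (Sum.inr j) - Q v • ev L R F (Sum.inl j) - v := ⟨_, rfl⟩
  have hyx : mv ⇑Q (xB Q L R (Sum.inl j) v) (ev L R F (Sum.inr j)) = y := by
    rw [hy]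
    exact mv_xB_tau H (Sum.inl j) v hv0
  have hQy : Q y = 0 := by
    rw [← hyx]
    exact (mv_quad ⇑Q _ _).trans (ev_quad H _)
  obtain ⟨r, hr⟩ : ∃ r : ι → F, r = u - b • y := ⟨_, rfl⟩
  have hrE : FlagP L m r := by
    intro c hc
    by_contra hcon
    apply hc
    have hcL : ∀ i : Fin m, c ≠ L i := fun i h => hcon ⟨i, i.2, h⟩
    rw [hr, hy, Pi.sub_apply, Pi.smul_apply, Pi.sub_apply, Pi.sub_apply, Pi.smul_apply, ev_apply,
      ev_apply, idx_inl, idx_inr, if_neg (hcL j), smul_zero, sub_zero, smul_eq_mul]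
    by_cases hfr : ∃ a, c = idx L R a
    · obtain ⟨a, rfl⟩ := hfr
      rcases a with i | i
      · exact absurd rfl (hcL i)
      · rw [hv0 (Sum.inr i), sub_zero, idx_inr]
        by_cases hij : i = j
        · rw [hij, if_pos rfl, mul_one, ← hb, sub_self]
        · rw [if_neg (fun h => hij (H.hR h)), mul_zero, sub_zero]
          exact huRi i hij
    · rw [if_neg (show ¬ c = R j from fun h => hfr ⟨Sum.inr j, h⟩), zero_sub, hv, Pi.smul_apply, hv', if_neg hfr,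
        smul_eq_mul]
      field_simp
      ring
  have hQu : Q u = 0 := by
    rw [hu]
    exact (mv_quad ⇑Q _ _).trans (ev_quad H _)
  have hur : u = r + b • y := by
    rw [hr, sub_add_cancel]
  have hpol : QuadraticMap.polar ⇑Q r y = r (L j) := by
    rw [hy, QuadraticMap.polar_sub_right, QuadraticMap.polar_sub_right,
      QuadraticMap.polar_smul_right, QuadraticMap.polar_comm ⇑Q r (ev L R F (Sum.inr j)),
      polar_ev H, QuadraticMap.polar_comm ⇑Q r (ev L R F (Sum.inl j)), polar_ev H,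
      QuadraticMap.polar_comm ⇑Q r v, polar_V0_flagP H v hv0 m r hrE, tauP_inr, tauP_inl, idx_inl,
      idx_inr, flagP_R H hrE j, smul_zero, sub_zero, sub_zero]
  have hrLj : r (L j) = 0 := by
    have h1 := hQu
    rw [hur, Q_add', Q_flagP H m r hrE, QuadraticMap.map_smul, hQy, QuadraticMap.polar_smul_right,
      hpol, smul_zero, zero_add, zero_add, smul_eq_mul] at h1
    rcases mul_eq_zero.mp h1 with h2 | h2
    · exact absurd h2 hb0
    · exact h2
  have hrj : FlagP L (j : ℕ) r :=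
    flagP_drop (flagP_mono (le_of_eq hmj) _ hrE) (fun i hi => by rw [Fin.ext hi]; exact hrLj)
  have hgr : FlagP L (j : ℕ) (mv ⇑Q g r) := (hg _ _ hrj).1
  have hgy : mv ⇑Q g y = b⁻¹ • (ev L R F (Sum.inr j) - mv ⇑Q g r) := by
    have h1 := hgu
    rw [hur, mv_add, mv_smul] at h1
    rw [← h1, add_sub_cancel_left, smul_smul, inv_mul_cancel₀ hb0, one_smul]
  refine ⟨v, hv0, hB _ ?_⟩
  intro i
  rw [hs, mv_mul, mv_mul, mv_mul]
  by_cases hij : i = j
  · rw [hij]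
    have hsinv : mv ⇑Q (sB Q L R j v₀)⁻¹ (ev L R F (Sum.inl j)) =
        (-(Q v₀)⁻¹) • ev L R F (Sum.inr j) := by
      apply mv_inv_of
      rw [mv_smul, mv_sB_f H v₀ hv₀ hq₀ j, smul_smul, neg_mul_neg, inv_mul_cancel₀ hq₀, one_smul]
    rw [hsinv, mv_smul, hyx, mv_smul, hgy, mv_smul, mv_smul, mv_sub, mv_sB_f H v₀ hv₀ hq₀ j,
      mv_sB_flag H v₀ hv₀ j _ hgr]
    exact flagP_smul _ (flagP_smul _ (flagP_sub (flagP_smul _ (flagP_ev j))
      (flagP_mono (Nat.le_succ _) _ hgr)))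
  · have hlt : (i : ℕ) + 1 ≤ (j : ℕ) := by
      have h3 := i.2
      have h4 := j.2
      have h5 : (i : ℕ) ≠ j := fun h => hij (Fin.ext h)
      omega
    have he : FlagP L (j : ℕ) (ev L R F (Sum.inl i)) := flagP_mono hlt _ (flagP_ev i)
    have hsinv : mv ⇑Q (sB Q L R j v₀)⁻¹ (ev L R F (Sum.inl i)) = ev L R F (Sum.inl i) :=
      mv_inv_of _ _ _ (mv_sB_flag H v₀ hv₀ j _ he)
    have hx : mv ⇑Q (xB Q L R (Sum.inl j) v) (ev L R F (Sum.inl i)) = ev L R F (Sum.inl i) :=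
      mv_xB_ev H _ _ (by rw [tauP_inl]; exact Sum.inl_ne_inr) _ hv0
    have hgi : FlagP L ((i : ℕ) + 1) (mv ⇑Q g (ev L R F (Sum.inl i))) :=
      flag_of_mem_borelO g hg i
    rw [hsinv, hx, mv_sB_flag H v₀ hv₀ j _ (flagP_mono hlt _ hgi)]
    exact hgi

end Cfsg.Agent.Helper81.StDECOMPB
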