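import Mathlib
import Cfsg.Agent.Helper45.StDefs
import Cfsg.Agent.Helper81.StAux

/-!
# CALL S2547 piece RANK1B
-/

set_option autoImplicit false
set_option linter.unusedSectionVars false

universe u

namespace Cfsg.Agent.Helper81.StRANK1B

open Cfsg Cfsg.Agent.Helper13 Cfsg.Agent.Helper95.SpBN Cfsg.Agent.Helper45 Cfsg.Agent.Helper45.St
  Cfsg.Agent.Helper81.StAux

variable {ι : Type} [Fintype ι] [DecidableEq ι] {F : Type u} [Field F]
  {Q : QuadraticForm F (ι → F)} {m : ℕ} {L R : Fin m → ι}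

theorem p_RANK1B (H : HypPairs Q m L R) (hB : BCrit Q L R) (v₀ : ι → F) (hv₀ : InV0 L R v₀)
    (hq₀ : Q v₀ ≠ 0) (j : Fin m) (hj : ¬ (j : ℕ) + 1 < m) (v : ι → F) (hv : InV0 L R v)
    (hqv : Q v ≠ 0) :
    ∃ v' : ι → F, InV0 L R v' ∧
      sigE Q L R v₀ j * xB Q L R (Sum.inl j) v * xB Q L R (Sum.inr j) v' ∈ borelO Q L := by
  have hw : InV0 L R ((Q v)⁻¹ • v) := inV0_smul _ _ hv
  refine ⟨(Q v)⁻¹ • v, hw, hB _ ?_⟩
  intro i
  have hs : sigE Q L R v₀ j = sB Q L R j v₀ := by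
    unfold sigE
    rw [if_neg hj]
  rw [hs, mv_mul, mv_mul]
  by_cases hij : i = j
  · rw [hij]
    have h1 : mv ⇑Q (xB Q L R (Sum.inr j) ((Q v)⁻¹ • v)) (ev L R F (Sum.inl j)) =
        ev L R F (Sum.inl j) - Q ((Q v)⁻¹ • v) • ev L R F (Sum.inr j) - (Q v)⁻¹ • v :=
      mv_xB_tau H (Sum.inr j) _ hw
    have h2 : mv ⇑Q (xB Q L R (Sum.inl j) v) (ev L R F (Sum.inl j)) = ev L R F (Sum.inl j) :=
      mv_xB_ev H _ _ (by rw [tauP_inl]; exact Sum.inl_ne_inr) _ hv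
    have h3 : mv ⇑Q (xB Q L R (Sum.inl j) v) (ev L R F (Sum.inr j)) =
        ev L R F (Sum.inr j) - Q v • ev L R F (Sum.inl j) - v :=
      mv_xB_tau H (Sum.inl j) v hv
    have h4 : mv ⇑Q (xB Q L R (Sum.inl j) v) ((Q v)⁻¹ • v) =
        (Q v)⁻¹ • v + QuadraticMap.polar ⇑Q v ((Q v)⁻¹ • v) • ev L R F (Sum.inl j) :=
      mv_xB_V0 H _ _ hv _ hw
    have h6 : Q ((Q v)⁻¹ • v) = (Q v)⁻¹ := by
      rw [QuadraticMap.map_smul, smul_eq_mul, mul_assoc, inv_mul_cancel₀ hqv, mul_one]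
    have h7 : QuadraticMap.polar ⇑Q v ((Q v)⁻¹ • v) = 2 := by
      rw [QuadraticMap.polar_smul_right, Helper44.polar_self_eq, smul_eq_mul, mul_comm,
        mul_assoc, mul_inv_cancel₀ hqv, mul_one]
    have h8 : (Q v)⁻¹ * Q v = 1 := inv_mul_cancel₀ hqv
    have hA : mv ⇑Q (xB Q L R (Sum.inl j) v)
        (ev L R F (Sum.inl j) - (Q v)⁻¹ • ev L R F (Sum.inr j) - (Q v)⁻¹ • v) =
        (-(Q v)⁻¹) • ev L R F (Sum.inr j) := by
      rw [mv_sub, mv_sub, h4, mv_smul, h2, h3, h7, smul_sub, smul_sub, smul_smul, h8, one_smul]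
      module
    rw [h1, h6, hA, mv_smul, mv_sB_f H v₀ hv₀ hq₀ j]
    exact flagP_smul _ (flagP_smul _ (flagP_ev j))
  · have hne : (Sum.inl i : Fin m ⊕ Fin m) ≠ Sum.inl j := fun h => hij (Sum.inl.inj h)
    have h1 : mv ⇑Q (xB Q L R (Sum.inr j) ((Q v)⁻¹ • v)) (ev L R F (Sum.inl i)) =
        ev L R F (Sum.inl i) :=
      mv_xB_ev H _ _ (by rw [tauP_inr]; exact hne) _ hw
    have h2 : mv ⇑Q (xB Q L R (Sum.inl j) v) (ev L R F (Sum.inl i)) = ev L R F (Sum.inl i) :=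
      mv_xB_ev H _ _ (by rw [tauP_inl]; exact Sum.inl_ne_inr) _ hv
    have hlt : (i : ℕ) + 1 ≤ (j : ℕ) := by
      have h3 := i.2
      have h4 := j.2
      have h5 : (i : ℕ) ≠ j := fun h => hij (Fin.ext h)
      omega
    rw [h1, h2, mv_sB_flag H v₀ hv₀ j _ (flagP_mono hlt _ (flagP_ev i))]
    exact flagP_ev i

end Cfsg.Agent.Helper81.StRANK1B
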