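import Mathlib
import Cfsg.Agent.Helper45.StDDefs
import Cfsg.Agent.Helper81.StAux

/-!
# Auxiliary lemmas for the type `D` BN-pair pieces (CALL S2548): the reflection attached to a
Siegel root on arbitrary vectors, and the coordinate calculus when the frame is a basis (`V₀ = 0`)
-/

set_option autoImplicit false
set_option linter.unusedSectionVars false
set_option linter.unusedSimpArgs false

universe u

namespace Cfsg.Agent.Helper81.StDAux

open Cfsg Cfsg.Agent.Helper13 Cfsg.Agent.Helper95.SpBN Cfsg.Agent.Helper45 Cfsg.Agent.Helper45.St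
  Cfsg.Agent.Helper45.StD Cfsg.Agent.Helper81.StAux

variable {ι : Type} [Fintype ι] [DecidableEq ι] {F : Type u} [Field F]
  {Q : QuadraticForm F (ι → F)} {m : ℕ} {L R : Fin m → ι}

theorem ev_idx (H : HypPairs Q m L R) (c d : Fin m ⊕ Fin m) :
    ev L R F c (idx L R d) = if c = d then 1 else 0 := by
  rw [ev_apply]
  by_cases h : c = d
  · rw [if_pos h, if_pos (by rw [h])]
  · rw [if_neg h, if_neg (fun h' => h (idx_injective H h').symm)]

/-- the reflection `x_{a,b}(1) x_{-(a,b)}(-1) x_{a,b}(1)` attached to a Siegel root, on an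
arbitrary vector -/
theorem sg_vec (H : HypPairs Q m L R) (a b : Fin m ⊕ Fin m) (h1 : b ≠ tauP m a) (h2 : a ≠ b)
    (x : ι → F) :
    mv ⇑Q (xS Q L R a b 1 * xS Q L R (tauP m b) (tauP m a) (-1) * xS Q L R a b 1) x =
      x + (x (idx L R (tauP m b)) - x (idx L R a)) • ev L R F a
        + (- x (idx L R (tauP m a)) - x (idx L R b)) • ev L R F b
        + (- x (idx L R a) - x (idx L R (tauP m b))) • ev L R F (tauP m b)
        + (x (idx L R b) - x (idx L R (tauP m a))) • ev L R F (tauP m a) := by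
  have h3 : tauP m a ≠ tauP m (tauP m b) := by
    rw [tauP_tauP]
    exact fun h => h1 h.symm
  have e1 : a ≠ tauP m b := fun h => h1 (by rw [h, tauP_tauP])
  have e2 : tauP m a ≠ tauP m b := fun h => h2 ((tauP m).injective h)
  have e3 : a ≠ tauP m a := (tauP_ne a).symm
  have e4 : b ≠ tauP m b := (tauP_ne b).symm
  rw [mv_mul, mv_mul, mv_xS H a b h1, mv_xS H (tauP m b) (tauP m a) h3, mv_xS H a b h1]
  simp only [tauP_tauP, Pi.add_apply, Pi.sub_apply, Pi.smul_apply, ev_idx H, smul_eq_mul,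
    e1, e1.symm, e2, e2.symm, e3, e3.symm, e4, e4.symm, h1, h1.symm, h2, h2.symm, if_true,
    if_false, mul_one, mul_zero, add_zero, sub_zero, one_mul]
  module

theorem sg_ev_a (H : HypPairs Q m L R) (a b : Fin m ⊕ Fin m) (h1 : b ≠ tauP m a) (h2 : a ≠ b) :
    mv ⇑Q (xS Q L R a b 1 * xS Q L R (tauP m b) (tauP m a) (-1) * xS Q L R a b 1)
      (ev L R F a) = (-1 : F) • ev L R F (tauP m b) := by
  have e1 : a ≠ tauP m b := fun h => h1 (by rw [h, tauP_tauP])
  have e3 : a ≠ tauP m a := (tauP_ne a).symm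
  rw [sg_vec H a b h1 h2]
  simp only [ev_idx H, e1, e3, h2, if_true, if_false]
  module

theorem sg_ev_b (H : HypPairs Q m L R) (a b : Fin m ⊕ Fin m) (h1 : b ≠ tauP m a) (h2 : a ≠ b) :
    mv ⇑Q (xS Q L R a b 1 * xS Q L R (tauP m b) (tauP m a) (-1) * xS Q L R a b 1)
      (ev L R F b) = ev L R F (tauP m a) := by
  have e4 : b ≠ tauP m b := (tauP_ne b).symm
  rw [sg_vec H a b h1 h2]
  simp only [ev_idx H, e4, h1, h2.symm, if_true, if_false]
  module

theorem sg_ev_ta (H : HypPairs Q m L R) (a b : Fin m ⊕ Fin m) (h1 : b ≠ tauP m a) (h2 : a ≠ b) :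
    mv ⇑Q (xS Q L R a b 1 * xS Q L R (tauP m b) (tauP m a) (-1) * xS Q L R a b 1)
      (ev L R F (tauP m a)) = (-1 : F) • ev L R F b := by
  have e2 : tauP m a ≠ tauP m b := fun h => h2 ((tauP m).injective h)
  have e3 : tauP m a ≠ a := tauP_ne a
  rw [sg_vec H a b h1 h2]
  simp only [ev_idx H, e2, e3, h1.symm, if_true, if_false]
  module

theorem sg_ev_tb (H : HypPairs Q m L R) (a b : Fin m ⊕ Fin m) (h1 : b ≠ tauP m a) (h2 : a ≠ b) :
    mv ⇑Q (xS Q L R a b 1 * xS Q L R (tauP m b) (tauP m a) (-1) * xS Q L R a b 1)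
      (ev L R F (tauP m b)) = ev L R F a := by
  have e1 : tauP m b ≠ a := fun h => h1 (by rw [← h, tauP_tauP])
  have e2 : tauP m b ≠ tauP m a := fun h => h2 ((tauP m).injective h).symm
  have e4 : tauP m b ≠ b := tauP_ne b
  rw [sg_vec H a b h1 h2]
  simp only [ev_idx H, e1, e2, e4, if_true, if_false]
  module

theorem sg_ev_other (H : HypPairs Q m L R) (a b : Fin m ⊕ Fin m) (h1 : b ≠ tauP m a)
    (h2 : a ≠ b) (c : Fin m ⊕ Fin m) (c1 : c ≠ a) (c2 : c ≠ b) (c3 : c ≠ tauP m a)
    (c4 : c ≠ tauP m b) :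
    mv ⇑Q (xS Q L R a b 1 * xS Q L R (tauP m b) (tauP m a) (-1) * xS Q L R a b 1)
      (ev L R F c) = ev L R F c := by
  rw [sg_vec H a b h1 h2]
  simp only [ev_idx H, c1, c2, c3, c4, if_false]
  module

/-- the frame coordinates of the image under the reflection -/
theorem sg_coord (H : HypPairs Q m L R) (a b : Fin m ⊕ Fin m) (h1 : b ≠ tauP m a) (h2 : a ≠ b)
    (x : ι → F) (d : Fin m ⊕ Fin m) :
    mv ⇑Q (xS Q L R a b 1 * xS Q L R (tauP m b) (tauP m a) (-1) * xS Q L R a b 1) x
        (idx L R d) =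
      if d = a then x (idx L R (tauP m b)) else if d = b then - x (idx L R (tauP m a))
      else if d = tauP m b then - x (idx L R a) else if d = tauP m a then x (idx L R b)
      else x (idx L R d) := by
  have e1 : a ≠ tauP m b := fun h => h1 (by rw [h, tauP_tauP])
  have e2 : tauP m a ≠ tauP m b := fun h => h2 ((tauP m).injective h)
  have e3 : a ≠ tauP m a := (tauP_ne a).symm
  have e4 : b ≠ tauP m b := (tauP_ne b).symm
  rw [sg_vec H a b h1 h2]
  simp only [Pi.add_apply, Pi.smul_apply, ev_idx H, smul_eq_mul]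
  by_cases d1 : d = a
  · subst d1
    simp only [e1, e1.symm, e3, e3.symm, h2, h2.symm, if_true, if_false]
    ring
  by_cases d2 : d = b
  · subst d2
    simp only [e4, e4.symm, h1, h1.symm, h2, h2.symm, if_true, if_false]
    ring
  by_cases d3 : d = tauP m b
  · subst d3
    simp only [e1, e1.symm, e2, e2.symm, e4, e4.symm, if_true, if_false]
    ring
  by_cases d4 : d = tauP m a
  · subst d4
    simp only [e2, e2.symm, e3, e3.symm, h1, h1.symm, if_true, if_false]
    ring
  · have d1' : a ≠ d := fun h => d1 h.symm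
    have d2' : b ≠ d := fun h => d2 h.symm
    have d3' : tauP m b ≠ d := fun h => d3 h.symm
    have d4' : tauP m a ≠ d := fun h => d4 h.symm
    simp only [d1, d2, d3, d4, d1', d2', d3', d4', if_false]
    ring

/-! ### the frame is a basis -/

theorem frame_cover (hV0 : ∀ x : ι → F, InV0 L R x → x = 0) (c : ι) :
    ∃ a : Fin m ⊕ Fin m, c = idx L R a := by
  by_contra h
  simp only [not_exists] at h
  have h1 : InV0 L R (Pi.single c (1 : F)) := fun a => by
    rw [Pi.single_apply, if_neg (fun h3 => h a h3.symm)]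
  have h2 := congrFun (hV0 _ h1) c
  rw [Pi.single_apply, if_pos rfl, Pi.zero_apply] at h2
  exact one_ne_zero h2

theorem ext_frame (hV0 : ∀ x : ι → F, InV0 L R x → x = 0) (x y : ι → F)
    (h : ∀ a : Fin m ⊕ Fin m, x (idx L R a) = y (idx L R a)) : x = y := by
  funext c
  obtain ⟨a, rfl⟩ := frame_cover hV0 c
  exact h a

theorem sum_coord (H : HypPairs Q m L R) (a b : Fin m → F) (s : Finset (Fin m))
    (d : Fin m ⊕ Fin m) :
    (∑ i ∈ s, (a i • ev L R F (Sum.inl i) + b i • ev L R F (Sum.inr i))) (idx L R d) =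
      Sum.elim (fun k => if k ∈ s then a k else 0) (fun k => if k ∈ s then b k else 0) d := by
  rw [Finset.sum_apply]
  simp only [Pi.add_apply, Pi.smul_apply, ev_idx H, smul_eq_mul]
  rcases d with k | k
  · simp [Finset.sum_ite_eq']
  · simp [Finset.sum_ite_eq']

theorem Qsum_aux (H : HypPairs Q m L R) (a b : Fin m → F) (s : Finset (Fin m)) :
    Q (∑ i ∈ s, (a i • ev L R F (Sum.inl i) + b i • ev L R F (Sum.inr i))) =
      ∑ i ∈ s, a i * b i := by
  classical
  induction s using Finset.induction_on with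
  | empty => simp
  | insert i s hi ih =>
    rw [Finset.sum_insert hi, Finset.sum_insert hi, Q_add', ih, Q_add',
      QuadraticMap.map_smul, QuadraticMap.map_smul, ev_quad H, ev_quad H,
      QuadraticMap.polar_smul_left, QuadraticMap.polar_smul_right, polar_ev_ev H,
      if_pos (tauP_inl i).symm, QuadraticMap.polar_add_left, QuadraticMap.polar_smul_left,
      QuadraticMap.polar_smul_left, polar_ev H, polar_ev H, sum_coord H, sum_coord H,
      tauP_inl, tauP_inr]
    simp only [Sum.elim_inr, Sum.elim_inl, if_neg hi, smul_eq_mul, mul_zero, mul_one, add_zero,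
      zero_add]

/-- a vector is the combination of the frame vectors given by its coordinates -/
theorem frame_decomp (H : HypPairs Q m L R) (hV0 : ∀ x : ι → F, InV0 L R x → x = 0)
    (x : ι → F) :
    x = ∑ i : Fin m, (x (L i) • ev L R F (Sum.inl i) + x (R i) • ev L R F (Sum.inr i)) := by
  apply ext_frame hV0
  intro d
  rw [sum_coord H]
  rcases d with k | k
  · simp [idx_inl]
  · simp [idx_inr]

/-- the quadratic form in frame coordinates -/
theorem Qsum (H : HypPairs Q m L R) (hV0 : ∀ x : ι → F, InV0 L R x → x = 0) (x : ι → F) :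
    Q x = ∑ i : Fin m, x (L i) * x (R i) := by
  conv_lhs => rw [frame_decomp H hV0 x]
  exact Qsum_aux H _ _ _

/-- the polar form in frame coordinates -/
theorem polar_sum (H : HypPairs Q m L R) (hV0 : ∀ x : ι → F, InV0 L R x → x = 0)
    (x y : ι → F) :
    QuadraticMap.polar ⇑Q x y = ∑ i : Fin m, (x (L i) * y (R i) + x (R i) * y (L i)) := by
  unfold QuadraticMap.polar
  rw [Qsum H hV0, Qsum H hV0 x, Qsum H hV0 y, ← Finset.sum_sub_distrib, ← Finset.sum_sub_distrib]
  apply Finset.sum_congr rfl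
  intro i _
  rw [Pi.add_apply, Pi.add_apply]
  ring

/-- the matrix of the inverse of an isometry -/
theorem coord_swap (H : HypPairs Q m L R) (g : ↥(isometryGroup F ⇑Q)) (a d : Fin m ⊕ Fin m) :
    mv ⇑Q g (ev L R F a) (idx L R d) =
      mv ⇑Q g⁻¹ (ev L R F (tauP m d)) (idx L R (tauP m a)) := by
  have h1 := polar_ev H (tauP m d) (mv ⇑Q g (ev L R F a))
  rw [tauP_tauP] at h1
  have h2 := mv_polar Q g (mv ⇑Q g⁻¹ (ev L R F (tauP m d))) (ev L R F a)
  rw [mv_inv_cancel] at h2
  rw [← h1, h2, QuadraticMap.polar_comm, polar_ev H]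

end Cfsg.Agent.Helper81.StDAux
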