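import Mathlib
import Cfsg.Agent.Helper45.StDDefs
import Cfsg.Agent.Helper81.StDAux

/-!
# CALL S2548 piece DECOMPD
-/

set_option autoImplicit false
set_option linter.unusedSectionVars false
set_option linter.unusedSimpArgs false

universe u

namespace Cfsg.Agent.Helper81.StDECOMPD

open Cfsg Cfsg.Agent.Helper13 Cfsg.Agent.Helper95.SpBN Cfsg.Agent.Helper45 Cfsg.Agent.Helper45.St
  Cfsg.Agent.Helper45.StD Cfsg.Agent.Helper81.StAux Cfsg.Agent.Helper81.StDAux

variable {ι : Type} [Fintype ι] [DecidableEq ι] {F : Type u} [Field F]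
  {Q : QuadraticForm F (ι → F)} {m : ℕ} {L R : Fin m → ι}

theorem evr_R (H : HypPairs Q m L R) (i k : Fin m) :
    ev L R F (Sum.inr i) (R k) = if i = k then 1 else 0 := by
  have h := ev_idx (F := F) H (Sum.inr i) (Sum.inr k)
  rw [idx_inr] at h
  rw [h]
  by_cases hik : i = k
  · rw [if_pos hik, if_pos (by rw [hik])]
  · rw [if_neg hik, if_neg (fun h' => hik (Sum.inr.inj h'))]

theorem evl_R0 (H : HypPairs Q m L R) (i k : Fin m) : ev L R F (Sum.inl i) (R k) = 0 := by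
  have h := ev_idx (F := F) H (Sum.inl i) (Sum.inr k)
  rw [idx_inr, if_neg Sum.inl_ne_inr] at h
  exact h

theorem p_DECOMPD (H : HypPairs Q m L R) (hB : BCrit Q L R)
    (hV0 : ∀ x : ι → F, InV0 L R x → x = 0) (hm : 2 ≤ m) (j : Fin m)
    (hj : ¬ (j : ℕ) + 1 < m) (g : ↥(isometryGroup F ⇑Q)) (hg : g ∈ borelO Q L) :
    ∃ t : F, sigD Q L R j * (g * xD Q L R j t) * (sigD Q L R j)⁻¹ ∈ borelO Q L := by
  obtain ⟨j', hj'⟩ : ∃ j' : Fin m, j' = jp j := ⟨_, rfl⟩
  have hjm : (j : ℕ) + 1 = m := by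
    have h4 := j.2
    omega
  have hj'v : (j' : ℕ) + 1 = (j : ℕ) := by
    rw [hj', jp_val]
    omega
  have hne : j' ≠ j := by
    intro h
    rw [h] at hj'v
    omega
  have h1 : (Sum.inl j : Fin m ⊕ Fin m) ≠ tauP m (Sum.inl j') := by
    rw [tauP_inl]
    exact Sum.inl_ne_inr
  have h2 : (Sum.inl j' : Fin m ⊕ Fin m) ≠ Sum.inl j := fun h => hne (Sum.inl.inj h)
  have hs : sigD Q L R j = xS Q L R (Sum.inl j') (Sum.inl j) 1 *
      xS Q L R (tauP m (Sum.inl j)) (tauP m (Sum.inl j')) (-1) *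
      xS Q L R (Sum.inl j') (Sum.inl j) 1 := by
    unfold StD.sigD xD yD
    rw [aD_last j hj, bD_last j hj, ← hj']
  have s_fj : mv ⇑Q (sigD Q L R j) (ev L R F (Sum.inr j)) = ev L R F (Sum.inl j') := by
    rw [hs]
    exact sg_ev_tb H (Sum.inl j') (Sum.inl j) h1 h2
  have s_fj' : mv ⇑Q (sigD Q L R j) (ev L R F (Sum.inr j')) = (-1 : F) • ev L R F (Sum.inl j) := by
    rw [hs]
    exact sg_ev_ta H (Sum.inl j') (Sum.inl j) h1 h2
  have s_ei : ∀ i : Fin m, i ≠ j → i ≠ j' →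
      mv ⇑Q (sigD Q L R j) (ev L R F (Sum.inl i)) = ev L R F (Sum.inl i) := by
    intro i hi hi'
    rw [hs]
    exact sg_ev_other H (Sum.inl j') (Sum.inl j) h1 h2 (Sum.inl i)
      (fun h => hi' (Sum.inl.inj h)) (fun h => hi (Sum.inl.inj h))
      (by rw [tauP_inl]; exact Sum.inl_ne_inr) (by rw [tauP_inl]; exact Sum.inl_ne_inr)
  have s_coord : ∀ (x : ι → F) (d : Fin m ⊕ Fin m), mv ⇑Q (sigD Q L R j) x (idx L R d) =
      if d = Sum.inl j' then x (R j) else if d = Sum.inl j then - x (R j')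
      else if d = Sum.inr j then - x (L j') else if d = Sum.inr j' then x (L j)
      else x (idx L R d) := by
    intro x d
    rw [hs]
    exact sg_coord H (Sum.inl j') (Sum.inl j) h1 h2 x d
  have hxD : ∀ (t : F) (x : ι → F), mv ⇑Q (xD Q L R j t) x =
      x + (t * x (R j)) • ev L R F (Sum.inl j') - (t * x (R j')) • ev L R F (Sum.inl j) := by
    intro t x
    rw [hj']
    exact mv_xD_last H j hj t x
  have hinv : g⁻¹ ∈ borelO Q L := inv_mem hg
  -- coordinates of `g f_k`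
  have hF2 : ∀ i k : Fin m, mv ⇑Q g (ev L R F (Sum.inr k)) (R i) =
      mv ⇑Q g⁻¹ (ev L R F (Sum.inl i)) (L k) := fun i k =>
    coord_swap H g (Sum.inr k) (Sum.inr i)
  have hginv_flag : ∀ i : Fin m, FlagP L ((i : ℕ) + 1) (mv ⇑Q g⁻¹ (ev L R F (Sum.inl i))) :=
    fun i => flag_of_mem_borelO g⁻¹ hinv i
  have hg_flag : ∀ i : Fin m, FlagP L ((i : ℕ) + 1) (mv ⇑Q g (ev L R F (Sum.inl i))) :=
    fun i => flag_of_mem_borelO g hg i
  have hα : mv ⇑Q g⁻¹ (ev L R F (Sum.inl j)) (L j) ≠ 0 := borel_diag_ne H g⁻¹ hinv j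
  have hκ : mv ⇑Q g (ev L R F (Sum.inl j')) (L j') ≠ 0 := borel_diag_ne H g hg j'
  have hκ' : mv ⇑Q g⁻¹ (ev L R F (Sum.inl j')) (L j') ≠ 0 := borel_diag_ne H g⁻¹ hinv j'
  obtain ⟨z, hz⟩ : ∃ z : ι → F, z = mv ⇑Q g (ev L R F (Sum.inr j)) := ⟨_, rfl⟩
  obtain ⟨z', hz'⟩ : ∃ z' : ι → F, z' = mv ⇑Q g (ev L R F (Sum.inr j')) := ⟨_, rfl⟩
  obtain ⟨ge, hge⟩ : ∃ ge : ι → F, ge = mv ⇑Q g (ev L R F (Sum.inl j')) := ⟨_, rfl⟩
  obtain ⟨gej, hgej⟩ : ∃ gej : ι → F, gej = mv ⇑Q g (ev L R F (Sum.inl j)) := ⟨_, rfl⟩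
  have zR : ∀ i : Fin m, i ≠ j → z (R i) = 0 := by
    intro i hi
    rw [hz, hF2]
    have h3 : (i : ℕ) ≠ j := fun h => hi (Fin.ext h)
    have h4 := i.2
    exact flagP_L H (hginv_flag i) j (by omega)
  have zRj : z (R j) ≠ 0 := by
    rw [hz, hF2]
    exact hα
  have zLj : z (L j) = 0 := by
    have h3 : Q z = 0 := by
      rw [hz]
      exact (mv_quad ⇑Q _ _).trans (ev_quad H _)
    rw [Qsum H hV0, Finset.sum_eq_single j (fun i _ hi => by rw [zR i hi, mul_zero])
      (fun h => absurd (Finset.mem_univ j) h)] at h3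
    rcases mul_eq_zero.mp h3 with h4 | h4
    · exact h4
    · exact absurd h4 zRj
  have geF : FlagP L ((j' : ℕ) + 1) ge := by
    rw [hge]
    exact hg_flag j'
  have gejF : FlagP L ((j : ℕ) + 1) gej := by
    rw [hgej]
    exact hg_flag j
  have geLj : ge (L j) = 0 := flagP_L H geF j (by omega)
  have z'R : ∀ i : Fin m, (i : ℕ) < (j' : ℕ) → z' (R i) = 0 := by
    intro i hi
    rw [hz', hF2]
    exact flagP_L H (hginv_flag i) j' (by omega)
  have z'Rj' : z' (R j') ≠ 0 := by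
    rw [hz', hF2]
    exact hκ'
  obtain ⟨t, ht⟩ : ∃ t : F, t = - z (L j') / ge (L j') := ⟨_, rfl⟩
  have hκ2 : ge (L j') ≠ 0 := by
    rw [hge]
    exact hκ
  -- the two images under `g' = g * xD j t`
  have hu : mv ⇑Q (g * xD Q L R j t) (ev L R F (Sum.inr j)) = z + t • ge := by
    rw [mv_mul, hxD, evr_R H j j, if_pos rfl, evr_R H j j', if_neg (fun h => hne h.symm), mul_one,
      mul_zero, zero_smul, sub_zero, mv_add, mv_smul, ← hz, ← hge]
  have hw : mv ⇑Q (g * xD Q L R j t) (ev L R F (Sum.inr j')) = z' - t • gej := by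
    rw [mv_mul, hxD, evr_R H j' j, if_neg hne, evr_R H j' j', if_pos rfl, mul_one,
      mul_zero, zero_smul, add_zero, mv_sub, mv_smul, ← hz', ← hgej]
  obtain ⟨u, hudef⟩ : ∃ u : ι → F, u = z + t • ge := ⟨_, rfl⟩
  obtain ⟨w, hwdef⟩ : ∃ w : ι → F, w = z' - t • gej := ⟨_, rfl⟩
  rw [← hudef] at hu
  rw [← hwdef] at hw
  have uR : ∀ i : Fin m, i ≠ j → u (R i) = 0 := by
    intro i hi
    rw [hudef, Pi.add_apply, Pi.smul_apply, zR i hi, flagP_R H geF i, smul_zero, add_zero]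
  have uRj : u (R j) ≠ 0 := by
    rw [hudef, Pi.add_apply, Pi.smul_apply, flagP_R H geF j, smul_zero, add_zero]
    exact zRj
  have uLj : u (L j) = 0 := by
    rw [hudef, Pi.add_apply, Pi.smul_apply, zLj, geLj, smul_zero, add_zero]
  have uLj' : u (L j') = 0 := by
    rw [hudef, Pi.add_apply, Pi.smul_apply, ht, smul_eq_mul]
    field_simp
    ring
  have wR : ∀ i : Fin m, (i : ℕ) < (j' : ℕ) → w (R i) = 0 := by
    intro i hi
    rw [hwdef, Pi.sub_apply, Pi.smul_apply, z'R i hi, flagP_R H gejF i, smul_zero, sub_zero]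
  have wRj' : w (R j') ≠ 0 := by
    rw [hwdef, Pi.sub_apply, Pi.smul_apply, flagP_R H gejF j', smul_zero, sub_zero]
    exact z'Rj'
  have wLj : w (L j) = 0 := by
    have h3 : QuadraticMap.polar ⇑Q w u = 0 := by
      rw [← hu, ← hw, mv_polar, polar_ev_ev H, if_neg]
      rw [tauP_inr]
      exact Sum.inr_ne_inl
    rw [polar_sum H hV0, Finset.sum_eq_single j (fun i _ hi => by
      rw [uR i hi, mul_zero, zero_add]
      by_cases hij' : i = j'
      · rw [hij', uLj', mul_zero]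
      · have h5 : (i : ℕ) ≠ j := fun h => hi (Fin.ext h)
        have h6 : (i : ℕ) ≠ j' := fun h => hij' (Fin.ext h)
        have h7 := i.2
        rw [wR i (by omega), zero_mul])
      (fun h => absurd (Finset.mem_univ j) h), uLj, mul_zero, add_zero] at h3
    rcases mul_eq_zero.mp h3 with h4 | h4
    · exact h4
    · exact absurd h4 uRj
  have wLj' : w (L j') = 0 := by
    have h3 : Q w = 0 := by
      rw [← hw]
      exact (mv_quad ⇑Q _ _).trans (ev_quad H _)
    rw [Qsum H hV0, Finset.sum_eq_single j' (fun i _ hi => by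
      by_cases hij : i = j
      · rw [hij, wLj, zero_mul]
      · have h5 : (i : ℕ) ≠ j := fun h => hij (Fin.ext h)
        have h6 : (i : ℕ) ≠ j' := fun h => hi (Fin.ext h)
        have h7 := i.2
        rw [wR i (by omega), mul_zero])
      (fun h => absurd (Finset.mem_univ j') h)] at h3
    rcases mul_eq_zero.mp h3 with h4 | h4
    · exact h4
    · exact absurd h4 wRj'
  refine ⟨t, hB _ ?_⟩
  intro i
  rw [mv_mul, mv_mul]
  by_cases hij' : i = j'
  · rw [hij']
    have hsinv : mv ⇑Q (sigD Q L R j)⁻¹ (ev L R F (Sum.inl j')) = ev L R F (Sum.inr j) :=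
      mv_inv_of _ _ _ s_fj
    rw [hsinv, hu]
    intro c hc
    obtain ⟨d, rfl⟩ := frame_cover hV0 c
    rw [s_coord] at hc
    by_cases d1 : d = Sum.inl j'
    · exact ⟨j', Nat.lt_succ_self _, by rw [d1]; rfl⟩
    rw [if_neg d1] at hc
    by_cases d2 : d = Sum.inl j
    · rw [if_pos d2, uR j' hne, neg_zero] at hc
      exact absurd rfl hc
    rw [if_neg d2] at hc
    by_cases d3 : d = Sum.inr j
    · rw [if_pos d3, uLj', neg_zero] at hc
      exact absurd rfl hc
    rw [if_neg d3] at hc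
    by_cases d4 : d = Sum.inr j'
    · rw [if_pos d4, uLj] at hc
      exact absurd rfl hc
    rw [if_neg d4] at hc
    rcases d with i' | i'
    · have h5 : (i' : ℕ) ≠ j := fun h => d2 (by rw [Fin.ext h])
      have h7 := i'.2
      exact ⟨i', by omega, rfl⟩
    · exact absurd (uR i' (fun h => d3 (by rw [h]))) hc
  by_cases hij : i = j
  · rw [hij]
    have hsinv : mv ⇑Q (sigD Q L R j)⁻¹ (ev L R F (Sum.inl j)) =
        (-1 : F) • ev L R F (Sum.inr j') := by
      apply mv_inv_of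
      rw [mv_smul, s_fj', smul_smul, neg_mul_neg, one_mul, one_smul]
    rw [hsinv, mv_smul, hw, mv_smul]
    apply flagP_smul
    intro c hc
    obtain ⟨d, rfl⟩ := frame_cover hV0 c
    rw [s_coord] at hc
    by_cases d1 : d = Sum.inl j'
    · exact ⟨j', by omega, by rw [d1]; rfl⟩
    rw [if_neg d1] at hc
    by_cases d2 : d = Sum.inl j
    · exact ⟨j, Nat.lt_succ_self _, by rw [d2]; rfl⟩
    rw [if_neg d2] at hc
    by_cases d3 : d = Sum.inr j
    · rw [if_pos d3, wLj', neg_zero] at hc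
      exact absurd rfl hc
    rw [if_neg d3] at hc
    by_cases d4 : d = Sum.inr j'
    · rw [if_pos d4, wLj] at hc
      exact absurd rfl hc
    rw [if_neg d4] at hc
    rcases d with i' | i'
    · have h7 := i'.2
      exact ⟨i', by omega, rfl⟩
    · have h5 : (i' : ℕ) ≠ j := fun h => d3 (by rw [Fin.ext h])
      have h6 : (i' : ℕ) ≠ j' := fun h => d4 (by rw [Fin.ext h])
      have h7 := i'.2
      exact absurd (wR i' (by omega)) hc
  · have hsinv : mv ⇑Q (sigD Q L R j)⁻¹ (ev L R F (Sum.inl i)) = ev L R F (Sum.inl i) :=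
      mv_inv_of _ _ _ (s_ei i hij hij')
    have h5 : (i : ℕ) ≠ j := fun h => hij (Fin.ext h)
    have h6 : (i : ℕ) ≠ j' := fun h => hij' (Fin.ext h)
    have h7 := i.2
    have hxi : mv ⇑Q (xD Q L R j t) (ev L R F (Sum.inl i)) = ev L R F (Sum.inl i) := by
      rw [hxD, evl_R0 H i j, evl_R0 H i j', mul_zero, zero_smul, zero_smul, add_zero, sub_zero]
    rw [hsinv, mv_mul, hxi]
    have hy := hg_flag i
    intro c hc
    obtain ⟨d, rfl⟩ := frame_cover hV0 c
    rw [s_coord] at hc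
    by_cases d1 : d = Sum.inl j'
    · rw [if_pos d1, flagP_R H hy j] at hc
      exact absurd rfl hc
    rw [if_neg d1] at hc
    by_cases d2 : d = Sum.inl j
    · rw [if_pos d2, flagP_R H hy j', neg_zero] at hc
      exact absurd rfl hc
    rw [if_neg d2] at hc
    by_cases d3 : d = Sum.inr j
    · rw [if_pos d3, flagP_L H hy j' (by omega), neg_zero] at hc
      exact absurd rfl hc
    rw [if_neg d3] at hc
    by_cases d4 : d = Sum.inr j'
    · rw [if_pos d4, flagP_L H hy j (by omega)] at hc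
      exact absurd rfl hc
    rw [if_neg d4] at hc
    exact hy _ hc

end Cfsg.Agent.Helper81.StDECOMPD
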