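import Mathlib
import Cfsg.Agent.Helper45.StDefs
import Cfsg.Agent.Helper81.StAux2

/-!
# CALL S2547 piece RANK1S
-/

set_option autoImplicit false
set_option linter.unusedSectionVars false

universe u

namespace Cfsg.Agent.Helper81.StRANK1S

open Cfsg Cfsg.Agent.Helper13 Cfsg.Agent.Helper95.SpBN Cfsg.Agent.Helper45 Cfsg.Agent.Helper45.St
  Cfsg.Agent.Helper81.StAux Cfsg.Agent.Helper81.StDECOMPS Cfsg.Agent.Helper81.StAux2

variable {ι : Type} [Fintype ι] [DecidableEq ι] {F : Type u} [Field F]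
  {Q : QuadraticForm F (ι → F)} {m : ℕ} {L R : Fin m → ι}

theorem p_RANK1S (H : HypPairs Q m L R) (hB : BCrit Q L R) (v₀ : ι → F) (j : Fin m)
    (hj : (j : ℕ) + 1 < m) (t : F) (ht : t ≠ 0) :
    ∃ t' : F, sigE Q L R v₀ j * xa Q L R j t * ya Q L R j t' ∈ borelO Q L := by
  obtain ⟨j', hj'⟩ : ∃ j' : Fin m, (j' : ℕ) = (j : ℕ) + 1 := ⟨⟨_, hj⟩, rfl⟩
  have hne : j' ≠ j := by
    intro h
    rw [h] at hj'
    omega
  refine ⟨-t⁻¹, hB _ ?_⟩
  intro i
  rw [mv_mul, mv_mul]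
  by_cases hij : i = j
  · rw [hij]
    have h1 : mv ⇑Q (ya Q L R j (-t⁻¹)) (ev L R F (Sum.inl j)) =
        ev L R F (Sum.inl j) + (-t⁻¹) • ev L R F (Sum.inl j') := by
      rw [mv_ya_E H j j' hj' _ _ (evl_R H j j'), evl_L H, if_pos rfl, mul_one]
    have h2 : mv ⇑Q (xa Q L R j t) (ev L R F (Sum.inl j) + (-t⁻¹) • ev L R F (Sum.inl j')) =
        (-t⁻¹) • ev L R F (Sum.inl j') := by
      rw [mv_xa_E H j j' hj' _ _ (by
        rw [Pi.add_apply, Pi.smul_apply, evl_R H, evl_R H, smul_zero, add_zero])]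
      simp only [Pi.add_apply, Pi.smul_apply, evl_L H, if_neg hne, if_true, smul_eq_mul, mul_one,
        zero_add]
      have h3 : t * -t⁻¹ = -1 := by
        rw [mul_neg, mul_inv_cancel₀ ht]
      rw [h3]
      module
    rw [h1, h2, mv_smul, sig_ev_j' H v₀ j j' hj']
    exact flagP_smul _ (flagP_ev j)
  · by_cases hij' : i = j'
    · rw [hij']
      have h1 : mv ⇑Q (ya Q L R j (-t⁻¹)) (ev L R F (Sum.inl j')) = ev L R F (Sum.inl j') := by
        rw [mv_ya_E H j j' hj' _ _ (evl_R H j' j'), evl_L H, if_neg hne.symm, mul_zero, zero_smul,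
          add_zero]
      have h2 : mv ⇑Q (xa Q L R j t) (ev L R F (Sum.inl j')) =
          ev L R F (Sum.inl j') + t • ev L R F (Sum.inl j) := by
        rw [mv_xa_E H j j' hj' _ _ (evl_R H j' j), evl_L H, if_pos rfl, mul_one]
      rw [h1, h2, mv_add, mv_smul, sig_ev_j' H v₀ j j' hj', sig_ev_j H v₀ j j' hj']
      exact flagP_add (flagP_evl j _ (by omega)) (flagP_smul _ (flagP_smul _ (flagP_ev j')))
    · have h1 : mv ⇑Q (ya Q L R j (-t⁻¹)) (ev L R F (Sum.inl i)) = ev L R F (Sum.inl i) := by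
        rw [mv_ya_E H j j' hj' _ _ (evl_R H i j'), evl_L H, if_neg (fun h => hij h.symm), mul_zero,
          zero_smul, add_zero]
      have h2 : mv ⇑Q (xa Q L R j t) (ev L R F (Sum.inl i)) = ev L R F (Sum.inl i) := by
        rw [mv_xa_E H j j' hj' _ _ (evl_R H i j), evl_L H, if_neg (fun h => hij' h.symm), mul_zero,
          zero_smul, add_zero]
      rw [h1, h2, sig_ev_i H v₀ j j' hj' i hij hij']
      exact flagP_ev i

end Cfsg.Agent.Helper81.StRANK1S
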