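import Mathlib
import Cfsg.Agent.Helper45.StDDefs
import Cfsg.Agent.Helper81.StDAux

/-!
# CALL S2548 piece SIGPATD
-/

set_option autoImplicit false
set_option linter.unusedSectionVars false

universe u

namespace Cfsg.Agent.Helper81.StSIGPATD

open Cfsg Cfsg.Agent.Helper13 Cfsg.Agent.Helper95.SpBN Cfsg.Agent.Helper45 Cfsg.Agent.Helper45.St
  Cfsg.Agent.Helper45.StD Cfsg.Agent.Helper81.StAux Cfsg.Agent.Helper81.StDAux

variable {ι : Type} [Fintype ι] [DecidableEq ι] {F : Type u} [Field F]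
  {Q : QuadraticForm F (ι → F)} {m : ℕ} {L R : Fin m → ι}

/-- the reflection of a Siegel root is monomial -/
theorem sg_pat (H : HypPairs Q m L R) (a b : Fin m ⊕ Fin m) (h1 : b ≠ tauP m a) (h2 : a ≠ b) :
    PatO Q L R (xS Q L R a b 1 * xS Q L R (tauP m b) (tauP m a) (-1) * xS Q L R a b 1)
      (Equiv.swap a (tauP m b) * Equiv.swap b (tauP m a)) := by
  have e1 : a ≠ tauP m b := fun h => h1 (by rw [h, tauP_tauP])
  have e2 : tauP m a ≠ tauP m b := fun h => h2 ((tauP m).injective h)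
  have e3 : a ≠ tauP m a := (tauP_ne a).symm
  have e4 : b ≠ tauP m b := (tauP_ne b).symm
  intro c
  rw [Equiv.Perm.mul_apply]
  by_cases c1 : c = a
  · refine ⟨-1, ?_⟩
    rw [c1, Equiv.swap_apply_of_ne_of_ne h2 e3, Equiv.swap_apply_left, sg_ev_a H a b h1 h2]
  by_cases c2 : c = b
  · refine ⟨1, ?_⟩
    rw [c2, Equiv.swap_apply_left, Equiv.swap_apply_of_ne_of_ne e3.symm e2,
      sg_ev_b H a b h1 h2, one_smul]
  by_cases c3 : c = tauP m a
  · refine ⟨-1, ?_⟩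
    rw [c3, Equiv.swap_apply_right, Equiv.swap_apply_of_ne_of_ne h2.symm e4,
      sg_ev_ta H a b h1 h2]
  by_cases c4 : c = tauP m b
  · refine ⟨1, ?_⟩
    rw [c4, Equiv.swap_apply_of_ne_of_ne e4.symm e2.symm, Equiv.swap_apply_right,
      sg_ev_tb H a b h1 h2, one_smul]
  · refine ⟨1, ?_⟩
    rw [Equiv.swap_apply_of_ne_of_ne c2 c3, Equiv.swap_apply_of_ne_of_ne c1 c4,
      sg_ev_other H a b h1 h2 c c1 c2 c3 c4, one_smul]

theorem aD_ne_bD (hm : 2 ≤ m) (j : Fin m) : aD j ≠ bD j := by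
  by_cases hj : (j : ℕ) + 1 < m
  · rw [aD_of_lt j hj, bD_of_lt j hj]
    unfold ra rb
    rw [dif_pos hj, tauP_inl]
    exact Sum.inl_ne_inr
  · rw [aD_last j hj, bD_last j hj]
    intro h
    have h3 := congrArg Fin.val (Sum.inl.inj h)
    rw [jp_val] at h3
    have h4 := j.2
    omega

theorem sigPD_eq (j : Fin m) :
    sigPD j = Equiv.swap (aD j) (tauP m (bD j)) * Equiv.swap (bD j) (tauP m (aD j)) := by
  unfold sigPD
  by_cases hj : (j : ℕ) + 1 < m
  · rw [if_pos hj, aD_of_lt j hj, bD_of_lt j hj, tauP_tauP]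
    unfold sigP
    rw [if_pos hj, Equiv.swap_comm (tauP m (rb j)) (tauP m (ra j))]
  · rw [if_neg hj, aD_last j hj, bD_last j hj, tauP_inl, tauP_inl]

theorem p_SIGPATD (H : HypPairs Q m L R) (hm : 2 ≤ m) (j : Fin m) :
    PatO Q L R (sigD Q L R j) (sigPD j) := by
  rw [sigPD_eq j]
  exact sg_pat H (aD j) (bD j) (bD_ne j) (aD_ne_bD hm j)

end Cfsg.Agent.Helper81.StSIGPATD
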