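import Mathlib
import Cfsg.Prelude.Def_GeometricClasses
import Cfsg.Agent.Helper69.E4Def
import Cfsg.Agent.Helper66.E4BASE1
import Cfsg.Agent.Helper66.E4BASE2

/-!
# CALL S6000, piece CENT5: an element of order 5 of the normaliser of `E4 ι` which is not scalar
centralises only the scalars of `E4 ι`
-/

set_option autoImplicit false

namespace Cfsg.Agent.Helper81

open Cfsg.Agent.Helper69
open scoped Matrix

/-- counting the centraliser of a normalising element modulo a prime -/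
theorem e4_fix_count {G : Type*} [Group G] (E : Subgroup G) [Finite E] (g : G)
    (hg : g ∈ Subgroup.normalizer (E : Set G)) (r : ℕ) [Fact r.Prime]
    (hr : ∀ e ∈ E, g ^ r * e = e * g ^ r) :
    ∃ D : Subgroup E, (∀ e : E, e ∈ D ↔ g * (e : G) = (e : G) * g) ∧
      Nat.card E ≡ Nat.card D [MOD r] := by
  classical
  let ψ : MulAut E := E.normalizerMonoidHom ⟨g, hg⟩
  have hψ : ∀ e : E, ((ψ e : E) : G) = g * (e : G) * g⁻¹ := fun e => rfl
  have hψr : ψ ^ r = 1 := by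
    have h1 : ψ ^ r = E.normalizerMonoidHom (⟨g, hg⟩ ^ r) := (map_pow _ _ _).symm
    rw [h1]
    apply MulEquiv.ext
    intro e
    apply Subtype.ext
    have hpow : (((⟨g, hg⟩ : ↥(Subgroup.normalizer (E : Set G))) ^ r :
        ↥(Subgroup.normalizer (E : Set G))) : G) = g ^ r := rfl
    show (((⟨g, hg⟩ : ↥(Subgroup.normalizer (E : Set G))) ^ r :
        ↥(Subgroup.normalizer (E : Set G))) : G) * (e : G) *
        (((⟨g, hg⟩ : ↥(Subgroup.normalizer (E : Set G))) ^ r :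
        ↥(Subgroup.normalizer (E : Set G))) : G)⁻¹ = (e : G)
    rw [hpow, hr e e.2, mul_inv_cancel_right]
  let D : Subgroup E :=
    { carrier := {e | ψ e = e}
      one_mem' := map_one ψ
      mul_mem' := fun {a b} ha hb => by
        show ψ (a * b) = a * b
        rw [map_mul, show ψ a = a from ha, show ψ b = b from hb]
      inv_mem' := fun {a} ha => by
        show ψ a⁻¹ = a⁻¹
        rw [map_inv, show ψ a = a from ha] }
  have hDmem : ∀ e : E, e ∈ D ↔ ψ e = e := fun e => Iff.rfl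
  have hpg : IsPGroup r ↥(Subgroup.zpowers ψ) := by
    rintro ⟨γ, hγ⟩
    obtain ⟨m, rfl⟩ := Subgroup.mem_zpowers_iff.1 hγ
    refine ⟨1, ?_⟩
    apply Subtype.ext
    rw [pow_one, Subgroup.coe_pow, Subgroup.coe_one]
    show (ψ ^ m) ^ r = 1
    rw [← zpow_natCast, ← zpow_mul, mul_comm, zpow_mul, zpow_natCast, hψr, one_zpow]
  have hmod := hpg.card_modEq_card_fixedPoints ↥E
  have hfix : (MulAction.fixedPoints ↥(Subgroup.zpowers ψ) ↥E) = (D : Set ↥E) := by
    ext e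
    constructor
    · intro he
      exact he ⟨ψ, Subgroup.mem_zpowers ψ⟩
    · intro he γ
      obtain ⟨γ, hγ⟩ := γ
      have h1 : Subgroup.zpowers ψ ≤ MulAction.stabilizer (MulAut ↥E) e :=
        Subgroup.zpowers_le.2 (MulAction.mem_stabilizer_iff.2 he)
      exact MulAction.mem_stabilizer_iff.1 (h1 hγ)
  have hcardfix : Nat.card (MulAction.fixedPoints ↥(Subgroup.zpowers ψ) ↥E) = Nat.card D := by
    rw [hfix]; rfl
  rw [hcardfix] at hmod
  refine ⟨D, fun e => ?_, hmod⟩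
  rw [hDmem]
  constructor
  · intro h
    have h2 := congrArg Subtype.val h
    rw [hψ] at h2
    calc g * (e : G) = g * (e : G) * g⁻¹ * g := by group
      _ = (e : G) * g := by rw [h2]
  · intro h
    apply Subtype.ext
    rw [hψ, h, mul_inv_cancel_right]

/-- scalar elements of `GL` are central -/
theorem e4_comm_scalar {F : Type*} [Field F] (s : GL (Fin 4) F) (c : F)
    (hs : (s : Matrix (Fin 4) (Fin 4) F) = c • (1 : Matrix (Fin 4) (Fin 4) F))
    (e : GL (Fin 4) F) : s * e = e * s := by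
  apply Units.ext
  rw [Units.val_mul, Units.val_mul, hs, Matrix.smul_mul, Matrix.mul_smul, one_mul, mul_one]

/-- an element of `GL_4` commuting with `E4 ι` is scalar -/
theorem e4_scalar_of_commute_E4 {F : Type*} [Field F] (h2 : (2 : F) ≠ 0) (ι : F)
    (y : GL (Fin 4) F) (hcomm : ∀ e ∈ E4 ι, y * e = e * y) :
    ∃ c : F, (y : Matrix (Fin 4) (Fin 4) F) = c • (1 : Matrix (Fin 4) (Fin 4) F) := by
  have h1 := congrArg Units.val (hcomm (Helper66.e4gX1 F) (Helper66.e4gX1_mem ι))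
  have h2' := congrArg Units.val (hcomm (Helper66.e4gZ1 F) (Helper66.e4gZ1_mem ι))
  have h3 := congrArg Units.val (hcomm (Helper66.e4gX2 F) (Helper66.e4gX2_mem ι))
  have h4 := congrArg Units.val (hcomm (Helper66.e4gZ2 F) (Helper66.e4gZ2_mem ι))
  rw [Units.val_mul, Units.val_mul] at h1 h2' h3 h4
  exact Helper66.e4_scalar_of_commute h2 _ h1 h2' h3 h4

/-- the value of a power of the scalar generator -/
theorem e4gI_pow_val {F : Type*} [Field F] (ι : F) (hι : ι ^ 2 = -1) (a : ℕ) :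
    ((Helper66.e4gI ι hι ^ a : GL (Fin 4) F) : Matrix (Fin 4) (Fin 4) F)
      = ι ^ a • (1 : Matrix (Fin 4) (Fin 4) F) := by
  have h1 : ((Helper66.e4gI ι hι : GL (Fin 4) F) : Matrix (Fin 4) (Fin 4) F) = ι • 1 := rfl
  rw [Units.val_pow_eq_pow_val, h1, smul_pow, one_pow]

/-- a subgroup of order four of `E4 ι` centralised by `y` consists of scalars -/
theorem e4_scalars_of_card_four {F : Type*} [Field F] (h2 : (2 : F) ≠ 0) (ι : F)
    (hι : ι ^ 2 = -1) (y : GL (Fin 4) F) (D : Subgroup (E4 ι))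
    (hDmem : ∀ e : E4 ι, e ∈ D ↔ y * (e : GL (Fin 4) F) = (e : GL (Fin 4) F) * y)
    (hD4 : Nat.card D = 4) (e : GL (Fin 4) F) (he : e ∈ E4 ι) (hye : y * e = e * y) :
    ∃ c : F, (e : Matrix (Fin 4) (Fin 4) F) = c • (1 : Matrix (Fin 4) (Fin 4) F) := by
  classical
  haveI : Finite D := Nat.finite_of_card_ne_zero (by rw [hD4]; norm_num)
  have hmemI : ∀ a : ℕ, Helper66.e4gI ι hι ^ a ∈ E4 ι :=
    fun a => (E4 ι).pow_mem (Helper66.e4gI_mem ι hι) a
  have hD : ∀ a : ℕ, (⟨Helper66.e4gI ι hι ^ a, hmemI a⟩ : E4 ι) ∈ D := by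
    intro a
    rw [hDmem]
    exact (e4_comm_scalar _ _ (e4gI_pow_val ι hι a) y).symm
  let f : Fin 4 → D := fun a => ⟨⟨Helper66.e4gI ι hι ^ (a : ℕ), hmemI a⟩, hD a⟩
  have hinj : Function.Injective f := by
    intro a b hab
    have h1 : ((Helper66.e4gI ι hι ^ (a : ℕ) : GL (Fin 4) F) : Matrix (Fin 4) (Fin 4) F)
        = ((Helper66.e4gI ι hι ^ (b : ℕ) : GL (Fin 4) F) : Matrix (Fin 4) (Fin 4) F) := by
      have := congrArg (fun t : D => (((t : E4 ι) : GL (Fin 4) F) : Matrix (Fin 4) (Fin 4) F)) hab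
      exact this
    rw [e4gI_pow_val, e4gI_pow_val] at h1
    have hP : e4Pauli F 0 0 0 0 = 1 := by simp [e4Pauli]
    have h3 : ι ^ (a : ℕ) • e4Pauli F 0 0 0 0 = ι ^ (b : ℕ) • e4Pauli F 0 0 0 0 := by
      rw [hP, h1]
    exact Fin.ext (Helper66.e4_normal_inj h2 ι hι a.2 (by norm_num) (by norm_num) (by norm_num)
      (by norm_num) b.2 (by norm_num) (by norm_num) (by norm_num) (by norm_num) h3).1
  have hbij : Function.Bijective f :=
    hinj.bijective_of_nat_card_le (by rw [hD4]; simp)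
  obtain ⟨a, ha⟩ := hbij.2 ⟨⟨e, he⟩, (hDmem _).mpr hye⟩
  refine ⟨ι ^ (a : ℕ), ?_⟩
  have h1 := congrArg (fun t : D => (((t : E4 ι) : GL (Fin 4) F) : Matrix (Fin 4) (Fin 4) F)) ha
  have h2' : ((Helper66.e4gI ι hι ^ (a : ℕ) : GL (Fin 4) F) : Matrix (Fin 4) (Fin 4) F)
      = (e : Matrix (Fin 4) (Fin 4) F) := h1
  rw [← h2', e4gI_pow_val]

/-- PIECE CENT5 -/
theorem e4_centralizer_five {F : Type*} [Field F] (h2 : (2 : F) ≠ 0) (ι : F) (hι : ι ^ 2 = -1)
    (y : GL (Fin 4) F) (hy : y ∈ Cfsg.Geo.subgroupNormalizer (E4 ι)) (hy5 : y ^ 5 = 1)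
    (hns : ∀ c : F, (y : Matrix (Fin 4) (Fin 4) F) ≠ c • (1 : Matrix (Fin 4) (Fin 4) F)) :
    ∀ e ∈ E4 ι, y * e = e * y →
      ∃ c : F, (e : Matrix (Fin 4) (Fin 4) F) = c • (1 : Matrix (Fin 4) (Fin 4) F) := by
  classical
  have hcard := Helper66.e4_card h2 ι hι
  haveI hfin : Finite ↥(E4 ι) := Nat.finite_of_card_ne_zero (by rw [hcard]; norm_num)
  haveI : Fact (Nat.Prime 5) := ⟨by norm_num⟩
  have hyN : y ∈ Subgroup.normalizer ((E4 ι : Subgroup (GL (Fin 4) F)) : Set (GL (Fin 4) F)) :=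
    hy
  obtain ⟨D, hDmem, hmod⟩ := e4_fix_count (E4 ι) y hyN 5
    (fun e _ => by rw [hy5, one_mul, mul_one])
  rw [hcard] at hmod
  have hDdvd : Nat.card D ∣ 2 ^ 6 := by
    have := Subgroup.card_subgroup_dvd_card D
    rw [hcard] at this
    exact this
  obtain ⟨j, hj6, hj⟩ := (Nat.dvd_prime_pow Nat.prime_two).1 hDdvd
  have hD : Nat.card D = 4 ∨ Nat.card D = 64 := by
    unfold Nat.ModEq at hmod
    rw [hj] at hmod ⊢
    interval_cases j <;> simp_all
  rcases hD with hD4 | hD64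
  · intro e he hye
    exact e4_scalars_of_card_four h2 ι hι y D hDmem hD4 e he hye
  · exfalso
    have hDtop : D = ⊤ := Subgroup.eq_top_of_card_eq D (by rw [hD64, hcard])
    have hcommE : ∀ e ∈ E4 ι, y * e = e * y := fun e he =>
      (hDmem ⟨e, he⟩).mp (by rw [hDtop]; trivial)
    obtain ⟨c, hc⟩ := e4_scalar_of_commute_E4 h2 ι y hcommE
    exact hns c hc

end Cfsg.Agent.Helper81
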