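import Mathlib
import Cfsg.Prelude.Def_GeometricClasses
import Cfsg.Agent.Helper69.E4Def
import Cfsg.Agent.Helper66.E4BASE1
import Cfsg.Agent.Helper66.E4BASE2
import Cfsg.Agent.Helper73.E4AVG
import Cfsg.Agent.Helper81.E4CENT5

/-!
# CALL S6000, piece TRACE5: `tr y * tr y⁻¹ = 1` for a non-scalar element of order 5 of the
normaliser of `E4 ι`
-/

set_option autoImplicit false

namespace Cfsg.Agent.Helper81

open Cfsg.Agent.Helper69
open scoped Matrix

/-- the inverse of a Pauli product -/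
theorem e4_pauli_inv {F : Type*} [Field F] (b c d e : ℕ) :
    e4Pauli F b c d e * (e4Z2 F ^ e * e4X2 F ^ d * e4Z1 F ^ c * e4X1 F ^ b) = 1 := by
  have hX1 : e4X1 F ^ b * e4X1 F ^ b = 1 := by
    rw [← pow_add, ← two_mul, pow_mul, Helper66.e4X1_sq, one_pow]
  have hZ1 : e4Z1 F ^ c * e4Z1 F ^ c = 1 := by
    rw [← pow_add, ← two_mul, pow_mul, Helper66.e4Z1_sq, one_pow]
  have hX2 : e4X2 F ^ d * e4X2 F ^ d = 1 := by
    rw [← pow_add, ← two_mul, pow_mul, Helper66.e4X2_sq, one_pow]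
  have hZ2 : e4Z2 F ^ e * e4Z2 F ^ e = 1 := by
    rw [← pow_add, ← two_mul, pow_mul, Helper66.e4Z2_sq, one_pow]
  unfold e4Pauli
  calc e4X1 F ^ b * e4Z1 F ^ c * e4X2 F ^ d * e4Z2 F ^ e *
        (e4Z2 F ^ e * e4X2 F ^ d * e4Z1 F ^ c * e4X1 F ^ b)
      = e4X1 F ^ b * (e4Z1 F ^ c * (e4X2 F ^ d * (e4Z2 F ^ e * e4Z2 F ^ e) * e4X2 F ^ d) *
          e4Z1 F ^ c) * e4X1 F ^ b := by simp only [mul_assoc]
    _ = 1 := by rw [hZ2, mul_one, hX2, mul_one, hZ1, mul_one, hX1]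

/-- one term of the averaging sum -/
theorem e4_trace_five_term {F : Type*} [Field F] (h2 : (2 : F) ≠ 0) (ι : F) (hι : ι ^ 2 = -1)
    (y : GL (Fin 4) F) (hy : y ∈ Cfsg.Geo.subgroupNormalizer (E4 ι)) (hy5 : y ^ 5 = 1)
    (hns : ∀ c : F, (y : Matrix (Fin 4) (Fin 4) F) ≠ c • (1 : Matrix (Fin 4) (Fin 4) F))
    (b c d e : ℕ) (hb : b < 2) (hc : c < 2) (hd : d < 2) (he : e < 2) :
    (e4Pauli F b c d e * (y : Matrix (Fin 4) (Fin 4) F) *
      (e4Z2 F ^ e * e4X2 F ^ d * e4Z1 F ^ c * e4X1 F ^ b) *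
      ((y⁻¹ : GL (Fin 4) F) : Matrix (Fin 4) (Fin 4) F)).trace =
      if b = 0 ∧ c = 0 ∧ d = 0 ∧ e = 0 then 4 else 0 := by
  classical
  by_cases h0 : b = 0 ∧ c = 0 ∧ d = 0 ∧ e = 0
  · obtain ⟨rfl, rfl, rfl, rfl⟩ := h0
    rw [if_pos ⟨rfl, rfl, rfl, rfl⟩]
    have hP : e4Pauli F 0 0 0 0 = 1 := by simp [e4Pauli]
    rw [hP]
    simp only [pow_zero, mul_one, one_mul]
    rw [← Units.val_mul, mul_inv_cancel, Units.val_one, Matrix.trace_one]
    simp
  · rw [if_neg h0]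
    obtain ⟨σg, hσg⟩ : ∃ σg : GL (Fin 4) F, σg = Helper66.e4gX1 F ^ b * Helper66.e4gZ1 F ^ c *
        Helper66.e4gX2 F ^ d * Helper66.e4gZ2 F ^ e := ⟨_, rfl⟩
    have hσE : σg ∈ E4 ι := by
      rw [hσg]
      exact (E4 ι).mul_mem ((E4 ι).mul_mem ((E4 ι).mul_mem
        ((E4 ι).pow_mem (Helper66.e4gX1_mem ι) b) ((E4 ι).pow_mem (Helper66.e4gZ1_mem ι) c))
        ((E4 ι).pow_mem (Helper66.e4gX2_mem ι) d)) ((E4 ι).pow_mem (Helper66.e4gZ2_mem ι) e)
    have hσval : (σg : Matrix (Fin 4) (Fin 4) F) = e4Pauli F b c d e := by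
      have := Helper66.e4g_val ι hι 0 b c d e
      rw [pow_zero, one_mul, pow_zero, one_smul] at this
      rw [hσg]
      exact this
    have hσinv : ((σg⁻¹ : GL (Fin 4) F) : Matrix (Fin 4) (Fin 4) F)
        = e4Z2 F ^ e * e4X2 F ^ d * e4Z1 F ^ c * e4X1 F ^ b := by
      apply Units.inv_eq_of_mul_eq_one_right
      rw [hσval]
      exact e4_pauli_inv b c d e
    have hyN : y ∈ Subgroup.normalizer ((E4 ι : Subgroup (GL (Fin 4) F)) : Set (GL (Fin 4) F)) :=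
      hy
    have hconjE : y * σg⁻¹ * y⁻¹ ∈ E4 ι :=
      (Subgroup.mem_normalizer_iff.mp hyN σg⁻¹).mp ((E4 ι).inv_mem hσE)
    obtain ⟨Λ, hΛ⟩ : ∃ Λ : GL (Fin 4) F, Λ = σg * (y * σg⁻¹ * y⁻¹) := ⟨_, rfl⟩
    have hΛE : Λ ∈ E4 ι := by
      rw [hΛ]
      exact (E4 ι).mul_mem hσE hconjE
    have hΛval : (Λ : Matrix (Fin 4) (Fin 4) F) = e4Pauli F b c d e *
        (y : Matrix (Fin 4) (Fin 4) F) * (e4Z2 F ^ e * e4X2 F ^ d * e4Z1 F ^ c * e4X1 F ^ b) *
        ((y⁻¹ : GL (Fin 4) F) : Matrix (Fin 4) (Fin 4) F) := by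
      rw [hΛ, Units.val_mul, Units.val_mul, Units.val_mul, hσval, hσinv]
      simp only [mul_assoc]
    rw [← hΛval]
    rcases Helper66.e4_trace ι hι Λ hΛE with ⟨lam, hlam⟩ | htr
    · exfalso
      apply h0
      have hΛc : ∀ g : GL (Fin 4) F, Λ * g = g * Λ := e4_comm_scalar Λ lam hlam
      have hconj : y * σg⁻¹ * y⁻¹ = σg⁻¹ * Λ := by
        rw [hΛ]
        group
      have hpow : ∀ n : ℕ, y ^ n * σg⁻¹ * (y ^ n)⁻¹ = σg⁻¹ * Λ ^ n := by
        intro n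
        induction n with
        | zero => simp
        | succ n ih =>
          have hc : y * Λ ^ n * y⁻¹ = Λ ^ n := by
            have hc' := (Commute.pow_left (show Commute Λ y from hΛc y) n).eq
            rw [← hc', mul_inv_cancel_right]
          calc y ^ (n + 1) * σg⁻¹ * (y ^ (n + 1))⁻¹
              = y * (y ^ n * σg⁻¹ * (y ^ n)⁻¹) * y⁻¹ := by
                rw [pow_succ']
                group
            _ = y * (σg⁻¹ * Λ ^ n) * y⁻¹ := by rw [ih]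
            _ = (y * σg⁻¹ * y⁻¹) * (y * Λ ^ n * y⁻¹) := by group
            _ = σg⁻¹ * Λ * Λ ^ n := by rw [hc, hconj]
            _ = σg⁻¹ * Λ ^ (n + 1) := by rw [pow_succ', mul_assoc]
      have hΛ5 : Λ ^ 5 = 1 := by
        have h := hpow 5
        rw [hy5, one_mul, inv_one, mul_one] at h
        have h' : σg⁻¹ * 1 = σg⁻¹ * Λ ^ 5 := by rw [mul_one]; exact h
        exact (mul_left_cancel h').symm
      have hΛ4 : Λ ^ 4 = 1 := by
        apply Units.ext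
        rw [Units.val_pow_eq_pow_val, Units.val_one]
        have h4 : (Λ : Matrix (Fin 4) (Fin 4) F) ^ 4 = ((Λ : Matrix (Fin 4) (Fin 4) F) ^ 2) ^ 2 := by
          rw [← pow_mul]
        rw [h4]
        rcases Helper66.e4_sq ι hι Λ hΛE with h | h <;> rw [h] <;> simp
      have hΛ1 : Λ = 1 := by
        have h : Λ ^ 5 = Λ ^ 4 * Λ := pow_succ Λ 4
        rw [hΛ5, hΛ4, one_mul] at h
        exact h.symm
      have hcomm : y * σg = σg * y := by
        rw [hΛ1, mul_one] at hconj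
        have h1 : y * σg⁻¹ = σg⁻¹ * y := by
          calc y * σg⁻¹ = y * σg⁻¹ * y⁻¹ * y := by group
            _ = σg⁻¹ * y := by rw [hconj]
        calc y * σg = σg * (σg⁻¹ * y) * σg := by group
          _ = σg * (y * σg⁻¹) * σg := by rw [h1]
          _ = σg * y := by group
      obtain ⟨c', hc'⟩ := e4_centralizer_five h2 ι hι y hy hy5 hns σg hσE hcomm
      rw [hσval] at hc'
      have hc0 : c' ≠ 0 := by
        rintro rfl
        rw [zero_smul] at hc'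
        have h := e4_pauli_inv (F := F) b c d e
        rw [hc', zero_mul] at h
        exact zero_ne_one h
      have h1 : c'⁻¹ • e4Pauli F b c d e = 1 := by
        rw [hc', smul_smul, inv_mul_cancel₀ hc0, one_smul]
      obtain ⟨hb0, hc0', hd0, he0, -⟩ :=
        Helper66.e4_normal_eq_one h2 c'⁻¹ b c d e hb hc hd he h1
      exact ⟨hb0, hc0', hd0, he0⟩
    · exact htr

/-- PIECE TRACE5 -/
theorem e4_trace_five {F : Type*} [Field F] (h2 : (2 : F) ≠ 0) (ι : F) (hι : ι ^ 2 = -1)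
    (y : GL (Fin 4) F) (hy : y ∈ Cfsg.Geo.subgroupNormalizer (E4 ι)) (hy5 : y ^ 5 = 1)
    (hns : ∀ c : F, (y : Matrix (Fin 4) (Fin 4) F) ≠ c • (1 : Matrix (Fin 4) (Fin 4) F)) :
    (y : Matrix (Fin 4) (Fin 4) F).trace *
      ((y⁻¹ : GL (Fin 4) F) : Matrix (Fin 4) (Fin 4) F).trace = 1 := by
  classical
  have havg := Helper73.e4_avg (y : Matrix (Fin 4) (Fin 4) F)
  have h1 := congrArg (fun A : Matrix (Fin 4) (Fin 4) F =>
    (A * ((y⁻¹ : GL (Fin 4) F) : Matrix (Fin 4) (Fin 4) F)).trace) havg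
  simp only [Finset.sum_mul, Matrix.trace_sum] at h1
  rw [Matrix.smul_mul, one_mul, Matrix.trace_smul, smul_eq_mul] at h1
  have hsum : ∑ b ∈ Finset.range 2, ∑ c ∈ Finset.range 2, ∑ d ∈ Finset.range 2,
      ∑ e ∈ Finset.range 2, (e4Pauli F b c d e * (y : Matrix (Fin 4) (Fin 4) F) *
        (e4Z2 F ^ e * e4X2 F ^ d * e4Z1 F ^ c * e4X1 F ^ b) *
        ((y⁻¹ : GL (Fin 4) F) : Matrix (Fin 4) (Fin 4) F)).trace = 4 := by
    rw [Finset.sum_congr rfl (fun b hb => Finset.sum_congr rfl (fun c hc =>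
      Finset.sum_congr rfl (fun d hd => Finset.sum_congr rfl (fun e he =>
        e4_trace_five_term h2 ι hι y hy hy5 hns b c d e (Finset.mem_range.mp hb)
          (Finset.mem_range.mp hc) (Finset.mem_range.mp hd) (Finset.mem_range.mp he)))))]
    simp [Finset.sum_range_succ]
  rw [hsum] at h1
  have h4 : (4 : F) ≠ 0 := by
    have h : (4 : F) = 2 * 2 := by norm_num
    rw [h]
    exact mul_ne_zero h2 h2
  have h5 : (4 : F) * ((y : Matrix (Fin 4) (Fin 4) F).trace *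
      ((y⁻¹ : GL (Fin 4) F) : Matrix (Fin 4) (Fin 4) F).trace - 1) = 0 := by
    linear_combination -h1
  rcases mul_eq_zero.mp h5 with h | h
  · exact absurd h h4
  · exact sub_eq_zero.mp h

end Cfsg.Agent.Helper81
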