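import Cfsg.Statements.S1383
import Cfsg.Agent.Helper1.Gen

set_option autoImplicit false

namespace Cfsg.Agent.Helper81

open Cfsg Subgroup

universe u

variable {G : Type u} [Group G] [Finite G]

/-- GEN (pure). A noncyclic abelian `q`-group acting coprimely on `X ≠ 1` has a non-identity
element with a non-identity fixed point. -/
theorem bg83_fixed_point {q : ℕ} (hq : q.Prime) (Q X : Subgroup G)
    (hQX : Q ≤ normalizer (X : Set G)) (hQq : IsPGroup q Q)
    (hQab : ∀ a ∈ Q, ∀ b ∈ Q, a * b = b * a) (hQnc : ¬ IsCyclic ↥Q)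
    (hcop : (Nat.card X).Coprime q) (hX : X ≠ ⊥) :
    ∃ b ∈ Q, b ≠ 1 ∧ X ⊓ centralizer ({b} : Set G) ≠ ⊥ := by
  by_contra hcon
  push_neg at hcon
  haveI : IsMulCommutative ↥Q := ⟨⟨fun a b => Subtype.ext (hQab a a.2 b b.2)⟩⟩
  haveI : Fact q.Prime := ⟨hq⟩
  have hcard : (Nat.card Q).Coprime (Nat.card X) := by
    obtain ⟨n, hn⟩ := IsPGroup.iff_card.mp hQq
    rw [hn]
    exact (Nat.Coprime.pow_right n hcop).symm
  have hgen := Cfsg.Agent.Helper1.gen_by_centralizers Q X hQnc hQX hcard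
  apply hX
  rw [← hgen]
  refine le_antisymm (iSup₂_le ?_) bot_le
  intro a ha
  exact le_of_eq (hcon a ha.1 ha.2)

end Cfsg.Agent.Helper81
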