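import Mathlib
import Cfsg.Agent.Helper55.DihedralSylow

/-!
# Piece DIH of the CALL for S0508 (Brauer–Suzuki–Wall, dihedral Sylow 2-subgroups)

Structure of a dihedral Sylow 2-subgroup `S ≅ D_{2n}` (`n ≥ 2`) around a central involution `t`:
there is a cyclic subgroup `R` of index two containing `t`, and for every cyclic subgroup `R` of
index two, every element of `S` outside `R` is an involution inverting `R`.
-/

set_option autoImplicit false

namespace Cfsg.Agent.Helper81

open Cfsg.Agent.Helper55 DihedralGroup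

/-- For `H ≤ K`, `[K : H] * |H| = |K|`. -/
theorem bswd_relIndex_mul_card {G : Type*} [Group G] {H K : Subgroup G} (h : H ≤ K) :
    H.relIndex K * Nat.card H = Nat.card K := by
  have h1 : (H.subgroupOf K).index * Nat.card (H.subgroupOf K) = Nat.card K :=
    Subgroup.index_mul_card _
  have h2 : Nat.card (H.subgroupOf K) = Nat.card H :=
    Nat.card_congr (Subgroup.subgroupOfEquivOfLe h).toEquiv
  rw [Subgroup.relIndex, ← h2]
  exact h1

/-- Elements of `zpowers (dRot e 1)` are rotations. -/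
theorem bswd_mem_zpowers_dRot {G : Type*} [Group G] {m : ℕ} {H : Subgroup G}
    (e : ↥H ≃* DihedralGroup m) {x : G} (hx : x ∈ Subgroup.zpowers (dRot e 1)) :
    ∃ j : ZMod m, x = dRot e j := by
  obtain ⟨k, hk⟩ := Subgroup.mem_zpowers_iff.1 hx
  refine ⟨((1 : ZMod m) * (k : ZMod m)), ?_⟩
  rw [← hk]
  unfold dRot
  rw [← Subgroup.coe_zpow, ← map_zpow, r_zpow]

/-- In `ZMod m` with `3 ≤ m`, `i - 1 ≠ i + 1`. -/
theorem bswd_zmod_sub_one_ne {m : ℕ} (hm : 3 ≤ m) (i : ZMod m) : i - 1 ≠ i + 1 := by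
  intro h
  have h2 : ((2 : ℕ) : ZMod m) = 0 := by
    have : (2 : ZMod m) = 0 := by linear_combination -h
    exact_mod_cast this
  have h3 := (ZMod.natCast_eq_zero_iff 2 m).1 h2
  have := Nat.le_of_dvd (by norm_num) h3
  omega

/-- In `ZMod 2`, `j + j = 0`. -/
theorem bswd_zmod_two_add_self (j : ZMod 2) : j + j = 0 := by
  revert j; decide

theorem bswd_dih_exists {G : Type*} [Group G] [Finite G] (S : Sylow 2 G) (n : ℕ) (hn : 2 ≤ n)
    (e : (S : Subgroup G) ≃* DihedralGroup n) (t : G) (ht : orderOf t = 2)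
    (htS : t ∈ (S : Subgroup G)) (htZ : ∀ s ∈ (S : Subgroup G), s * t = t * s) :
    ∃ R : Subgroup G, R ≤ (S : Subgroup G) ∧ IsCyclic R ∧ R.relIndex (S : Subgroup G) = 2 ∧
      t ∈ R := by
  have hcardS : Nat.card (S : Subgroup G) = 2 * n := by
    rw [Nat.card_congr e.toEquiv, DihedralGroup.nat_card]
  rcases Nat.lt_or_ge n 3 with h3 | h3
  · -- n = 2
    have hn2 : n = 2 := by omega
    subst hn2
    have hle : Subgroup.zpowers t ≤ (S : Subgroup G) := by
      rw [Subgroup.zpowers_le]; exact htS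
    refine ⟨Subgroup.zpowers t, hle, inferInstance, ?_, Subgroup.mem_zpowers t⟩
    have h1 := bswd_relIndex_mul_card hle
    rw [hcardS, Nat.card_zpowers, ht] at h1
    omega
  · -- n ≥ 3
    have hle : Subgroup.zpowers (dRot e 1) ≤ (S : Subgroup G) := by
      rw [Subgroup.zpowers_le]; exact dRot_mem e 1
    refine ⟨Subgroup.zpowers (dRot e 1), hle, inferInstance, ?_, ?_⟩
    · have h1 := bswd_relIndex_mul_card hle
      rw [hcardS, Nat.card_zpowers, orderOf_dRot, DihedralGroup.orderOf_r_one] at h1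
      have hn0 : 0 < n := by omega
      have : (Subgroup.zpowers (dRot e 1)).relIndex (S : Subgroup G) * n = 2 * n := h1
      exact Nat.eq_of_mul_eq_mul_right hn0 this
    · rcases mem_cases e htS with ⟨j, hj⟩ | ⟨i, hi⟩
      · rw [hj]; exact dRot_mem_zpowers e j
      · exfalso
        have h1 := htZ (dRot e 1) (dRot_mem e 1)
        rw [hi, dRot_mul_dRef, dRef_mul_dRot] at h1
        exact bswd_zmod_sub_one_ne h3 i (dRef_injective e h1)

theorem bswd_dih_forall {G : Type*} [Group G] [Finite G] (S : Sylow 2 G) (n : ℕ) (hn : 2 ≤ n)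
    (e : (S : Subgroup G) ≃* DihedralGroup n)
    (R : Subgroup G) (hRS : R ≤ (S : Subgroup G)) (hRc : IsCyclic R)
    (hRi : R.relIndex (S : Subgroup G) = 2) :
    (∃ s ∈ (S : Subgroup G), s ∉ R) ∧
      ∀ s ∈ (S : Subgroup G), s ∉ R → orderOf s = 2 ∧ ∀ x ∈ R, s * x * s⁻¹ = x⁻¹ := by
  have hcardS : Nat.card (S : Subgroup G) = 2 * n := by
    rw [Nat.card_congr e.toEquiv, DihedralGroup.nat_card]
  have hcardR : Nat.card R = n := by
    have h1 := bswd_relIndex_mul_card hRS
    rw [hcardS, hRi] at h1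
    omega
  refine ⟨?_, ?_⟩
  · by_contra hcon
    push_neg at hcon
    have hle : (S : Subgroup G) ≤ R := fun s hs => hcon s hs
    have := Subgroup.relIndex_eq_one.2 hle
    omega
  · intro s hsS hsR
    rcases Nat.lt_or_ge n 3 with h3 | h3
    · -- n = 2: `S` has exponent two
      have hn2 : n = 2 := by omega
      subst hn2
      have hsq : ∀ x ∈ (S : Subgroup G), x * x = 1 := by
        intro x hx
        rcases mem_cases e hx with ⟨j, hj⟩ | ⟨i, hi⟩
        · rw [hj, dRot_mul_dRot, bswd_zmod_two_add_self, dRot_zero]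
        · rw [hi, dRef_mul_self]
      have hs1 : s ≠ 1 := fun h => hsR (h ▸ R.one_mem)
      have hss := hsq s hsS
      refine ⟨?_, ?_⟩
      · haveI : Fact (Nat.Prime 2) := ⟨Nat.prime_two⟩
        exact orderOf_eq_prime (by rw [pow_two]; exact hss) hs1
      · intro x hx
        have hsx := hsq (s * x) ((S : Subgroup G).mul_mem hsS (hRS hx))
        have hsinv : s⁻¹ = s := inv_eq_of_mul_eq_one_left hss
        rw [hsinv]
        refine eq_inv_of_mul_eq_one_left ?_
        calc s * x * s * x = s * x * (s * x) := by group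
          _ = 1 := hsx
    · -- n ≥ 3
      obtain ⟨g, hg⟩ := hRc.exists_generator
      have hordg : orderOf (g : G) = n := by
        rw [Subgroup.orderOf_coe, orderOf_eq_card_of_forall_mem_zpowers hg, hcardR]
      have hgrot : ∃ j, (g : G) = dRot e j := by
        rcases mem_cases e (hRS g.2) with hj | ⟨i, hi⟩
        · exact hj
        · exfalso
          rw [hi, orderOf_dRef] at hordg
          omega
      obtain ⟨j, hj⟩ := hgrot
      have hRle : R ≤ Subgroup.zpowers (dRot e 1) := by
        intro x hx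
        obtain ⟨k, hk⟩ := Subgroup.mem_zpowers_iff.1 (hg ⟨x, hx⟩)
        have hk' : (g : G) ^ k = x := by
          have := congrArg Subtype.val hk
          simpa using this
        rw [← hk', hj]
        exact Subgroup.zpow_mem _ (dRot_mem_zpowers e j) k
      have hReq : R = Subgroup.zpowers (dRot e 1) := by
        refine Subgroup.eq_of_le_of_card_ge hRle ?_
        rw [hcardR, Nat.card_zpowers, orderOf_dRot, DihedralGroup.orderOf_r_one]
      have hsref : ∃ i, s = dRef e i := by
        rcases mem_cases e hsS with ⟨j', hj'⟩ | hi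
        · exfalso
          apply hsR
          rw [hReq, hj']
          exact dRot_mem_zpowers e j'
        · exact hi
      obtain ⟨i, hi⟩ := hsref
      refine ⟨by rw [hi, orderOf_dRef], ?_⟩
      intro x hx
      obtain ⟨k, hk⟩ := bswd_mem_zpowers_dRot e (hRle hx)
      rw [hi, hk, dRef_inv, dRef_mul_dRot, dRef_mul_dRef, dRot_inv]
      congr 1
      ring

/-- PIECE DIH of the CALL for S0508. -/
theorem bswd_dih {G : Type*} [Group G] [Finite G] (S : Sylow 2 G) (n : ℕ) (hn : 2 ≤ n)
    (hS : Nonempty ((S : Subgroup G) ≃* DihedralGroup n)) (t : G) (ht : orderOf t = 2)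
    (htS : t ∈ (S : Subgroup G)) (htZ : ∀ s ∈ (S : Subgroup G), s * t = t * s) :
    (∃ R : Subgroup G, R ≤ (S : Subgroup G) ∧ IsCyclic R ∧ R.relIndex (S : Subgroup G) = 2 ∧ t ∈ R) ∧
    ∀ R : Subgroup G, R ≤ (S : Subgroup G) → IsCyclic R → R.relIndex (S : Subgroup G) = 2 →
      (∃ s ∈ (S : Subgroup G), s ∉ R) ∧
      ∀ s ∈ (S : Subgroup G), s ∉ R → orderOf s = 2 ∧ ∀ x ∈ R, s * x * s⁻¹ = x⁻¹ := by
  obtain ⟨e⟩ := hS
  exact ⟨bswd_dih_exists S n hn e t ht htS htZ,
    fun R hRS hRc hRi => bswd_dih_forall S n hn e R hRS hRc hRi⟩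

end Cfsg.Agent.Helper81
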