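import Mathlib
import Cfsg.Agent.Helper96.C3SDefs

/-!
# Piece MAXB of the CALL for S5664: the maximal-intersection lemma, linear-algebra part
-/

set_option autoImplicit false

namespace Cfsg.Agent.Helper81.C3S

open Module Cfsg.Agent.Helper96.C3S

variable {F K V : Type*} [Field F] [Field K] [Algebra F K] [AddCommGroup V] [Module F V]
  [Module K V] [IsScalarTower F K V]

/-- a `K`-line has `|K|` points -/
theorem maxB_kline_ncard (a : V) (ha : a ≠ 0) :
    (Kline K a).ncard = Nat.card K := by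
  have h : Kline K a = (fun k : K => k • a) '' Set.univ := by
    ext x
    constructor
    · rintro ⟨k, rfl⟩
      exact ⟨k, Set.mem_univ _, rfl⟩
    · rintro ⟨k, -, rfl⟩
      exact ⟨k, rfl⟩
  rw [h, Set.ncard_image_of_injective _ (smul_left_injective K ha), Set.ncard_univ]

/-- `Wstar` has at most `|K|` points -/
theorem maxB_wstar_ncard_le [Finite F] [Finite K] [Finite V] (a b : V) :
    (Wstar F K a b).ncard ≤ Nat.card K := by
  obtain ⟨e, he⟩ := trace_surj (F := F) (K := K) 1
  have hsub : Wstar F K a b ⊆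
      (fun k : K => (k - Algebra.trace F K k • e) • a + Algebra.trace F K k • b) '' Set.univ := by
    rintro x ⟨z, t, hz, rfl⟩
    refine ⟨z + t • e, Set.mem_univ _, ?_⟩
    have h1 : Algebra.trace F K (z + t • e) = t := by
      rw [map_add, map_smul, hz, he, zero_add, smul_eq_mul, mul_one]
    simp only [h1]
    rw [add_sub_cancel_right]
  calc (Wstar F K a b).ncard
      ≤ ((fun k : K => (k - Algebra.trace F K k • e) • a + Algebra.trace F K k • b) ''
          Set.univ).ncard := Set.ncard_le_ncard hsub (Set.toFinite _)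
    _ ≤ (Set.univ : Set K).ncard := Set.ncard_image_le (Set.toFinite _)
    _ = Nat.card K := Set.ncard_univ K

/-- an element outside the base field generates an extension of prime degree -/
theorem maxB_adjoin_top (hr : (finrank F K).Prime) (θ : K)
    (hθ : ∀ t : F, θ ≠ algebraMap F K t) : Algebra.adjoin F {θ} = ⊤ := by
  haveI := Subalgebra.isSimpleOrder_of_finrank_prime F K hr
  rcases eq_bot_or_eq_top (Algebra.adjoin F {θ}) with h | h
  · exfalso
    have hmem : θ ∈ Algebra.adjoin F {θ} := Algebra.subset_adjoin (Set.mem_singleton θ)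
    rw [h, Algebra.mem_bot] at hmem
    obtain ⟨t, ht⟩ := hmem
    exact hθ t ht.symm
  · exact h

/-- a subset of `K` closed under `+`, `F`-scalars and multiplication by `θ` is closed under
multiplication by `F[θ]` -/
theorem maxB_adjoin_mul (Z : Set K) (hZadd : ∀ x ∈ Z, ∀ y ∈ Z, x + y ∈ Z)
    (hZsm : ∀ (t : F), ∀ x ∈ Z, algebraMap F K t * x ∈ Z) (θ : K) (hθ : ∀ x ∈ Z, θ * x ∈ Z)
    (y : K) (hy : y ∈ Algebra.adjoin F {θ}) : ∀ x ∈ Z, y * x ∈ Z := by
  induction hy using Algebra.adjoin_induction with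
  | mem x hx =>
    rw [Set.mem_singleton_iff] at hx
    subst hx
    exact hθ
  | algebraMap r => exact hZsm r
  | add x y _ _ ihx ihy =>
    intro z hz
    rw [add_mul]
    exact hZadd _ (ihx z hz) _ (ihy z hz)
  | mul x y _ _ ihx ihy =>
    intro z hz
    rw [mul_assoc]
    exact ihx _ (ihy z hz)

/-- PIECE MAXB (pure linear algebra, no group) -/
theorem max_B [Fintype F] [Finite K] [Module.Finite K V] (hr : (finrank F K).Prime)
    (φ : LinearMap.BilinForm K V) (alt : ∀ v, φ v v = 0) (a : V) (ha : a ≠ 0) (X : Set V)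
    (h0 : (0 : V) ∈ X) (hadd : ∀ x ∈ X, ∀ y ∈ X, x + y ∈ X) (hsm : ∀ (t : F), ∀ x ∈ X, t • x ∈ X)
    (hcard : X.ncard = Nat.card K) (hts : ∀ x ∈ X, ∀ y ∈ X, fT (F := F) φ x y = 0)
    (hne : X ≠ Kline K a) (hint : ∃ x ∈ X, x ≠ 0 ∧ x ∈ Kline K a)
    (hA : ∀ c : K, ∀ w₀ ∈ X, w₀ ∉ Kline K a → (c * φ w₀ a) • a ∈ X →
      ∀ w ∈ X, (c * φ w a) • a ∈ X) :
    (∀ x ∈ X, φ x a = 0) ∨ (∃ a₁ b : V, φ a₁ b = 1 ∧ X = Wstar F K a₁ b) := by
  classical
  haveI : Finite V := Module.finite_of_finite K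
  have hKl : (Kline K a).ncard = Nat.card K := maxB_kline_ncard a ha
  -- if the whole line is in `X` then `X` is the line
  have hfull : (∀ k : K, k • a ∈ X) → False := by
    intro h
    apply hne
    symm
    apply Set.eq_of_subset_of_ncard_le _ (by rw [hcard, hKl]) (Set.toFinite _)
    rintro x ⟨k, rfl⟩
    exact h k
  -- a point of `X` outside the line
  obtain ⟨w₁, hw₁, hw₁'⟩ : ∃ w₁ ∈ X, w₁ ∉ Kline K a := by
    by_contra hcon
    push Not at hcon
    apply hne
    exact Set.eq_of_subset_of_ncard_le hcon (by rw [hcard, hKl]) (Set.toFinite _)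
  obtain ⟨x₀, hx₀, hx₀0, k₀, hk₀⟩ := hint
  have hk₀0 : k₀ ≠ 0 := by
    rintro rfl
    apply hx₀0
    rw [hk₀, zero_smul]
  have hk₀X : k₀ • a ∈ X := hk₀ ▸ hx₀
  by_cases hC : ∃ w₀ ∈ X, w₀ ∉ Kline K a ∧ φ w₀ a = 0
  · -- case 1
    left
    obtain ⟨w₀, hw₀, hw₀', hw₀a⟩ := hC
    intro w hw
    by_contra hwa
    apply hfull
    intro k
    have h1 := hA (k / φ w a) w₀ hw₀ hw₀' (by rw [hw₀a, mul_zero, zero_smul]; exact h0) w hw
    rwa [div_mul_cancel₀ _ hwa] at h1
  · -- case 2
    right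
    push Not at hC
    have hl₁ : φ w₁ a ≠ 0 := hC w₁ hw₁ hw₁'
    -- multiplication by `φ w a / l₁` preserves `Z = {z | z • a ∈ X}`
    have hZmul : ∀ w ∈ X, ∀ z : K, z • a ∈ X → (φ w a / φ w₁ a * z) • a ∈ X := by
      intro w hw z hz
      have h1 := hA (z / φ w₁ a) w₁ hw₁ hw₁' (by rw [div_mul_cancel₀ _ hl₁]; exact hz) w hw
      have h2 : z / φ w₁ a * φ w a = φ w a / φ w₁ a * z := by
        field_simp
      rwa [h2] at h1
    -- `φ w a ∈ F l₁`
    have hθF : ∀ w ∈ X, ∃ t : F, φ w a = algebraMap F K t * φ w₁ a := by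
      intro w hw
      by_contra hcon
      push Not at hcon
      have hθ : ∀ t : F, φ w a / φ w₁ a ≠ algebraMap F K t := by
        intro t ht
        apply hcon t
        rw [← ht, div_mul_cancel₀ _ hl₁]
      have htop := maxB_adjoin_top hr _ hθ
      apply hfull
      intro k
      have hmem : k / k₀ ∈ Algebra.adjoin F {φ w a / φ w₁ a} := by
        rw [htop]
        exact Algebra.mem_top
      have h3 := maxB_adjoin_mul (F := F) {z : K | z • a ∈ X}
        (fun x hx y hy => by
          show (x + y) • a ∈ X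
          rw [add_smul]
          exact hadd _ hx _ hy)
        (fun t x hx => by
          show (algebraMap F K t * x) • a ∈ X
          rw [mul_smul, algebraMap_smul]
          exact hsm t _ hx)
        (φ w a / φ w₁ a) (fun x hx => hZmul w hw x hx) (k / k₀) hmem k₀ hk₀X
      have h4 : (k / k₀ * k₀) • a ∈ X := h3
      rwa [div_mul_cancel₀ _ hk₀0] at h4
    -- decomposition of `X`
    have hdec : ∀ w ∈ X, ∃ (z : K) (t : F), z • a ∈ X ∧ w = z • a + t • w₁ := by
      intro w hw
      obtain ⟨t, ht⟩ := hθF w hw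
      have hw' : w + (-t) • w₁ ∈ X := hadd _ hw _ (hsm _ _ hw₁)
      have hφ : φ (w + (-t) • w₁) a = 0 := by
        rw [map_add, LinearMap.add_apply, ← algebraMap_smul K (-t) w₁, map_smul,
          LinearMap.smul_apply, smul_eq_mul, ht, map_neg]
        ring
      have hmem : w + (-t) • w₁ ∈ Kline K a := by
        by_contra hcon
        exact hC _ hw' hcon hφ
      obtain ⟨z, hz⟩ := hmem
      refine ⟨z, t, hz ▸ hw', ?_⟩
      rw [← hz, neg_smul]
      abel
    refine ⟨(φ w₁ a)⁻¹ • a, -w₁, ?_, ?_⟩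
    · rw [map_smul, LinearMap.smul_apply, map_neg, smul_eq_mul, skew alt a w₁, neg_neg,
        inv_mul_cancel₀ hl₁]
    · apply Set.eq_of_subset_of_ncard_le _ _ (Set.toFinite _)
      · intro w hw
        obtain ⟨z, t, hz, rfl⟩ := hdec w hw
        refine ⟨z * φ w₁ a, -t, ?_, ?_⟩
        · have h5 := hts _ hz _ hw₁
          rw [fT_apply, map_smul, LinearMap.smul_apply, smul_eq_mul, skew alt a w₁, mul_neg,
            map_neg, neg_eq_zero] at h5
          exact h5
        · rw [smul_smul, mul_assoc, mul_inv_cancel₀ hl₁, mul_one, neg_smul, smul_neg, neg_neg]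
      · rw [hcard]
        exact maxB_wstar_ncard_le _ _

end Cfsg.Agent.Helper81.C3S
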