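import Mathlib
import Cfsg.Agent.Helper96.C3SDefs

/-!
# Piece XF of the CALL for S5664: basic facts on the members of the orbit of `K`-lines
-/

set_option autoImplicit false

namespace Cfsg.Agent.Helper81.C3S

open Module Cfsg.Agent.Helper96.C3S

variable {F K V : Type*} [Field F] [Field K] [Algebra F K] [AddCommGroup V] [Module F V]
  [Module K V] [IsScalarTower F K V]

/-- `fT φ` is nondegenerate -/
theorem xf_fT_nd [Finite F] [Finite K] (φ : LinearMap.BilinForm K V)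
    (nd : ∀ u, (∀ v, φ u v = 0) → u = 0) (u : V) (h : ∀ v, fT (F := F) φ u v = 0) : u = 0 := by
  apply nd
  intro v
  apply trace_nd (F := F)
  intro k
  have h1 := h (k • v)
  rw [fT_apply, map_smul, smul_eq_mul] at h1
  exact h1

/-- a member of `P` is injective -/
theorem xf_injective [Finite F] [Finite K] {φ : LinearMap.BilinForm K V}
    {P : Module.End F V → Prop} (h : Hyp φ P) (g : Module.End F V) (hg : P g) :
    Function.Injective g := by
  rw [← LinearMap.ker_eq_bot, Submodule.eq_bot_iff]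
  intro v hv
  rw [LinearMap.mem_ker] at hv
  apply xf_fT_nd (F := F) φ h.nd
  intro u
  rw [← h.iso g hg v u, hv, map_zero, LinearMap.zero_apply]

/-- PIECE XF (1/3) -/
theorem inW_facts [Fintype F] [Finite K] [Module.Finite K V] {φ : LinearMap.BilinForm K V}
    {P : Module.End F V → Prop} (h : Hyp φ P) (X : Set V) (hX : InW K P X) :
    (0 : V) ∈ X ∧ (∀ x ∈ X, ∀ y ∈ X, x + y ∈ X) ∧ (∀ (t : F), ∀ x ∈ X, t • x ∈ X) ∧
      X.ncard = Nat.card K ∧ (∀ x ∈ X, ∀ y ∈ X, fT (F := F) φ x y = 0) := by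
  obtain ⟨g, a, hg, ha, rfl⟩ := hX
  refine ⟨⟨0, by rw [zero_smul, map_zero]⟩, ?_, ?_, ?_, ?_⟩
  · rintro x ⟨k, rfl⟩ y ⟨k', rfl⟩
    exact ⟨k + k', by rw [add_smul, map_add]⟩
  · rintro t x ⟨k, rfl⟩
    exact ⟨t • k, by rw [smul_assoc t k a, g.map_smul t (k • a)]⟩
  · have hinj : Function.Injective (fun k : K => g (k • a)) :=
      (xf_injective h g hg).comp (smul_left_injective K ha)
    have hset : {x | ∃ k : K, x = g (k • a)} = (fun k : K => g (k • a)) '' Set.univ := by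
      ext x
      constructor
      · rintro ⟨k, rfl⟩
        exact ⟨k, Set.mem_univ _, rfl⟩
      · rintro ⟨k, -, rfl⟩
        exact ⟨k, rfl⟩
    rw [hset, Set.ncard_image_of_injective _ hinj, Set.ncard_univ]
  · rintro x ⟨k, rfl⟩ y ⟨k', rfl⟩
    have h1 : φ (k • a) (k' • a) = 0 := by
      rw [(φ (k • a)).map_smul k' a, φ.map_smul k a, LinearMap.smul_apply, h.alt, smul_zero,
        smul_zero]
    rw [h.iso g hg, fT_apply, h1, map_zero]

/-- PIECE XF (2/3) -/
theorem inW_image {φ : LinearMap.BilinForm K V} {P : Module.End F V → Prop} (h : Hyp φ P)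
    (X : Set V) (hX : InW K P X) (g : Module.End F V) (hg : P g) : InW K P (g '' X) := by
  obtain ⟨g₁, a, hg₁, ha, rfl⟩ := hX
  refine ⟨g * g₁, a, h.grp.mul g g₁ hg hg₁, ha, ?_⟩
  ext x
  constructor
  · rintro ⟨y, ⟨k, rfl⟩, rfl⟩
    exact ⟨k, rfl⟩
  · rintro ⟨k, rfl⟩
    exact ⟨g₁ (k • a), ⟨k, rfl⟩, rfl⟩

/-- PIECE XF (3/3) -/
theorem inW_kline {φ : LinearMap.BilinForm K V} {P : Module.End F V → Prop} (h : Hyp φ P)
    (a : V) (ha : a ≠ 0) : InW K P (Kline K a) :=
  ⟨1, a, h.grp.one, ha, rfl⟩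

end Cfsg.Agent.Helper81.C3S
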