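import Mathlib
import Cfsg.Agent.Helper59.Deg11A

/-!
# Degree 11: no element of order 3 fixes three points (Witt's argument)

Piece N of helper59's call for S0679.
-/

set_option autoImplicit false

namespace Cfsg.Agent.Helper81

open MulAction Cfsg.Agent.Helper59

/-- The elements of the cyclic group generated by an element of order 3. -/
theorem kd_mem_zpowers_three {G : Type*} [Group G] {z x : G} (hz : orderOf z = 3)
    (hx : x ∈ Subgroup.zpowers z) : x = 1 ∨ x = z ∨ x = z⁻¹ := by
  obtain ⟨k, rfl⟩ := Subgroup.mem_zpowers_iff.mp hx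
  have h3 : z ^ 3 = 1 := by rw [← hz, pow_orderOf_eq_one]
  have hmod : z ^ k = z ^ (k % 3) := by
    have := zpow_mod_orderOf z k
    rw [hz] at this
    exact this.symm
  have hk : k % 3 = 0 ∨ k % 3 = 1 ∨ k % 3 = 2 := by omega
  rcases hk with h | h | h
  · left; rw [hmod, h, zpow_zero]
  · right; left; rw [hmod, h, zpow_one]
  · right; right; rw [hmod, h]
    have h2 : z ^ (2 : ℤ) = z ^ 2 := by norm_cast
    rw [h2, eq_inv_iff_mul_eq_one, ← pow_succ, h3]

/-- The cyclic group generated by an element of order 3 is a 3-group. -/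
theorem kd_isPGroup_zpowers_three {G : Type*} [Group G] {z : G} (hz : orderOf z = 3) :
    IsPGroup 3 (Subgroup.zpowers z) := by
  have hz3 : z ^ 3 = 1 := by rw [← hz, pow_orderOf_eq_one]
  rintro ⟨x, hx⟩
  refine ⟨1, Subtype.ext ?_⟩
  simp only [pow_one, Subgroup.coe_pow, Subgroup.coe_one]
  rcases kd_mem_zpowers_three hz hx with rfl | rfl | rfl
  · exact one_pow 3
  · exact hz3
  · rw [inv_pow, hz3, inv_one]

variable {G α : Type*} [Group G] [Finite G] [MulAction G α] [Fintype α] [DecidableEq α]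

/-- PIECE N: in a 3-transitive group of degree 11 (with the Jordan data) no element of order 3
fixes three points. -/
theorem d11_no_three (D : D11 G α) (h3 : Tr3 G α) {a b c : α} (hab : a ≠ b) (hac : a ≠ c)
    (hbc : b ≠ c) {z : G} (hz : orderOf z = 3) (ha : z • a = a) (hb : z • b = b)
    (hc : z • c = c) : False := by
  classical
  haveI : Fact (Nat.Prime 3) := ⟨by norm_num⟩
  haveI : Fact (Nat.Prime 5) := ⟨by norm_num⟩
  have hfx : fx α z = 5 := by
    have h1 := three_le_fx hab hac hbc ha hb hc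
    rcases D.o3 z hz with h | h
    · omega
    · exact h
  have hz3 : z ^ 3 = 1 := by rw [← hz, pow_orderOf_eq_one]
  have hz1 : z ≠ 1 := by
    rintro rfl
    rw [orderOf_one] at hz; omega
  set R : Subgroup G := Subgroup.zpowers z with hR
  have hRp : IsPGroup 3 R := kd_isPGroup_zpowers_three hz
  have hRcard : Nat.card R = 3 := by
    rw [hR, Nat.card_zpowers, hz]
  have hzR : z ∈ R := Subgroup.mem_zpowers z
  -- R fixes every fixed point of z
  have hRfix : ∀ x ∈ R, ∀ f : α, z • f = f → x • f = f := by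
    intro x hx f hf
    rcases kd_mem_zpowers_three hz hx with rfl | rfl | rfl
    · exact one_smul _ _
    · exact hf
    · rw [inv_smul_eq_iff, hf]
  have hconj : ∀ n : G, n * z * n⁻¹ ∈ R → ∀ x ∈ R, n * x * n⁻¹ ∈ R := by
    intro n hn x hx
    rcases kd_mem_zpowers_three hz hx with rfl | rfl | rfl
    · rw [mul_one, mul_inv_cancel]; exact R.one_mem
    · exact hn
    · have : n * z⁻¹ * n⁻¹ = (n * z * n⁻¹)⁻¹ := by group
      rw [this]; exact R.inv_mem hn
  -- the normalizing subgroup
  let N : Subgroup G :=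
    { carrier := {n | n * z * n⁻¹ ∈ R ∧ n⁻¹ * z * n ∈ R}
      one_mem' := by
        refine ⟨?_, ?_⟩
        · rw [one_mul, inv_one, mul_one]; exact hzR
        · rw [inv_one, one_mul, mul_one]; exact hzR
      mul_mem' := fun {n m} hn hm => by
        refine ⟨?_, ?_⟩
        · have h1 := hconj n hn.1 _ hm.1
          have : n * m * z * (n * m)⁻¹ = n * (m * z * m⁻¹) * n⁻¹ := by group
          rw [this]; exact h1
        · have h1 := hconj m⁻¹ (by rw [inv_inv]; exact hm.2) _ hn.2
          have : (n * m)⁻¹ * z * (n * m) = m⁻¹ * (n⁻¹ * z * n) * m⁻¹⁻¹ := by group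
          rw [this]; exact h1
      inv_mem' := fun {n} hn => ⟨by rw [inv_inv]; exact hn.2, by rw [inv_inv]; exact hn.1⟩ }
  have hN_of : ∀ n : G, n * z * n⁻¹ ∈ R → n ∈ N := by
    intro n hn
    refine ⟨hn, ?_⟩
    rcases kd_mem_zpowers_three hz hn with h | h | h
    · exact absurd (conj_eq_one_iff.mp h) hz1
    · have : n⁻¹ * z * n = z := by
        calc n⁻¹ * z * n = n⁻¹ * (n * z * n⁻¹) * n := by rw [h]
          _ = z := by group
      rw [this]; exact hzR
    · have : n⁻¹ * z * n = z⁻¹ := by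
        calc n⁻¹ * z * n = (n⁻¹ * z⁻¹ * n)⁻¹ := by group
          _ = (n⁻¹ * (n * z * n⁻¹) * n)⁻¹ := by rw [h]
          _ = z⁻¹ := by group
      rw [this]; exact R.inv_mem hzR
  have hF5 : (fxs α z).card = 5 := hfx
  -- step 1: N is transitive on the fixed points of z
  have step1 : ∀ f ∈ fxs α z, ∃ n ∈ N, n • a = f := by
    intro f hf
    have hcard : ((fxs α z).erase f).card = 4 := by rw [Finset.card_erase_of_mem hf, hF5]
    obtain ⟨f2, hf2, f3, hf3, h23⟩ :=
      Finset.one_lt_card.mp (by rw [hcard]; norm_num : 1 < ((fxs α z).erase f).card)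
    rw [Finset.mem_erase] at hf2 hf3
    obtain ⟨g, hga, hgb, hgc⟩ :=
      h3 a b c f f2 f3 hab hac hbc (Ne.symm hf2.1) (Ne.symm hf3.1) h23
    have hzf : z • f = f := mem_fxs.mp hf
    have hzf2 : z • f2 = f2 := mem_fxs.mp hf2.2
    have hzf3 : z • f3 = f3 := mem_fxs.mp hf3.2
    set K' : Subgroup G := stabilizer G f ⊓ stabilizer G f2 ⊓ stabilizer G f3 with hK'
    have hmemK : ∀ x : G, x ∈ K' ↔ x • f = f ∧ x • f2 = f2 ∧ x • f3 = f3 := by
      intro x
      rw [hK', Subgroup.mem_inf, Subgroup.mem_inf, mem_stabilizer_iff, mem_stabilizer_iff,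
        mem_stabilizer_iff, and_assoc]
    have hRK : R ≤ K' := fun x hx =>
      (hmemK x).mpr ⟨hRfix x hx f hzf, hRfix x hx f2 hzf2, hRfix x hx f3 hzf3⟩
    set w := g * z * g⁻¹ with hw
    have hwK : w ∈ K' := by
      rw [hmemK]
      refine ⟨?_, ?_, ?_⟩
      · rw [hw, ← hga]; exact (conj_smul_smul_eq_iff g z a).mpr ha
      · rw [hw, ← hgb]; exact (conj_smul_smul_eq_iff g z b).mpr hb
      · rw [hw, ← hgc]; exact (conj_smul_smul_eq_iff g z c).mpr hc
    have hBK : Subgroup.zpowers w ≤ K' := by rw [Subgroup.zpowers_le]; exact hwK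
    have hw3 : orderOf w = 3 := by rw [hw, orderOf_conj_eq, hz]
    have hBp : IsPGroup 3 (Subgroup.zpowers w) := kd_isPGroup_zpowers_three hw3
    have hmax : ∀ Q : Subgroup G, Q ≤ K' → IsPGroup 3 Q → Nat.card Q ≤ Nat.card R := by
      intro Q hQ hQp
      have := D.card_three_fix Q hQp (Ne.symm hf2.1) (Ne.symm hf3.1) h23
        (fun q hq => (hmemK q).mp (hQ hq))
      rw [hRcard]
      exact Nat.le_of_dvd (by norm_num) this
    obtain ⟨k, hk, hkB⟩ := conj_in_subgroup K' R (Subgroup.zpowers w) hRK hBK hRp hBp hmax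
    have hkw := hkB w (Subgroup.mem_zpowers w)
    refine ⟨k * g, hN_of _ ?_, ?_⟩
    · have : k * g * z * (k * g)⁻¹ = k * w * k⁻¹ := by rw [hw]; group
      rw [this]; exact hkw
    · rw [mul_smul, hga]; exact ((hmemK k).mp hk).1
  -- step 2: the N-orbit of a is the fixed point set of z, so 5 divides |N|
  have hNorb : ∀ x, x ∈ fxs α z ↔ ∃ n ∈ N, n • a = x := by
    intro x
    constructor
    · exact step1 x
    · rintro ⟨n, hn, rfl⟩
      rw [mem_fxs]
      have h1 : (n⁻¹ * z * n) • a = a := hRfix _ hn.2 a ha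
      calc z • n • a = n • (n⁻¹ * z * n) • a := by
            rw [smul_smul, smul_smul]; congr 1; group
        _ = n • a := by rw [h1]
  have hNcard := card_eq_card_orbit_mul N a (fxs α z) hNorb
  rw [hF5] at hNcard
  have h5N : 5 ∣ Nat.card N := Dvd.intro _ hNcard.symm
  obtain ⟨y, hy⟩ := exists_prime_orderOf_dvd_card' 5 h5N
  have hy5 : orderOf (y : G) = 5 := by rw [Subgroup.orderOf_coe]; exact hy
  have hyN : (y : G) ∈ N := y.2
  -- step 3: an element of order 5 commutes with z
  rcases kd_mem_zpowers_three hz hyN.1 with h | h | h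
  · exact hz1 (conj_eq_one_iff.mp h)
  · have hc5 : Commute (y : G) z := by
      have : (y : G) * z = z * y := by
        calc (y : G) * z = (y * z * (y : G)⁻¹) * y := by group
          _ = z * y := by rw [h]
      exact this
    have := D.c5 hy5 hc5
    omega
  · have hc5 : Commute ((y : G) ^ 2) z := by
      have : (y : G) ^ 2 * z = z * (y : G) ^ 2 := by
        calc (y : G) ^ 2 * z = y * (y * z * (y : G)⁻¹) * y := by
              rw [pow_two]; simp only [mul_assoc, inv_mul_cancel, mul_one]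
          _ = y * z⁻¹ * y := by rw [h]
          _ = ((y : G) * z * (y : G)⁻¹)⁻¹ * (y : G) ^ 2 := by
              rw [pow_two]; simp only [mul_inv_rev, inv_inv, mul_assoc, inv_mul_cancel_left]
          _ = z * (y : G) ^ 2 := by rw [h, inv_inv]
      exact this
    have h5' : orderOf ((y : G) ^ 2) = 5 := by
      rw [Nat.Coprime.orderOf_pow (by rw [hy5]; norm_num), hy5]
    have := D.c5 h5' hc5
    omega

end Cfsg.Agent.Helper81
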