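import Cfsg.Agent.Helper16.FMT
import Cfsg.Agent.Helper81.SectionSum

/-!
# Green's theorem on defect groups and Sylow intersections

* `exists_mem_block_sum_ne_zero`: every block has a member whose restriction to a given
  `p`-subgroup contains the trivial character.
* `exists_coset_not_dvd`: if the central characters of a block do not vanish modulo `M` on the
  class of `g₁`, then for every `p`-subgroup `P` some coset `aP` meets the class of `g₁` in a
  number of elements prime to `p` (the class sum acts on the permutation module of the cosets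
  of `P` by an integer matrix having the central character value as an eigenvalue).
* `exists_conj_commute_of_not_dvd`: fixed point argument.
* `exists_conj_inter_le_centralizer`: the combination.
* `green_normal`: Green's theorem for a block with normal defect group.
* `le_of_normalizer_inf_le`: normalizers grow in `p`-groups.
-/

set_option autoImplicit false
open Cfsg

namespace Cfsg.Agent.Helper81

open scoped ComplexConjugate

universe u

section green

variable {H : Type u} [Group H] [Fintype H]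

/-- The class sum of `g₁` acts on an irreducible character by its central character. -/
theorem sum_classFinset_mul (ψ : Cfsg.IrrCharacter H) (g₁ l : H) :
    ∑ g ∈ classFinset g₁, (ψ : H → ℂ) (g * l)
      = Cfsg.centralChar (ψ : H → ℂ) g₁ * (ψ : H → ℂ) l := by
  classical
  have h := Helper77.sum_mul_irr_mul ψ (classInd_isClassFunction g₁) l
  rw [omega_classInd] at h
  rw [← h, classFinset, Finset.sum_filter]
  refine Finset.sum_congr rfl fun g _ => ?_
  simp only [classInd]
  split_ifs <;> simp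

/-- Every block has a member whose restriction to a given `p`-subgroup contains the trivial
character. -/
theorem exists_mem_block_sum_ne_zero {p : ℕ} [Fact p.Prime] {M : Ideal Cfsg.AlgInt}
    (hM : Cfsg.IsPModular p M) {b : Set (Cfsg.IrrCharacter H)} (hb : Cfsg.IsPBlock M b)
    (P : Subgroup H) [Fintype P] (hP : IsPGroup p P) :
    ∃ ξ ∈ b, ∑ u : P, (ξ : H → ℂ) (u : H) ≠ 0 := by
  classical
  have hp : p.Prime := Fact.out
  have := Fintype.ofFinite (Cfsg.IrrCharacter H)
  by_contra hcon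
  push Not at hcon
  have h1 : ∀ u : P, (u : H) ≠ 1 →
      ∑ᶠ ξ ∈ b, (ξ : H → ℂ) 1 * conj ((ξ : H → ℂ) (u : H)) = 0 := by
    intro u hu
    apply Helper77.weak_block_orthogonality hM hb
    · rw [orderOf_one]
      exact hp.one_lt.ne' ∘ Nat.dvd_one.mp
    · obtain ⟨k, hk⟩ := hP u
      have h2 : orderOf (u : H) ∣ p ^ k := by
        apply orderOf_dvd_of_pow_eq_one
        have := congrArg Subtype.val hk
        simpa using this
      obtain ⟨m, -, hm⟩ := (Nat.dvd_prime_pow hp).mp h2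
      rw [hm]
      apply dvd_pow_self
      rintro rfl
      rw [pow_zero, orderOf_eq_one_iff] at hm
      exact hu hm
  have h2 : ∑ u : P, ∑ᶠ ξ ∈ b, (ξ : H → ℂ) 1 * conj ((ξ : H → ℂ) (u : H))
      = ∑ᶠ ξ ∈ b, (ξ : H → ℂ) 1 * conj ((ξ : H → ℂ) 1) := by
    rw [Finset.sum_eq_single (1 : P)]
    · simp
    · intro u _ hu
      apply h1
      intro h
      apply hu
      exact Subtype.ext h
    · intro h; exact absurd (Finset.mem_univ _) h
  have hfs : ∀ u : H, ∑ᶠ ξ ∈ b, (ξ : H → ℂ) 1 * conj ((ξ : H → ℂ) u)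
      = ∑ ξ : Cfsg.IrrCharacter H, b.indicator (fun ξ : Cfsg.IrrCharacter H =>
        (ξ : H → ℂ) 1 * conj ((ξ : H → ℂ) u)) ξ := by
    intro u
    rw [finsum_mem_def, finsum_eq_sum_of_fintype]
  have h3 : ∑ u : P, ∑ᶠ ξ ∈ b, (ξ : H → ℂ) 1 * conj ((ξ : H → ℂ) (u : H)) = 0 := by
    rw [Finset.sum_congr rfl (fun (u : P) _ => hfs (u : H)), Finset.sum_comm]
    refine Finset.sum_eq_zero fun ξ _ => ?_
    by_cases hξ : ξ ∈ b
    · rw [Finset.sum_congr rfl (fun (u : P) _ => Set.indicator_of_mem hξ _)]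
      rw [← Finset.mul_sum, ← map_sum, hcon ξ hξ, map_zero, mul_zero]
    · rw [Finset.sum_congr rfl (fun (u : P) _ => Set.indicator_of_notMem hξ _)]
      exact Finset.sum_const_zero
  rw [h3] at h2
  obtain ⟨ξ₀, hξ₀⟩ := Helper16.exists_mem_of_isPBlock hM.2.1 hb
  rw [hfs 1] at h2
  have h4 := congrArg Complex.re h2
  rw [Complex.re_sum, Complex.zero_re] at h4
  have hnn : ∀ ξ : Cfsg.IrrCharacter H,
      0 ≤ (b.indicator (fun ξ : Cfsg.IrrCharacter H =>
        (ξ : H → ℂ) 1 * conj ((ξ : H → ℂ) 1)) ξ).re := by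
    intro ξ
    by_cases hξ : ξ ∈ b
    · rw [Set.indicator_of_mem hξ]
      obtain ⟨n, -, hn1⟩ := irr_one_eq ξ
      rw [hn1]
      simp only [Complex.conj_natCast, Complex.mul_re, Complex.natCast_re, Complex.natCast_im,
        mul_zero, sub_zero]
      positivity
    · rw [Set.indicator_of_notMem hξ]
      simp
  have hpos : 0 < (b.indicator (fun ξ : Cfsg.IrrCharacter H =>
        (ξ : H → ℂ) 1 * conj ((ξ : H → ℂ) 1)) ξ₀).re := by
    rw [Set.indicator_of_mem hξ₀]
    obtain ⟨n, hn, hn1⟩ := irr_one_eq ξ₀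
    rw [hn1]
    simp only [Complex.conj_natCast, Complex.mul_re, Complex.natCast_re, Complex.natCast_im,
      mul_zero, sub_zero]
    positivity
  have := Finset.sum_pos' (fun ξ _ => hnn ξ) ⟨ξ₀, Finset.mem_univ _, hpos⟩
  rw [← h4] at this
  exact lt_irrefl _ this

/-- If the central characters of a block do not vanish modulo `M` on the class of `g₁`, then for
every `p`-subgroup `P` some coset `aP` meets the class of `g₁` in a number of elements prime to
`p`. -/
theorem exists_coset_not_dvd {p : ℕ} [Fact p.Prime] {M : Ideal Cfsg.AlgInt}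
    (hM : Cfsg.IsPModular p M) {b : Set (Cfsg.IrrCharacter H)} (hb : Cfsg.IsPBlock M b) (g₁ : H)
    (hg₁ : ∀ ξ ∈ b, ¬ Cfsg.MemLocalIdeal M (Cfsg.centralChar (ξ : H → ℂ) g₁))
    (P : Subgroup H) (hP : IsPGroup p P) :
    ∃ a : H, ¬ p ∣ Nat.card {g : H // IsConj g₁ g ∧ a⁻¹ * g ∈ P} := by
  classical
  have hp : p.Prime := Fact.out
  have : Fintype P := Fintype.ofFinite P
  obtain ⟨ξ, hξ, hξ0⟩ := exists_mem_block_sum_ne_zero hM hb P hP
  by_contra hcon
  push Not at hcon
  apply hg₁ ξ hξ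
  obtain ⟨ω, hω⟩ : ∃ ω : ℂ, ω = Cfsg.centralChar (ξ : H → ℂ) g₁ := ⟨_, rfl⟩
  rw [← hω]
  obtain ⟨w, hw⟩ : ∃ w : H → ℂ, ∀ x, w x = ∑ u : P, (ξ : H → ℂ) (x * u) := ⟨_, fun _ => rfl⟩
  have hw1 : w 1 ≠ 0 := by
    rw [hw]
    simpa using hξ0
  have hwP : ∀ x v : H, v ∈ P → w (x * v) = w x := by
    intro x v hv
    rw [hw, hw]
    refine Fintype.sum_equiv (Equiv.mulLeft (⟨v, hv⟩ : P)) _ _ fun u => ?_
    simp [mul_assoc]
  have heig : ∀ x : H, ω * w x = ∑ g ∈ classFinset g₁, w (x * g) := by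
    intro x
    simp only [hw]
    rw [Finset.sum_comm, Finset.mul_sum]
    refine Finset.sum_congr rfl fun u _ => ?_
    rw [irr_mul_comm ξ x (u : H), hω, ← sum_classFinset_mul ξ g₁ ((u : H) * x)]
    refine Finset.sum_congr rfl fun g _ => ?_
    rw [mul_assoc x g, irr_mul_comm ξ x, mul_assoc]
  have : Fintype (H ⧸ P) := Fintype.ofFinite _
  have hfib : ∀ c : H ⧸ P, ∃ m : ℕ,
      ((classFinset g₁).filter (fun g : H => (QuotientGroup.mk g : H ⧸ P) = c)).card = p * m := by
    intro c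
    have h1 := hcon (Quotient.out c)
    have h2 : ((classFinset g₁).filter (fun g : H => (QuotientGroup.mk g : H ⧸ P) = c)).card
        = Nat.card {g : H // IsConj g₁ g ∧ (Quotient.out c)⁻¹ * g ∈ P} := by
      rw [Nat.card_eq_fintype_card, Fintype.card_subtype]
      congr 1
      ext g
      rw [Finset.mem_filter, Finset.mem_filter, mem_classFinset, ← QuotientGroup.eq,
        QuotientGroup.out_eq', eq_comm]
      simp
    rw [h2]
    exact h1
  choose m hm using hfib
  have hp0 : (p : ℂ) ≠ 0 := by exact_mod_cast hp.ne_zero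
  have hstep : ∀ x : H, (ω / p) * w x = ∑ c : H ⧸ P, (m c : ℂ) * w (x * Quotient.out c) := by
    intro x
    have h1 : ω * w x = ∑ c : H ⧸ P, ((p * m c : ℕ) : ℂ) * w (x * Quotient.out c) := by
      rw [heig x, ← Finset.sum_fiberwise (classFinset g₁)
        (fun g : H => (QuotientGroup.mk g : H ⧸ P))]
      refine Finset.sum_congr rfl fun c _ => ?_
      rw [← hm c, ← nsmul_eq_mul, ← Finset.sum_const]
      refine Finset.sum_congr rfl fun g hg => ?_
      rw [Finset.mem_filter] at hg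
      have h2 : (Quotient.out c)⁻¹ * g ∈ P := by
        rw [← QuotientGroup.eq, QuotientGroup.out_eq']
        exact hg.2.symm
      have h3 := hwP (x * Quotient.out c) _ h2
      rw [← h3]
      congr 1
      group
    rw [div_mul_eq_mul_div, h1, Finset.sum_div]
    refine Finset.sum_congr rfl fun c _ => ?_
    push_cast
    field_simp
  have hmem : ∀ n ∈ Submodule.span ℤ (Set.range w), (ω / p) • n ∈ Submodule.span ℤ (Set.range w) := by
    intro n hn
    induction hn using Submodule.span_induction with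
    | mem n hn =>
      obtain ⟨x, rfl⟩ := hn
      rw [smul_eq_mul, hstep x]
      refine Submodule.sum_mem _ fun c _ => ?_
      have : (m c : ℂ) * w (x * Quotient.out c) = ((m c : ℕ) : ℤ) • w (x * Quotient.out c) := by
        simp
      rw [this]
      exact Submodule.smul_mem _ _ (Submodule.subset_span ⟨_, rfl⟩)
    | zero => simp
    | add a b _ _ ha hb => rw [smul_add]; exact Submodule.add_mem _ ha hb
    | smul z a _ ha => rw [smul_comm]; exact Submodule.smul_mem _ z ha
  have hint : IsIntegral ℤ (ω / p) := by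
    apply isIntegral_of_smul_mem_submodule (Submodule.span ℤ (Set.range w)) _ _ (ω / p) hmem
    · intro h
      have : w 1 ∈ Submodule.span ℤ (Set.range w) := Submodule.subset_span ⟨1, rfl⟩
      rw [h, Submodule.mem_bot] at this
      exact hw1 this
    · exact Submodule.fg_span (Set.finite_range w)
  have hpM : (p : Cfsg.AlgInt) ∈ M := hM.2.2
  have he : ω = (((p : Cfsg.AlgInt) * ⟨ω / p, hint⟩ : Cfsg.AlgInt) : ℂ) := by
    push_cast
    field_simp
  rw [he]
  exact memLocalIdeal_of_mem (ne_top_of_isPModular hM) (M.mul_mem_right _ hpM)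

omit [Fintype H] in
/-- Fixed point argument: if the coset `aP` meets the class of `g₁` in a number of elements prime
to `p`, then some `y` in the class satisfies `P ∩ yPy⁻¹ ≤ C(y)`. -/
theorem exists_conj_commute_of_not_dvd {p : ℕ} [Fact p.Prime] (g₁ a : H) (P : Subgroup H)
    (hP : IsPGroup p P)
    (h : ¬ p ∣ Nat.card {g : H // IsConj g₁ g ∧ a⁻¹ * g ∈ P}) :
    ∃ y : H, IsConj g₁ y ∧ ∀ q ∈ P, y⁻¹ * q * y ∈ P → q * y = y * q := by
  classical
  obtain ⟨Q, hQ⟩ : ∃ Q : Subgroup H, Q = P ⊓ P.comap (MulAut.conj a⁻¹).toMonoidHom := ⟨_, rfl⟩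
  have hQmem : ∀ q : H, q ∈ Q ↔ q ∈ P ∧ a⁻¹ * q * a ∈ P := by
    intro q
    simp [hQ, Subgroup.mem_inf]
  have hQp : IsPGroup p Q := hP.to_le (by rw [hQ]; exact inf_le_left)
  have hstab : ∀ q : Q, ∀ t : {g : H // IsConj g₁ g ∧ a⁻¹ * g ∈ P},
      IsConj g₁ ((q : H) * (t : H) * (q : H)⁻¹) ∧ a⁻¹ * ((q : H) * (t : H) * (q : H)⁻¹) ∈ P := by
    intro q t
    have hq := (hQmem q).mp q.2
    have ht := t.2
    refine ⟨ht.1.trans (isConj_iff.mpr ⟨q, rfl⟩), ?_⟩
    have : a⁻¹ * ((q : H) * (t : H) * (q : H)⁻¹)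
        = (a⁻¹ * q * a) * (a⁻¹ * t) * (q : H)⁻¹ := by group
    rw [this]
    exact P.mul_mem (P.mul_mem hq.2 ht.2) (P.inv_mem hq.1)
  let _ : MulAction Q {g : H // IsConj g₁ g ∧ a⁻¹ * g ∈ P} :=
    { smul := fun q t => ⟨(q : H) * (t : H) * (q : H)⁻¹, hstab q t⟩
      one_smul := fun t => by
        apply Subtype.ext
        change ((1 : Q) : H) * (t : H) * ((1 : Q) : H)⁻¹ = t
        simp
      mul_smul := fun q r t => by
        apply Subtype.ext
        change ((q * r : Q) : H) * (t : H) * ((q * r : Q) : H)⁻¹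
          = (q : H) * ((r : H) * (t : H) * (r : H)⁻¹) * (q : H)⁻¹
        simp [mul_assoc] }
  obtain ⟨t, ht⟩ := hQp.nonempty_fixed_point_of_prime_not_dvd_card
    {g : H // IsConj g₁ g ∧ a⁻¹ * g ∈ P} h
  have htF := t.2
  refine ⟨t, htF.1, fun q hq hq' => ?_⟩
  have hqQ : q ∈ Q := by
    rw [hQmem]
    refine ⟨hq, ?_⟩
    have : a⁻¹ * q * a = (a⁻¹ * t) * ((t : H)⁻¹ * q * t) * (a⁻¹ * t)⁻¹ := by group
    rw [this]
    exact P.mul_mem (P.mul_mem htF.2 hq') (P.inv_mem htF.2)
  have h1 := ht ⟨q, hqQ⟩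
  have h2 : q * (t : H) * q⁻¹ = t := congrArg Subtype.val h1
  calc q * (t : H) = q * (t : H) * q⁻¹ * q := by group
    _ = t * q := by rw [h2]

/-- If the central characters of a block do not vanish modulo `M` on the class of `g₁`, then for
every `p`-subgroup `P` there is a conjugate `y` of `g₁` with `P ∩ yPy⁻¹ ≤ C(y)`. -/
theorem exists_conj_inter_le_centralizer {p : ℕ} [Fact p.Prime] {M : Ideal Cfsg.AlgInt}
    (hM : Cfsg.IsPModular p M) {b : Set (Cfsg.IrrCharacter H)} (hb : Cfsg.IsPBlock M b) (g₁ : H)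
    (hg₁ : ∀ ξ ∈ b, ¬ Cfsg.MemLocalIdeal M (Cfsg.centralChar (ξ : H → ℂ) g₁))
    (P : Subgroup H) (hP : IsPGroup p P) :
    ∃ y : H, IsConj g₁ y ∧ ∀ q ∈ P, y⁻¹ * q * y ∈ P → q * y = y * q := by
  obtain ⟨a, ha⟩ := exists_coset_not_dvd hM hb g₁ hg₁ P hP
  exact exists_conj_commute_of_not_dvd g₁ a P hP ha

/-- **Green's theorem, normal defect group.**  If the block `b` has a normal defect group `D` and
`P` is a Sylow `p`-subgroup, there is a `p`-regular `y` such that `D` is a Sylow `p`-subgroup of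
`C(y)` and `P ∩ yPy⁻¹ ≤ D`. -/
theorem green_normal {p : ℕ} [Fact p.Prime] {M : Ideal Cfsg.AlgInt}
    (hM : Cfsg.IsPModular p M) {b : Set (Cfsg.IrrCharacter H)} (hb : Cfsg.IsPBlock M b)
    {D : Subgroup H} [hDn : D.Normal] (hD : Cfsg.IsDefectGroup p M b D) (P : Sylow p H) :
    ∃ y : H, ¬ p ∣ orderOf y ∧ D ≤ Subgroup.centralizer ({y} : Set H) ∧
      Nat.card D = p ^ (Nat.card (Subgroup.centralizer ({y} : Set H))).factorization p ∧
      ∀ q ∈ (P : Subgroup H), y⁻¹ * q * y ∈ (P : Subgroup H) → q ∈ D := by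
  classical
  have hp : p.Prime := Fact.out
  obtain ⟨g₁, hg₁, hDc, hcard, hDp⟩ := Helper16.isDefectGroup_exists_data hD
  obtain ⟨y, hy, hyQ⟩ := exists_conj_inter_le_centralizer hM hb g₁ hg₁.2.2 (P : Subgroup H) P.2
  obtain ⟨t, rfl⟩ := isConj_iff.mp hy
  have hreg : ¬ p ∣ orderOf g₁ := by
    intro hdvd
    apply hg₁.2.1
    rw [Helper77.blockCoeff_eq_zero_of_dvd_orderOf hM hb hdvd]
    exact memLocalIdeal_zero (ne_top_of_isPModular hM)
  have hDy : D ≤ Subgroup.centralizer ({t * g₁ * t⁻¹} : Set H) := by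
    intro d hd
    have h1 : t⁻¹ * d * t ∈ D := by
      have := hDn.conj_mem d hd t⁻¹
      simpa using this
    have h2 := Subgroup.mem_centralizer_iff.mp (hDc h1) g₁ rfl
    rw [Subgroup.mem_centralizer_iff]
    intro z hz
    rw [Set.mem_singleton_iff] at hz
    subst hz
    calc t * g₁ * t⁻¹ * d = t * (g₁ * (t⁻¹ * d * t)) * t⁻¹ := by group
      _ = t * ((t⁻¹ * d * t) * g₁) * t⁻¹ := by rw [h2]
      _ = d * (t * g₁ * t⁻¹) := by group
  have hcard' : Nat.card D
      = p ^ (Nat.card (Subgroup.centralizer ({t * g₁ * t⁻¹} : Set H))).factorization p := by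
    rw [Helper16.card_centralizer_conj]
    exact hcard
  refine ⟨t * g₁ * t⁻¹, ?_, hDy, hcard', ?_⟩
  · have : orderOf (t * g₁ * t⁻¹) = orderOf g₁ := (MulAut.conj t).orderOf_eq g₁
    rw [this]
    exact hreg
  · -- the subgroup `Q = P ∩ yPy⁻¹`
    obtain ⟨y, hy⟩ : ∃ y : H, y = t * g₁ * t⁻¹ := ⟨_, rfl⟩
    rw [← hy] at hyQ hDy hcard' ⊢
    obtain ⟨Q, hQ⟩ : ∃ Q : Subgroup H,
        Q = (P : Subgroup H) ⊓ (P : Subgroup H).comap (MulAut.conj y⁻¹).toMonoidHom := ⟨_, rfl⟩
    have hQmem : ∀ q : H, q ∈ Q ↔ q ∈ (P : Subgroup H) ∧ y⁻¹ * q * y ∈ (P : Subgroup H) := by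
      intro q
      simp [hQ, Subgroup.mem_inf]
    have hQp : IsPGroup p Q := P.2.to_le (by rw [hQ]; exact inf_le_left)
    have hDP : D ≤ (P : Subgroup H) := Helper16.normal_le_sylow D hDp P
    have hDQ : D ≤ Q := by
      intro d hd
      rw [hQmem]
      refine ⟨hDP hd, hDP ?_⟩
      have := hDn.conj_mem d hd y⁻¹
      simpa using this
    have hQC : Q ≤ Subgroup.centralizer ({y} : Set H) := by
      intro q hq
      rw [hQmem] at hq
      rw [Subgroup.mem_centralizer_iff]
      intro z hz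
      rw [Set.mem_singleton_iff] at hz
      subst hz
      exact (hyQ q hq.1 hq.2).symm
    have hQD : D = Q := by
      apply Subgroup.eq_of_le_of_card_ge hDQ
      obtain ⟨k, hk⟩ := IsPGroup.iff_card.mp hQp
      rw [hk, hcard']
      apply Nat.pow_le_pow_right hp.pos
      have h1 : p ^ k ∣ Nat.card (Subgroup.centralizer ({y} : Set H)) := by
        rw [← hk]
        exact Subgroup.card_dvd_of_le hQC
      exact (hp.pow_dvd_iff_le_factorization Nat.card_pos.ne').mp h1
    intro q hq hq'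
    rw [hQD, hQmem]
    exact ⟨hq, hq'⟩

end green

/-- Normalizers grow in `p`-groups: if `D ≤ R` with `R` a `p`-group and `N_R(D) ≤ D`, then
`R ≤ D`. -/
theorem le_of_normalizer_inf_le {G : Type u} [Group G] [Finite G] {p : ℕ} [Fact p.Prime]
    {D R : Subgroup G} (hR : IsPGroup p R) (hDR : D ≤ R)
    (h : ∀ r ∈ R, r ∈ Subgroup.normalizer (D : Set G) → r ∈ D) : R ≤ D := by
  by_contra hne
  have : Group.IsNilpotent R := hR.isNilpotent
  have h1 : D.subgroupOf R < ⊤ :=
    lt_top_iff_ne_top.mpr fun h => hne (Subgroup.subgroupOf_eq_top.mp h)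
  have h2 := Group.normalizerCondition_of_isNilpotent (D.subgroupOf R) h1
  obtain ⟨r, hr1, hr2⟩ := SetLike.exists_of_lt h2
  apply hr2
  rw [Subgroup.mem_subgroupOf]
  apply h (r : G) r.2
  rw [Subgroup.mem_normalizer_iff]
  intro d
  rw [Subgroup.mem_normalizer_iff] at hr1
  constructor
  · intro hd
    have h3 := (hr1 ⟨d, hDR hd⟩).mp (by rw [Subgroup.mem_subgroupOf]; exact hd)
    rw [Subgroup.mem_subgroupOf] at h3
    exact h3
  · intro hd
    have hdR : d ∈ R := by
      have h4 : d = (r : G)⁻¹ * ((r : G) * d * (r : G)⁻¹) * (r : G) := by group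
      rw [h4]
      exact R.mul_mem (R.mul_mem (R.inv_mem r.2) (hDR hd)) r.2
    have h3 := (hr1 ⟨d, hdR⟩).mpr (by rw [Subgroup.mem_subgroupOf]; exact hd)
    rw [Subgroup.mem_subgroupOf] at h3
    exact h3

end Cfsg.Agent.Helper81
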