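import Cfsg.Agent.Helper81.SectionChar
import Cfsg.Agent.Helper81.KleinFour
import Cfsg.Agent.Helper16.Homocyclic2
import Cfsg.Agent.Helper16.BlockOrth
import Cfsg.Agent.Helper78.Counting

/-!
# Brauer's theorem on Sylow `2`-subgroups of type `(2^m, 2^m)`, `m ≥ 2`: the block-theoretic part

If a Sylow `2`-subgroup `P` of `G` is homocyclic of type `(2^m, 2^m)` with `m ≥ 2` and
`N_G(P) ≠ C_G(P)`, then `G` has a proper normal subgroup containing `P`
(`exists_normal_of_homocyclic`): the kernel of a nonprincipal linear character in the principal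
`2`-block.
-/

set_option autoImplicit false
open Cfsg
open scoped ComplexConjugate

namespace Cfsg.Agent.Helper81

universe u

variable {G : Type u} [Group G]

open scoped Pointwise in
/-- In a group with abelian Sylow `2`-subgroups, the `2`-part of a product of two involutions has
order at most two. -/
theorem exists_twoPart_sq_of_mul_invol [Finite G] (P : Sylow 2 G)
    (hcomm : ∀ x ∈ (P : Subgroup G), ∀ y ∈ (P : Subgroup G), x * y = y * x)
    (u v : G) (hu : u * u = 1) (hv : v * v = 1) :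
    ∃ w2 : G, Cfsg.IsPPart 2 (v * u) w2 ∧ w2 * w2 = 1 := by
  have : Fact (Nat.Prime 2) := ⟨Nat.prime_two⟩
  obtain ⟨w2, hw2⟩ := Helper16.exists_isPPart 2 (v * u) (orderOf_pos _)
  refine ⟨w2, hw2, ?_⟩
  obtain ⟨i, hi⟩ := Helper16.isPPart_eq_pow hw2
  have huinv : u⁻¹ = u := inv_eq_of_mul_eq_one_left hu
  have hvinv : v⁻¹ = v := inv_eq_of_mul_eq_one_left hv
  have h1 : u * (v * u) * u⁻¹ = (v * u)⁻¹ := by
    rw [mul_inv_rev, huinv, hvinv]
    calc u * (v * u) * u = u * v * (u * u) := by group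
      _ = u * v := by rw [hu, mul_one]
  have h2 : u * w2 * u⁻¹ = w2⁻¹ := by
    rw [← hi, ← conj_pow, h1, inv_pow]
  -- the subgroup generated by `u` and `w2` is a `2`-group
  have hpu : IsPGroup 2 (Subgroup.zpowers u) := by
    rintro ⟨g, hg⟩
    refine ⟨1, ?_⟩
    obtain ⟨j, rfl⟩ := Subgroup.mem_zpowers_iff.mp hg
    apply Subtype.ext
    show (u ^ j) ^ 2 ^ 1 = 1
    rw [pow_one, ← zpow_natCast, ← zpow_mul, mul_comm, zpow_mul, zpow_natCast, pow_two, hu,
      one_zpow]
  have hpw : IsPGroup 2 (Subgroup.zpowers w2) := by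
    obtain ⟨y, -, -, ⟨k, hk⟩, -⟩ := hw2
    exact IsPGroup.of_card (n := k) (by rw [Nat.card_zpowers, hk])
  have hnorm : Subgroup.zpowers u ≤ Subgroup.normalizer (Subgroup.zpowers w2 : Set G) := by
    rw [Subgroup.zpowers_le]
    have hfw : ∀ h : G, h ∈ Subgroup.zpowers w2 → u * h * u⁻¹ ∈ Subgroup.zpowers w2 := by
      intro h hh
      obtain ⟨j, rfl⟩ := Subgroup.mem_zpowers_iff.mp hh
      have e1 : u * w2 ^ j * u⁻¹ = (w2⁻¹) ^ j := by
        rw [← conj_zpow, h2]
      rw [e1]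
      exact Subgroup.zpow_mem _ (Subgroup.inv_mem _ (Subgroup.mem_zpowers w2)) j
    rw [Subgroup.mem_normalizer_iff]
    intro h
    refine ⟨hfw h, fun hh => ?_⟩
    have h3 := hfw _ hh
    have e2 : u * (u * h * u⁻¹) * u⁻¹ = h := by
      rw [huinv]
      calc u * (u * h * u) * u = (u * u) * h * (u * u) := by group
        _ = h := by rw [hu, one_mul, mul_one]
    rwa [e2] at h3
  have hp := hpu.to_sup_of_normal_right' hpw hnorm
  obtain ⟨P', hP'⟩ := hp.exists_le_sylow
  have huP' : u ∈ (P' : Subgroup G) := hP' (Subgroup.mem_sup_left (Subgroup.mem_zpowers u))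
  have hwP' : w2 ∈ (P' : Subgroup G) := hP' (Subgroup.mem_sup_right (Subgroup.mem_zpowers w2))
  obtain ⟨g, hg⟩ := MulAction.exists_smul_eq G P' P
  have hconjmem : ∀ s ∈ (P' : Subgroup G), g * s * g⁻¹ ∈ (P : Subgroup G) := by
    intro s hs
    have h4 : (MulAut.conj g) • s ∈ (MulAut.conj g) • (P' : Subgroup G) :=
      Subgroup.smul_mem_pointwise_smul _ _ _ hs
    have h5 : ((g • P' : Sylow 2 G) : Subgroup G) = (MulAut.conj g) • (P' : Subgroup G) :=
      Sylow.coe_subgroup_smul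
    rw [← h5, hg] at h4
    simpa [MulAut.smul_def] using h4
  have h6 := hcomm _ (hconjmem u huP') _ (hconjmem w2 hwP')
  have h7 : u * w2 = w2 * u := by
    have e3 : g * u * g⁻¹ * (g * w2 * g⁻¹) = g * (u * w2) * g⁻¹ := by group
    have e4 : g * w2 * g⁻¹ * (g * u * g⁻¹) = g * (w2 * u) * g⁻¹ := by group
    rw [e3, e4] at h6
    exact mul_left_cancel (mul_right_cancel h6)
  have h8 : w2⁻¹ = w2 := by
    rw [← h2, h7, mul_inv_cancel_right]
  calc w2 * w2 = w2⁻¹ * w2 := by rw [h8]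
    _ = 1 := inv_mul_cancel w2

/-- The sum of `|χ(z)|²` over the principal `2`-block at a `2`-element `z` of an abelian Sylow
`2`-subgroup `P` with `C_G(z) ∩ N_G(P) = C_G(P)` is `|P|`. -/
theorem sum_principalBlock_sq_of_abelian_sylow [Fintype G] {M : Ideal Cfsg.AlgInt}
    (hM : Cfsg.IsPModular 2 M) (P : Sylow 2 G)
    (hcomm : ∀ x ∈ (P : Subgroup G), ∀ y ∈ (P : Subgroup G), x * y = y * x)
    (z : G) (hz : z ∈ (P : Subgroup G))
    (hfix : Subgroup.centralizer ({z} : Set G) ⊓ Subgroup.normalizer ((P : Subgroup G) : Set G)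
      ≤ Subgroup.centralizer ((P : Subgroup G) : Set G)) :
    ∑ᶠ ζ ∈ Cfsg.principalBlock M G, (ζ : G → ℂ) z * conj ((ζ : G → ℂ) z)
      = (Nat.card (P : Subgroup G) : ℂ) := by
  classical
  have : Fact (Nat.Prime 2) := ⟨Nat.prime_two⟩
  have hPH : (P : Subgroup G) ≤ Subgroup.centralizer ({z} : Set G) := by
    intro x hx
    rw [Subgroup.mem_centralizer_iff]
    intro s hs
    rw [Set.mem_singleton_iff] at hs
    rw [hs]
    exact hcomm z hz x hx
  have : Fintype (Subgroup.centralizer ({z} : Set G)) := Fintype.ofFinite _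
  have hK : ∃ k : ℕ, (Cfsg.pPrimeCore 2 (Subgroup.centralizer ({z} : Set G))).index = 2 ^ k := by
    apply exists_index_pPrimeCore_of_normalizer_le (P.subtype hPH)
    intro h hh
    rw [Subgroup.mem_centralizer_iff]
    intro a ha
    have ha' : (a : G) ∈ (P : Subgroup G) := by
      have : a ∈ ((P.subtype hPH : Sylow 2 _) : Subgroup _) := ha
      rw [Sylow.coe_subtype, Subgroup.mem_subgroupOf] at this
      exact this
    have hhN : (h : G) ∈ Subgroup.normalizer ((P : Subgroup G) : Set G) := by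
      rw [Subgroup.mem_normalizer_iff]
      intro x
      have hh' := Subgroup.mem_normalizer_iff.mp hh
      constructor
      · intro hx
        have h1 := (hh' ⟨x, hPH hx⟩).mp (by
          show (⟨x, hPH hx⟩ : Subgroup.centralizer ({z} : Set G))
            ∈ ((P.subtype hPH : Sylow 2 _) : Subgroup _)
          rw [Sylow.coe_subtype, Subgroup.mem_subgroupOf]
          exact hx)
        have h2 : (h * ⟨x, hPH hx⟩ * h⁻¹ : Subgroup.centralizer ({z} : Set G))
            ∈ ((P.subtype hPH : Sylow 2 _) : Subgroup _) := h1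
        rw [Sylow.coe_subtype, Subgroup.mem_subgroupOf] at h2
        exact h2
      · intro hx
        have hxH : x ∈ Subgroup.centralizer ({z} : Set G) := by
          have h1 := hPH hx
          have h2 : x = (h : G)⁻¹ * ((h : G) * x * (h : G)⁻¹) * (h : G) := by group
          rw [h2]
          exact Subgroup.mul_mem _ (Subgroup.mul_mem _ (Subgroup.inv_mem _ h.2) h1) h.2
        have h1 := (hh' ⟨x, hxH⟩).mpr (by
          show (h * ⟨x, hxH⟩ * h⁻¹ : Subgroup.centralizer ({z} : Set G))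
            ∈ ((P.subtype hPH : Sylow 2 _) : Subgroup _)
          rw [Sylow.coe_subtype, Subgroup.mem_subgroupOf]
          exact hx)
        have h2 : (⟨x, hxH⟩ : Subgroup.centralizer ({z} : Set G))
            ∈ ((P.subtype hPH : Sylow 2 _) : Subgroup _) := h1
        rw [Sylow.coe_subtype, Subgroup.mem_subgroupOf] at h2
        exact h2
    have hhC : (h : G) ∈ Subgroup.centralizer ((P : Subgroup G) : Set G) :=
      hfix (Subgroup.mem_inf.mpr ⟨h.2, hhN⟩)
    exact Subtype.ext (Subgroup.mem_centralizer_iff.mp hhC (a : G) ha')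
  obtain ⟨k, hk⟩ : ∃ k : ℕ, orderOf z = 2 ^ k := by
    obtain ⟨k, hk⟩ := (IsPGroup.iff_orderOf.mp P.isPGroup') ⟨z, hz⟩
    exact ⟨k, by rw [← hk, Subgroup.orderOf_mk]⟩
  have h1reg : ¬ 2 ∣ orderOf (1 : Subgroup.centralizer ({z} : Set G)) := by
    rw [orderOf_one]; norm_num
  have key := sum_principalBlock_section hM z ⟨k, hk⟩ 1 1 h1reg h1reg
  rw [sum_principalBlock_of_normal_pComplement hM hK 1 h1reg] at key
  simp only [Subgroup.coe_one, mul_one] at key
  rw [key]
  have hfac : (Nat.card (Subgroup.centralizer ({z} : Set G))).factorization 2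
      = (Nat.card G).factorization 2 := by
    have hH0 : Nat.card (Subgroup.centralizer ({z} : Set G)) ≠ 0 := Nat.card_pos.ne'
    have hG0 : Nat.card G ≠ 0 := Nat.card_pos.ne'
    apply le_antisymm
    · exact (Nat.factorization_le_iff_dvd hH0 hG0).mpr (Subgroup.card_subgroup_dvd_card _) 2
    · have h1 := Subgroup.card_dvd_of_le hPH
      rw [P.card_eq_multiplicity] at h1
      exact (Nat.prime_two.pow_dvd_iff_le_factorization hH0).mp h1
  rw [hfac, ← P.card_eq_multiplicity]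

/-- **Brauer**: if a Sylow `2`-subgroup `P` of `G` is homocyclic of type `(2^m, 2^m)`, `m ≥ 2`, and
`N_G(P) ≠ C_G(P)`, then some proper normal subgroup of `G` contains `P`. -/
theorem exists_normal_of_homocyclic [Finite G] (P : Sylow 2 G) (m : ℕ) (hm : 2 ≤ m)
    (e : (P : Subgroup G) ≃* Multiplicative (ZMod (2 ^ m) × ZMod (2 ^ m)))
    (hne : (Subgroup.centralizer ((P : Subgroup G) : Set G)).relIndex
      (Subgroup.normalizer ((P : Subgroup G) : Set G)) ≠ 1) :
    ∃ K : Subgroup G, K.Normal ∧ K ≠ ⊤ ∧ (P : Subgroup G) ≤ K := by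
  classical
  have : Fintype G := Fintype.ofFinite G
  have : Fact (Nat.Prime 2) := ⟨Nat.prime_two⟩
  obtain ⟨M, hM⟩ := Helper78.exists_isPModular 2 Nat.prime_two
  have hMp : M.IsPrime := isPrime_of_isPModular hM
  have := Fintype.ofFinite (Cfsg.IrrCharacter G)
  have hB0 : Cfsg.IsPBlock M (Cfsg.principalBlock M G) := ⟨trivIrr G, rfl⟩
  obtain ⟨h13, hii⟩ := Helper16.homocyclic_main P m (by omega) e
  have hr3 : (Subgroup.centralizer ((P : Subgroup G) : Set G)).relIndex
      (Subgroup.normalizer ((P : Subgroup G) : Set G)) = 3 := h13.resolve_left hne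
  have hfixall : ∀ z ∈ (P : Subgroup G), z ≠ 1 →
      Subgroup.centralizer ({z} : Set G) ⊓ Subgroup.normalizer ((P : Subgroup G) : Set G)
        = Subgroup.centralizer ((P : Subgroup G) : Set G) := hii hne
  have hcomm : ∀ x ∈ (P : Subgroup G), ∀ y ∈ (P : Subgroup G), x * y = y * x :=
    fun x hx y hy => Helper16.homocyclic_comm e x y hx hy
  have hPC : (P : Subgroup G) ≤ Subgroup.centralizer ((P : Subgroup G) : Set G) := by
    intro x hx
    rw [Subgroup.mem_centralizer_iff]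
    intro y hy
    exact hcomm y hy x hx
  -- an element of the normalizer outside the centralizer
  have hnot : ¬ Subgroup.normalizer ((P : Subgroup G) : Set G)
      ≤ Subgroup.centralizer ((P : Subgroup G) : Set G) :=
    fun h => hne (Subgroup.relIndex_eq_one.mpr h)
  obtain ⟨g0, hg0N, hg0C⟩ := SetLike.not_le_iff_exists.mp hnot
  -- the quotient `N / C` has order three
  have hquot : ∀ n ∈ Subgroup.normalizer ((P : Subgroup G) : Set G), ∃ k : ℕ,
      (g0 ^ k)⁻¹ * n ∈ Subgroup.centralizer ((P : Subgroup G) : Set G) := by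
    intro n hn
    have hcard : Nat.card (Subgroup.normalizer ((P : Subgroup G) : Set G) ⧸
        (Subgroup.centralizer ((P : Subgroup G) : Set G)).subgroupOf
          (Subgroup.normalizer ((P : Subgroup G) : Set G))) = 3 := by
      rw [← Subgroup.index_eq_card]
      exact hr3
    have : Fact (Nat.Prime 3) := ⟨Nat.prime_three⟩
    have hg1 : (QuotientGroup.mk (⟨g0, hg0N⟩ : Subgroup.normalizer ((P : Subgroup G) : Set G)) :
        Subgroup.normalizer ((P : Subgroup G) : Set G) ⧸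
          (Subgroup.centralizer ((P : Subgroup G) : Set G)).subgroupOf
            (Subgroup.normalizer ((P : Subgroup G) : Set G))) ≠ 1 := by
      intro h
      rw [QuotientGroup.eq_one_iff, Subgroup.mem_subgroupOf] at h
      exact hg0C h
    obtain ⟨k, hk⟩ := (Submonoid.mem_powers_iff _ _).mp
      (mem_powers_of_prime_card hcard hg1 (g' := QuotientGroup.mk ⟨n, hn⟩))
    refine ⟨k, ?_⟩
    rw [← QuotientGroup.mk_pow, QuotientGroup.eq, Subgroup.mem_subgroupOf] at hk
    simpa using hk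
  have hg03 : g0 ^ 3 ∈ Subgroup.centralizer ((P : Subgroup G) : Set G) := by
    have h1 := ((Subgroup.centralizer ((P : Subgroup G) : Set G)).subgroupOf
      (Subgroup.normalizer ((P : Subgroup G) : Set G))).pow_index_mem
      (⟨g0, hg0N⟩ : Subgroup.normalizer ((P : Subgroup G) : Set G))
    rw [Subgroup.mem_subgroupOf] at h1
    have h2 : ((Subgroup.centralizer ((P : Subgroup G) : Set G)).subgroupOf
      (Subgroup.normalizer ((P : Subgroup G) : Set G))).index = 3 := hr3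
    rw [h2] at h1
    simpa using h1
  -- the abstract group `Q` and the maps `ι`, `α`
  have : NeZero (2 ^ m) := ⟨by positivity⟩
  obtain ⟨ι, hι⟩ : ∃ ι : Multiplicative (ZMod (2 ^ m) × ZMod (2 ^ m)) →* G,
      ∀ q, ι q = ((e.symm q : (P : Subgroup G)) : G) :=
    ⟨(P : Subgroup G).subtype.comp e.symm.toMonoidHom, fun _ => rfl⟩
  have hιmem : ∀ q, ι q ∈ (P : Subgroup G) := fun q => by rw [hι]; exact (e.symm q).2
  have hιinj : Function.Injective ι := by
    intro q r h
    rw [hι, hι] at h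
    exact e.symm.injective (Subtype.ext h)
  have hιsurj : ∀ x ∈ (P : Subgroup G), ∃ q, ι q = x := by
    intro x hx
    refine ⟨e ⟨x, hx⟩, ?_⟩
    rw [hι, MulEquiv.symm_apply_apply]
  have hι1 : ∀ q, ι q = 1 → q = 1 := fun q h => hιinj (h.trans (map_one ι).symm)
  obtain ⟨conjP, hconjP⟩ : ∃ conjP : (P : Subgroup G) →* (P : Subgroup G),
      ∀ x, ((conjP x : (P : Subgroup G)) : G) = g0 * (x : G) * g0⁻¹ :=
    ⟨{ toFun := fun x => ⟨g0 * (x : G) * g0⁻¹, (Subgroup.mem_normalizer_iff.mp hg0N x).mp x.2⟩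
       map_one' := by
         apply Subtype.ext
         simp
       map_mul' := by
         intro x y
         apply Subtype.ext
         simp only [Subgroup.coe_mul]
         group }, fun _ => rfl⟩
  obtain ⟨α, hα⟩ : ∃ α : Multiplicative (ZMod (2 ^ m) × ZMod (2 ^ m)) →*
      Multiplicative (ZMod (2 ^ m) × ZMod (2 ^ m)), ∀ q, α q = e (conjP (e.symm q)) :=
    ⟨e.toMonoidHom.comp (conjP.comp e.symm.toMonoidHom), fun _ => rfl⟩
  have hια : ∀ q, ι (α q) = g0 * ι q * g0⁻¹ := by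
    intro q
    rw [hι, hα, MulEquiv.symm_apply_apply, hconjP, hι]
  have hCP : ∀ c ∈ Subgroup.centralizer ((P : Subgroup G) : Set G), ∀ x ∈ (P : Subgroup G),
      c * x * c⁻¹ = x := by
    intro c hc x hx
    have h1 := Subgroup.mem_centralizer_iff.mp hc x hx
    rw [← h1, mul_inv_cancel_right]
  have hα3 : ∀ q, α (α (α q)) = q := by
    intro q
    apply hιinj
    rw [hια, hια, hια]
    have h1 := hCP _ hg03 _ (hιmem q)
    have e3 : g0 ^ 3 = g0 * g0 * g0 := by rw [pow_succ, pow_two]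
    calc g0 * (g0 * (g0 * ι q * g0⁻¹) * g0⁻¹) * g0⁻¹ = g0 ^ 3 * ι q * (g0 ^ 3)⁻¹ := by
          rw [e3, mul_inv_rev, mul_inv_rev]
          simp only [mul_assoc]
      _ = ι q := h1
  have hαfix : ∀ q, α q = q → q = 1 := by
    intro q h
    by_contra hq
    have hz1 : ι q ≠ 1 := fun h' => hq (hι1 q h')
    have h1 : g0 * ι q * g0⁻¹ = ι q := by rw [← hια, h]
    apply hg0C
    rw [← hfixall (ι q) (hιmem q) hz1]
    refine Subgroup.mem_inf.mpr ⟨?_, hg0N⟩
    rw [Subgroup.mem_centralizer_iff]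
    intro s hs
    rw [Set.mem_singleton_iff] at hs
    rw [hs]
    calc ι q * g0 = (g0 * ι q * g0⁻¹) * g0 := by rw [h1]
      _ = g0 * ι q := by group
  have hpowα : ∀ (k : ℕ) (q : Multiplicative (ZMod (2 ^ m) × ZMod (2 ^ m))),
      ∃ q'', (q'' = q ∨ q'' = α q ∨ q'' = α (α q)) ∧ g0 ^ k * ι q * (g0 ^ k)⁻¹ = ι q'' := by
    intro k
    induction k with
    | zero => intro q; exact ⟨q, Or.inl rfl, by simp⟩
    | succ k ih =>
      intro q
      obtain ⟨q'', hq'', h⟩ := ih q
      refine ⟨α q'', ?_, ?_⟩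
      · rcases hq'' with h' | h' | h'
        · right; left; rw [h']
        · right; right; rw [h']
        · left; rw [h', hα3]
      · rw [hια, ← h, pow_succ']
        group
  -- the principal block as a finset
  obtain ⟨T, hT⟩ : ∃ T : Finset (Cfsg.IrrCharacter G),
      ∀ ζ, ζ ∈ T ↔ ζ ∈ Cfsg.principalBlock M G :=
    ⟨Finset.univ.filter (· ∈ Cfsg.principalBlock M G), by simp⟩
  have hconv : ∀ f : Cfsg.IrrCharacter G → ℂ,
      ∑ᶠ ζ ∈ Cfsg.principalBlock M G, f ζ = ∑ ζ ∈ T, f ζ := by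
    intro f
    rw [finsum_mem_def, finsum_eq_sum_of_fintype]
    refine (Finset.sum_subset (Finset.subset_univ T) (fun ζ _ hζ => ?_)).symm.trans
      (Finset.sum_congr rfl (fun ζ hζ => ?_))
    · rw [Set.indicator_apply, if_neg (fun h => hζ ((hT ζ).mpr h))]
    · rw [Set.indicator_apply, if_pos ((hT ζ).mp hζ)]
  have htrivT : trivIrr G ∈ T := (hT _).mpr trivIrr_mem_principalBlock
  have hcardQ : Fintype.card (Multiplicative (ZMod (2 ^ m) × ZMod (2 ^ m)))
      = Nat.card (P : Subgroup G) := by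
    rw [← Nat.card_eq_fintype_card]
    exact (Nat.card_congr e.toEquiv).symm
  have h16 : 16 ∣ Fintype.card (Multiplicative (ZMod (2 ^ m) × ZMod (2 ^ m))) := by
    rw [Fintype.card_multiplicative, Fintype.card_prod, ZMod.card, ← pow_add]
    exact pow_dvd_pow 2 (by omega : 4 ≤ m + m)
  have hpp : ∀ x ∈ (P : Subgroup G), Cfsg.IsPPart 2 x x := by
    intro x hx
    obtain ⟨k, hk⟩ := (IsPGroup.iff_orderOf.mp P.isPGroup') ⟨x, hx⟩
    exact ⟨1, mul_one x, Commute.one_right x, ⟨k, by rw [← hk, Subgroup.orderOf_mk]⟩,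
      by rw [orderOf_one]; norm_num⟩
  -- `H1`
  have H1 : ∀ q : Multiplicative (ZMod (2 ^ m) × ZMod (2 ^ m)), q ≠ 1 →
      ∑ χ ∈ T, (χ : G → ℂ) (ι q) * conj ((χ : G → ℂ) (ι q))
        = (Fintype.card (Multiplicative (ZMod (2 ^ m) × ZMod (2 ^ m))) : ℂ) := by
    intro q hq
    rw [← hconv, hcardQ]
    exact sum_principalBlock_sq_of_abelian_sylow hM P hcomm (ι q) (hιmem q)
      (hfixall (ι q) (hιmem q) (fun h => hq (hι1 q h))).le
  -- `H3`
  have H3 : ∀ q q' : Multiplicative (ZMod (2 ^ m) × ZMod (2 ^ m)), q ≠ 1 → q' ≠ q → q' ≠ α q →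
      q' ≠ α (α q) → ∑ χ ∈ T, (χ : G → ℂ) (ι q) * conj ((χ : G → ℂ) (ι q')) = 0 := by
    intro q q' _ h1 h2 h3
    rw [← hconv]
    apply Helper16.block_orthogonality hM hB0 (hpp _ (hιmem q)) (hpp _ (hιmem q'))
    intro hc
    obtain ⟨c, hc⟩ := isConj_iff.mp hc
    have hx : ι q ∈ Subgroup.centralizer ((P : Subgroup G) : Set G) := hPC (hιmem q)
    have hy : c⁻¹⁻¹ * ι q * c⁻¹ ∈ Subgroup.centralizer ((P : Subgroup G) : Set G) := by
      rw [inv_inv, hc]; exact hPC (hιmem q')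
    obtain ⟨n, hn, hn'⟩ := P.conj_eq_normalizer_conj_of_mem_centralizer (ι q) c⁻¹ hx hy
    rw [inv_inv, hc] at hn'
    obtain ⟨k, hk⟩ := hquot n⁻¹ (Subgroup.inv_mem _ hn)
    obtain ⟨q'', hq'', hq''eq⟩ := hpowα k q
    have h4 : n⁻¹ * ι q * n = g0 ^ k * ι q * (g0 ^ k)⁻¹ := by
      have h5 := hCP _ hk _ (hιmem q)
      calc n⁻¹ * ι q * n = g0 ^ k * ((g0 ^ k)⁻¹ * n⁻¹ * ι q * ((g0 ^ k)⁻¹ * n⁻¹)⁻¹) * (g0 ^ k)⁻¹ := by
            group
        _ = g0 ^ k * ι q * (g0 ^ k)⁻¹ := by rw [h5]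
    rw [h4, hq''eq] at hn'
    have h6 := hιinj hn'
    rcases hq'' with h | h | h
    · exact h1 (h6.trans h)
    · exact h2 (h6.trans h)
    · exact h3 (h6.trans h)
  -- an involution and a character trivial on involutions
  obtain ⟨q0, hq0⟩ : ∃ q0 : Multiplicative (ZMod (2 ^ m) × ZMod (2 ^ m)),
      q0 = Multiplicative.ofAdd ((((2 ^ (m - 1) : ℕ) : ZMod (2 ^ m)), 0) :
        ZMod (2 ^ m) × ZMod (2 ^ m)) := ⟨_, rfl⟩
  have hq0sq : q0 * q0 = 1 := by
    rw [hq0, ← ofAdd_add, Prod.mk_add_mk, Helper16.zmod_half_add_half (by omega), add_zero]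
    rfl
  have hq01 : q0 ≠ 1 := by
    intro h
    rw [hq0] at h
    have h1 := congrArg (fun q : Multiplicative (ZMod (2 ^ m) × ZMod (2 ^ m)) =>
      (Multiplicative.toAdd q).1) h
    exact Helper16.zmod_half_ne_zero (by omega) h1
  obtain ⟨lam0, hlam0, hlam0'⟩ : ∃ lam0 : Multiplicative (ZMod (2 ^ m) × ZMod (2 ^ m)) →* ℂˣ,
      lam0 ≠ 1 ∧ ∀ q, q * q = 1 → lam0 q = 1 := by
    obtain ⟨g1, hg1⟩ : ∃ g1 : Multiplicative (ZMod (2 ^ m) × ZMod (2 ^ m)),
        g1 = Multiplicative.ofAdd (((1 : ZMod (2 ^ m)), 0) : ZMod (2 ^ m) × ZMod (2 ^ m)) :=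
      ⟨_, rfl⟩
    have hg1sq : g1 * g1 ≠ 1 := by
      intro h
      rw [hg1, ← ofAdd_add, Prod.mk_add_mk] at h
      have h1 := congrArg (fun q : Multiplicative (ZMod (2 ^ m) × ZMod (2 ^ m)) =>
        (Multiplicative.toAdd q).1) h
      have h2 : ((2 : ℕ) : ZMod (2 ^ m)) = 0 := by
        have : (1 : ZMod (2 ^ m)) + 1 = 0 := h1
        rw [← this]; push_cast; norm_num
      rw [ZMod.natCast_eq_zero_iff] at h2
      have h3 := Nat.le_of_dvd (by norm_num) h2
      have h4 : 2 ^ 2 ≤ 2 ^ m := Nat.pow_le_pow_right (by norm_num) hm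
      omega
    have : NeZero ((Monoid.exponent (Multiplicative (ZMod (2 ^ m) × ZMod (2 ^ m))) : ℕ) : ℂ) :=
      ⟨by exact_mod_cast Monoid.exponent_ne_zero_of_finite⟩
    obtain ⟨φ, hφ⟩ := CommGroup.exists_apply_ne_one_of_hasEnoughRootsOfUnity
      (Multiplicative (ZMod (2 ^ m) × ZMod (2 ^ m))) ℂ hg1sq
    refine ⟨φ * φ, ?_, ?_⟩
    · intro h
      apply hφ
      have h1 := congrArg (fun f : Multiplicative (ZMod (2 ^ m) × ZMod (2 ^ m)) →* ℂˣ => f g1) h
      simp only [MonoidHom.mul_apply, MonoidHom.one_apply] at h1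
      rw [map_mul, h1]
    · intro q hq
      rw [MonoidHom.mul_apply, ← map_mul, hq, map_one]
  -- `H4`
  have H4 : ∀ w : G, (w = 1 ∨ ∃ x : G, w = x * ι q0 * x⁻¹ * ι q0) →
      ∀ q : Multiplicative (ZMod (2 ^ m) × ZMod (2 ^ m)), q * q ≠ 1 →
        ∑ χ ∈ T, (χ : G → ℂ) w * conj ((χ : G → ℂ) (ι q)) = 0 := by
    intro w hw q hq
    have hex : ∃ w2 : G, Cfsg.IsPPart 2 w w2 ∧ w2 * w2 = 1 := by
      rcases hw with rfl | ⟨x, rfl⟩
      · exact ⟨1, ⟨1, mul_one 1, Commute.one_right 1, ⟨0, by rw [orderOf_one, pow_zero]⟩,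
          by rw [orderOf_one]; norm_num⟩, mul_one 1⟩
      · have hu : ι q0 * ι q0 = 1 := by rw [← map_mul, hq0sq, map_one]
        have hv : (x * ι q0 * x⁻¹) * (x * ι q0 * x⁻¹) = 1 := by
          calc (x * ι q0 * x⁻¹) * (x * ι q0 * x⁻¹) = x * (ι q0 * ι q0) * x⁻¹ := by group
            _ = 1 := by rw [hu]; group
        exact exists_twoPart_sq_of_mul_invol P hcomm (ι q0) (x * ι q0 * x⁻¹) hu hv
    obtain ⟨w2, hw2, hw2sq⟩ := hex
    rw [← hconv]
    apply Helper16.block_orthogonality hM hB0 hw2 (hpp _ (hιmem q))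
    intro hc
    obtain ⟨c, hc⟩ := isConj_iff.mp hc
    apply hq
    apply hιinj
    rw [map_mul, map_one, ← hc]
    calc c * w2 * c⁻¹ * (c * w2 * c⁻¹) = c * (w2 * w2) * c⁻¹ := by group
      _ = 1 := by rw [hw2sq]; group
  -- the linear character
  obtain ⟨Λ, hΛT, hΛtriv, hΛ1, hΛP⟩ := exists_linear_of_section_data h16 ι α hα3 hαfix
    (fun q => ⟨g0, hια q⟩) T htrivT H1 H3 q0 hq0sq hq01 lam0 hlam0 hlam0' H4
  obtain ⟨K, hKn, hK⟩ := Helper80.isCharacter_ker (Helper80.isCharacter_of_irr Λ.2)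
  refine ⟨K, hKn, ?_, ?_⟩
  · intro htop
    apply hΛtriv
    apply Subtype.ext
    funext g
    have h1 : g ∈ K := by rw [htop]; exact Subgroup.mem_top g
    rw [(hK g).mp h1, hΛ1, trivIrr_apply]
  · intro x hx
    obtain ⟨q, rfl⟩ := hιsurj x hx
    rw [hK, hΛP, hΛ1]

end Cfsg.Agent.Helper81
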