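import Cfsg.Agent.Helper81.KleinInt
import Cfsg.Agent.Helper81.BlockKer
import Cfsg.Agent.Helper81.SectionCount
import Cfsg.Agent.Helper16.QuotDefect
import Cfsg.Agent.Helper73.RankOne

/-!
# `2`-blocks of defect two over a central involution

* `kf_rank_one_of_central_invol`: if `z` is a central involution of `H` and `b` is a `2`-block
  of `H` of defect two, then `l(b) = 1`.  (The block of `H / ⟨z⟩` dominated by `b` has defect
  one, hence two characters proportional on the `2`-regular elements; block orthogonality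
  between a `2`-regular element `s` and `z s'` transfers this to the characters of `b` that are
  not trivial on `z`.)
-/

set_option autoImplicit false
open Cfsg
open scoped ComplexConjugate

namespace Cfsg.Agent.Helper81

universe u

/-- A `2`-block of defect two of a group with a central involution has `2`-regular rank one. -/
theorem kf_rank_one_of_central_invol {H : Type u} [Group H] [Fintype H] {M : Ideal Cfsg.AlgInt}
    (hM : Cfsg.IsPModular 2 M) (z : H) (hz : z ∈ Subgroup.center H) (hz2 : z * z = 1)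
    (hz1 : z ≠ 1) {b : Set (Cfsg.IrrCharacter H)} (hb : Cfsg.IsPBlock M b)
    (hd : Cfsg.blockDefect 2 b = 2) : Cfsg.blockRank 2 b = 1 := by
  classical
  have hpf : Fact (Nat.Prime 2) := ⟨hM.1⟩
  have hMm := hM.2.1
  have hP := isPrime_of_isPModular hM
  have := Fintype.ofFinite (Cfsg.IrrCharacter H)
  obtain ⟨N, hNdef⟩ : ∃ N : Subgroup H, N = Subgroup.zpowers z := ⟨_, rfl⟩
  have hNle : N ≤ Subgroup.center H := by
    rw [hNdef]
    exact Subgroup.zpowers_le.mpr hz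
  haveI hNn : N.Normal := ⟨fun n hn g => by
    have h1 := Subgroup.mem_center_iff.mp (hNle hn) g
    rw [h1, mul_assoc, mul_inv_cancel, mul_one]
    exact hn⟩
  have hzo : orderOf z = 2 := orderOf_eq_prime (by rw [pow_two]; exact hz2) hz1
  have hNcard : Nat.card N = 2 := by
    rw [hNdef, Nat.card_zpowers, hzo]
  have hNp : IsPGroup 2 N := IsPGroup.of_card (n := 1) (by rw [hNcard, pow_one])
  have hNmem : ∀ u ∈ N, u = 1 ∨ u = z := by
    intro u hu
    rw [hNdef] at hu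
    obtain ⟨k, rfl⟩ := Subgroup.mem_zpowers_iff.mp hu
    have hzz : z ^ (2 : ℤ) = 1 := by rw [zpow_two]; exact hz2
    rcases Int.even_or_odd' k with ⟨j, rfl | rfl⟩
    · left
      rw [zpow_mul, hzz, one_zpow]
    · right
      rw [zpow_add_one, zpow_mul, hzz, one_zpow, one_mul]
  letI : Fintype (H ⧸ N) := Fintype.ofFinite _
  obtain ⟨bbar, hbbar, hinfl, hdef⟩ := Helper16.quotDefect_main hM N hNp hb
  obtain ⟨D, hD⟩ := Helper16.exists_isDefectGroup (p := 2) hMm hb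
  have hND := Helper16.normal_pSubgroup_le_defectGroup hM N hNp hb hD
  have hDbar : Cfsg.IsDefectGroup 2 M bbar (D.map (QuotientGroup.mk' N)) :=
    (hdef _).mpr ⟨D, hD, rfl⟩
  have hc1 := Helper77.card_of_isDefectGroup hM hb hD
  have hc2 := Helper77.card_of_isDefectGroup hM hbbar hDbar
  have hc3 := Helper16.quotDefect_card_map N D hND
  have hdbar : Cfsg.blockDefect 2 bbar = 1 := by
    rw [hc1, hd, hNcard, hc2] at hc3
    have h1 : 2 ^ Cfsg.blockDefect 2 bbar = 2 ^ 1 := by omega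
    exact Nat.pow_right_injective (le_refl 2) h1
  obtain ⟨-, hrank⟩ := kf_defect_one hM hbbar hdbar
  obtain ⟨ψ₀, hψ₀⟩ := Helper77.block_nonempty hMm hbbar
  obtain ⟨ξ₀, hξ₀def⟩ : ∃ ξ₀ : Cfsg.IrrCharacter H, ξ₀ = Helper76.irrInfl N ψ₀ := ⟨_, rfl⟩
  have hξ₀ : ξ₀ ∈ b := hξ₀def ▸ hinfl ψ₀ hψ₀
  have hξ₀1 : (ξ₀ : H → ℂ) 1 ≠ 0 := irr_one_ne_zero ξ₀
  choose ε hε hεξ using fun ξ : Cfsg.IrrCharacter H => kf_central_invol_scalar z hz hz2 ξ
  have hreg1 : ¬ 2 ∣ orderOf (1 : H) := by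
    rw [orderOf_one]
    norm_num
  -- characters of `b` trivial on `z`
  have hplus : ∀ ξ ∈ b, ε ξ = 1 → ∀ s : H, ¬ 2 ∣ orderOf s →
      (ξ : H → ℂ) s * (ξ₀ : H → ℂ) 1 = (ξ : H → ℂ) 1 * (ξ₀ : H → ℂ) s := by
    intro ξ hξ hε1 s hs
    have hker : ∀ u ∈ N, (ξ : H → ℂ) u = (ξ : H → ℂ) 1 := by
      intro u hu
      rcases hNmem u hu with rfl | rfl
      · rfl
      · have h1 := hεξ ξ 1
        rw [mul_one, hε1] at h1
        rw [h1]
        push_cast
        ring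
    obtain ⟨ψf, hψirr, hψ⟩ := Helper79.exists_irr_deflation (N := N) ξ.2 hker
    have hsame : Cfsg.SameBlock M (fun g : H => (ψ₀ : H ⧸ N → ℂ) (g : H ⧸ N))
        (fun g : H => ((⟨ψf, hψirr⟩ : Cfsg.IrrCharacter (H ⧸ N)) : H ⧸ N → ℂ) (g : H ⧸ N)) := by
      have h1 := Helper16.sameBlock_of_mem hMm hb hξ₀ hξ
      have e1 : (ξ₀ : H → ℂ) = fun g : H => (ψ₀ : H ⧸ N → ℂ) (g : H ⧸ N) := by
        rw [hξ₀def]; rfl
      have e2 : (ξ : H → ℂ) = fun g : H => ψf (g : H ⧸ N) := funext fun g => (hψ g).symm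
      rw [e1, e2] at h1
      exact h1
    have hC : ∃ k : ℕ, (Subgroup.centralizer (N : Set H)).index = 2 ^ k := by
      refine ⟨0, ?_⟩
      have : Subgroup.centralizer (N : Set H) = ⊤ :=
        Subgroup.centralizer_eq_top_iff_subset.mpr hNle
      rw [this, Subgroup.index_top, pow_zero]
    have hsame' := sameBlock_of_comp_mk hM N hNp hC ψ₀ ⟨ψf, hψirr⟩ hsame
    have hψmem : (⟨ψf, hψirr⟩ : Cfsg.IrrCharacter (H ⧸ N)) ∈ bbar := by
      rw [Helper16.eq_blockOf_of_mem hMm hbbar hψ₀]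
      exact hsame'
    have hsbar : ¬ 2 ∣ orderOf ((s : H ⧸ N)) := by
      intro h
      exact hs (dvd_trans h (orderOf_map_dvd (QuotientGroup.mk' N) s))
    have h3 := Helper73.pRegular_prop_of_blockRank_one hM.1 hrank hψ₀ hψmem (s : H ⧸ N) hsbar
    have e3 : (ξ₀ : H → ℂ) s = (ψ₀ : H ⧸ N → ℂ) (s : H ⧸ N) := by rw [hξ₀def]; rfl
    have e4 : (ξ₀ : H → ℂ) 1 = (ψ₀ : H ⧸ N → ℂ) 1 := by rw [hξ₀def]; rfl
    rw [e3, e4, ← hψ s, ← hψ 1]
    exact h3
  -- the twisted orthogonality relation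
  obtain ⟨bF, hbFdef⟩ : ∃ bF : Finset (Cfsg.IrrCharacter H),
      bF = Finset.univ.filter (fun ξ : Cfsg.IrrCharacter H => ξ ∈ b) := ⟨_, rfl⟩
  have hbF : ∀ ξ, ξ ∈ bF ↔ ξ ∈ b := by
    intro ξ
    rw [hbFdef]
    simp
  have hT : ∀ s₁ s₂ : H, ¬ 2 ∣ orderOf s₁ → ¬ 2 ∣ orderOf s₂ →
      ∑ ξ ∈ bF, (ε ξ : ℂ) * ((ξ : H → ℂ) s₁ * conj ((ξ : H → ℂ) s₂)) = 0 := by
    intro s₁ s₂ h1 h2
    have hsing : 2 ∣ orderOf (z * s₂) := by
      have hcomm : s₂ * z = z * s₂ := Subgroup.mem_center_iff.mp hz s₂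
      rw [← hcomm]
      exact dvd_orderOf_mul_of_commute hcomm h2 (k := 1) (by rw [hzo, pow_one]) hz1
    have h3 := Helper77.weak_block_orthogonality hM hb h1 hsing
    rw [finsum_mem_eq_sum_filter_univ, ← hbFdef] at h3
    rw [← h3]
    refine Finset.sum_congr rfl fun ξ _ => ?_
    rw [hεξ ξ s₂, map_mul, map_intCast]
    ring
  have hall : ∀ s : H, ¬ 2 ∣ orderOf s → ∀ ξ ∈ b,
      (ξ : H → ℂ) s * (ξ₀ : H → ℂ) 1 = (ξ : H → ℂ) 1 * (ξ₀ : H → ℂ) s := by
    intro s hs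
    obtain ⟨w, hwdef⟩ : ∃ w : Cfsg.IrrCharacter H → ℂ, ∀ ξ,
        w ξ = (ξ : H → ℂ) s * (ξ₀ : H → ℂ) 1 - (ξ : H → ℂ) 1 * (ξ₀ : H → ℂ) s :=
      ⟨_, fun _ => rfl⟩
    have hsum : ∑ ξ ∈ bF, (ε ξ : ℂ) * (w ξ * conj (w ξ)) = 0 := by
      have e : ∀ ξ : Cfsg.IrrCharacter H, (ε ξ : ℂ) * (w ξ * conj (w ξ))
          = (ξ₀ : H → ℂ) 1 * conj ((ξ₀ : H → ℂ) 1)
              * ((ε ξ : ℂ) * ((ξ : H → ℂ) s * conj ((ξ : H → ℂ) s)))
            - (ξ₀ : H → ℂ) 1 * conj ((ξ₀ : H → ℂ) s)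
              * ((ε ξ : ℂ) * ((ξ : H → ℂ) s * conj ((ξ : H → ℂ) 1)))
            - (ξ₀ : H → ℂ) s * conj ((ξ₀ : H → ℂ) 1)
              * ((ε ξ : ℂ) * ((ξ : H → ℂ) 1 * conj ((ξ : H → ℂ) s)))
            + (ξ₀ : H → ℂ) s * conj ((ξ₀ : H → ℂ) s)
              * ((ε ξ : ℂ) * ((ξ : H → ℂ) 1 * conj ((ξ : H → ℂ) 1))) := by
        intro ξ
        rw [hwdef]
        simp only [map_sub, map_mul]
        ring
      rw [Finset.sum_congr rfl (fun ξ _ => e ξ), Finset.sum_add_distrib, Finset.sum_sub_distrib,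
        Finset.sum_sub_distrib, ← Finset.mul_sum, ← Finset.mul_sum, ← Finset.mul_sum,
        ← Finset.mul_sum, hT s s hs hs, hT s 1 hs hreg1, hT 1 s hreg1 hs, hT 1 1 hreg1 hreg1]
      ring
    have hterm : ∀ ξ ∈ bF, (ε ξ : ℂ) * (w ξ * conj (w ξ)) = -((Complex.normSq (w ξ) : ℝ) : ℂ) := by
      intro ξ hξ
      rcases hε ξ with h | h
      · have h0 : w ξ = 0 := by
          rw [hwdef, hplus ξ ((hbF ξ).mp hξ) h s hs, sub_self]
        rw [h0]
        simp
      · rw [h, Complex.mul_conj]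
        push_cast
        ring
    rw [Finset.sum_congr rfl hterm, Finset.sum_neg_distrib, neg_eq_zero] at hsum
    have hsum' : ∑ ξ ∈ bF, Complex.normSq (w ξ) = 0 := by
      have : ((∑ ξ ∈ bF, Complex.normSq (w ξ) : ℝ) : ℂ) = 0 := by
        push_cast
        exact hsum
      exact_mod_cast this
    intro ξ hξ
    have h0 := (Finset.sum_eq_zero_iff_of_nonneg (fun ξ _ => Complex.normSq_nonneg (w ξ))).mp
      hsum' ξ ((hbF ξ).mpr hξ)
    have h1 : w ξ = 0 := Complex.normSq_eq_zero.mp h0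
    rw [hwdef] at h1
    exact sub_eq_zero.mp h1
  -- the span is a line
  unfold Cfsg.blockRank
  have hv0 : Cfsg.pRegularPart 2 (ξ₀ : H → ℂ) ≠ 0 := by
    intro h
    have h1 := congrFun h 1
    rw [Helper77.pRegularPart_apply, if_pos hreg1] at h1
    exact hξ₀1 h1
  have hS : Submodule.span ℂ
      ((fun χ : Cfsg.IrrCharacter H => Cfsg.pRegularPart 2 (χ : H → ℂ)) '' b)
      = Submodule.span ℂ {Cfsg.pRegularPart 2 (ξ₀ : H → ℂ)} := by
    apply le_antisymm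
    · rw [Submodule.span_le]
      rintro _ ⟨ξ, hξ, rfl⟩
      have e : Cfsg.pRegularPart 2 (ξ : H → ℂ)
          = ((ξ : H → ℂ) 1 / (ξ₀ : H → ℂ) 1) • Cfsg.pRegularPart 2 (ξ₀ : H → ℂ) := by
        funext s
        simp only [Pi.smul_apply, smul_eq_mul]
        rw [Helper77.pRegularPart_apply, Helper77.pRegularPart_apply]
        by_cases hs : 2 ∣ orderOf s
        · simp [hs]
        · rw [if_pos hs, if_pos hs]
          have h1 := hall s hs ξ hξ
          field_simp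
          linear_combination h1
      show Cfsg.pRegularPart 2 (ξ : H → ℂ) ∈ _
      rw [e]
      exact Submodule.smul_mem _ _ (Submodule.mem_span_singleton_self _)
    · rw [Submodule.span_le]
      intro v hv
      rw [Set.mem_singleton_iff] at hv
      rw [hv]
      exact Submodule.subset_span ⟨ξ₀, hξ₀, rfl⟩
  rw [hS]
  exact finrank_span_singleton hv0

end Cfsg.Agent.Helper81
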