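import Cfsg.Agent.Helper81.KleinPairs
import Cfsg.Agent.Helper81.KleinInt
import Cfsg.Agent.Helper81.KleinQuot
import Cfsg.Agent.Helper81.SectionCount
import Cfsg.Agent.Helper82.DefectOne

/-!
# Brauer's formula for a block with a Klein four defect group

Let `(P, c)` be a maximal Brauer pair of the `2`-block `B`, `P` a Klein four group.  Every block
`f` of the centralizer of a nontrivial `2`-element `x` that induces `B` has `l(f) = 1`, so that
Brauer's formula reads `|G| (k(B) - l(B)) = ∑_x |C_G(x)| · #{f}`.  Counting the pairs `(x, g)`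
with `g⁻¹ x g ∈ P` through the double cosets `C_G(x) g N_G(P, c)` gives `l(B)`.

* `kf_section_count`: the contribution of the section of `x` when all `l(f) = 1`.
* `kf_block_data`: `l(f) = 1` for the blocks below the conjugates of `(P, c)`.
* `kf_fiber_le`, `kf_fiber_ge`: the two counts.
* `kf_rank`: `k(B) = 4`, and `l(B) = 1` resp. `l(B) = 3`.
-/

set_option autoImplicit false
open Cfsg
open scoped ComplexConjugate

namespace Cfsg.Agent.Helper81

universe u

variable {G : Type u} [Group G] [Fintype G]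

open Classical in
/-- The contribution of the section of the `p`-element `x` to `∑_{ζ ∈ B} |ζ|²`, when every block
of `C_G(x)` inducing `B` has one irreducible Brauer character. -/
theorem kf_section_count {p : ℕ} [Fact p.Prime] {M : Ideal Cfsg.AlgInt}
    (hM : Cfsg.IsPModular p M) (x : G) (hx : ∃ k : ℕ, orderOf x = p ^ k)
    (H : Subgroup G) (hH : H = Subgroup.centralizer ({x} : Set G))
    {B : Set (Cfsg.IrrCharacter G)} (hB : Cfsg.IsPBlock M B)
    (hl : ∀ f : Set (Cfsg.IrrCharacter H), Cfsg.IsInducedBlock M H f B →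
      Cfsg.blockRank p f = 1) :
    ∑ y ∈ Finset.univ.filter (fun y : G => Commute x y ∧ ¬ p ∣ orderOf y),
        ∑ᶠ ζ ∈ B, (ζ : G → ℂ) (x * y) * conj ((ζ : G → ℂ) (x * y))
      = (Nat.card H : ℂ) * ((Set.ncard {f : Set (Cfsg.IrrCharacter H) |
          Cfsg.IsInducedBlock M H f B} : ℕ) : ℂ) := by
  subst hH
  have := Fintype.ofFinite (Subgroup.centralizer ({x} : Set G))
  have hcardH : (Nat.card (Subgroup.centralizer ({x} : Set G)) : ℂ) ≠ 0 := by
    have : 0 < Nat.card (Subgroup.centralizer ({x} : Set G)) := Nat.card_pos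
    exact_mod_cast this.ne'
  have h1 := Helper82.section_rank hM x hx hB
  have h2 : ∑ᶠ b ∈ {b : Set (Cfsg.IrrCharacter ↥(Subgroup.centralizer ({x} : Set G))) |
      Cfsg.IsInducedBlock M (Subgroup.centralizer ({x} : Set G)) b B}, Cfsg.blockRank p b
      = Set.ncard {b : Set (Cfsg.IrrCharacter ↥(Subgroup.centralizer ({x} : Set G))) |
      Cfsg.IsInducedBlock M (Subgroup.centralizer ({x} : Set G)) b B} := by
    rw [← finsum_one]
    exact finsum_mem_congr rfl fun b hb => hl b hb
  rw [h2] at h1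
  rw [h1, ← mul_assoc, mul_inv_cancel₀ hcardH, one_mul, finsum_eq_sum_of_fintype,
    ← Finset.sum_filter]
  symm
  refine Finset.sum_bij (fun (y : Subgroup.centralizer ({x} : Set G)) _ => (y : G)) ?_ ?_ ?_ ?_
  · intro y hy
    rw [Finset.mem_filter] at hy ⊢
    refine ⟨Finset.mem_univ _, ?_, ?_⟩
    · exact Subgroup.mem_centralizer_iff.mp y.2 x rfl
    · rw [Subgroup.orderOf_coe]
      exact hy.2
  · intro y _ y' _ h
    exact Subtype.ext h
  · intro y hy
    rw [Finset.mem_filter] at hy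
    obtain ⟨-, hcomm, hyreg⟩ := hy
    have hyH : y ∈ Subgroup.centralizer ({x} : Set G) := by
      rw [Subgroup.mem_centralizer_iff]
      intro s hs
      rw [Set.mem_singleton_iff] at hs
      rw [hs]
      exact hcomm.eq
    refine ⟨⟨y, hyH⟩, ?_, rfl⟩
    rw [Finset.mem_filter]
    refine ⟨Finset.mem_univ _, ?_⟩
    rw [← Subgroup.orderOf_coe]
    exact hyreg
  · intro y _
    rfl

omit [Fintype G] in
theorem kf_comm_of_exp {P : Subgroup G} (hexp : ∀ u ∈ P, u * u = 1) :
    ∀ a ∈ P, ∀ b ∈ P, a * b = b * a := by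
  intro a ha b hb
  have h1 := hexp a ha
  have h2 := hexp b hb
  have h3 := hexp (a * b) (mul_mem ha hb)
  have ha' : a⁻¹ = a := (eq_inv_of_mul_eq_one_left h1).symm
  have hb' : b⁻¹ = b := (eq_inv_of_mul_eq_one_left h2).symm
  calc a * b = (a * b)⁻¹ := eq_inv_of_mul_eq_one_left h3
    _ = b⁻¹ * a⁻¹ := mul_inv_rev a b
    _ = b * a := by rw [hb', ha']

/-- The blocks below the conjugates of a maximal pair with Klein four defect group: defect two
and one irreducible Brauer character. -/
theorem kf_block_data {M : Ideal Cfsg.AlgInt} (hM : Cfsg.IsPModular 2 M)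
    {B : Set (Cfsg.IrrCharacter G)} {P : Subgroup G}
    {c : Set (Cfsg.IrrCharacter (Subgroup.centralizer (P : Set G)))}
    (hmax : Cfsg.IsMaximalBrauerPair 2 M B P c) (hcard : Nat.card P = 4)
    (hexp : ∀ u ∈ P, u * u = 1) {x g : G} (hx1 : x ≠ 1)
    {f : Set (Cfsg.IrrCharacter (Subgroup.centralizer (Subgroup.zpowers x : Set G)))}
    (h : kfR 2 M P c x g f) :
    x * x = 1 ∧ Cfsg.blockDefect 2 f = 2 ∧ Cfsg.blockRank 2 f = 1 := by
  have hpf : Fact (Nat.Prime 2) := ⟨hM.1⟩
  have hPab := kf_comm_of_exp hexp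
  have hmem := kf_R_mem h
  have hx2 : x * x = 1 := by
    have h1 := hexp _ hmem
    calc x * x = g * (g⁻¹ * x * g * (g⁻¹ * x * g)) * g⁻¹ := by group
      _ = 1 := by rw [h1]; group
  have hind := kf_R_induced hM hmax h
  have hD := kf_R_defect hM hmax hPab h
  have hle : P.map (MulAut.conj g).toMonoidHom
      ≤ Subgroup.centralizer (Subgroup.zpowers x : Set G) :=
    Helper77.le_centralizer_of_le_of_comm (kf_map_conj_comm hPab g) (kf_R_le h)
  have hcD : Nat.card ((P.map (MulAut.conj g).toMonoidHom).subgroupOf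
      (Subgroup.centralizer (Subgroup.zpowers x : Set G))) = 4 := by
    rw [Nat.card_congr (Subgroup.subgroupOfEquivOfLe hle).toEquiv, Helper77.card_map_conj, hcard]
  have := Fintype.ofFinite ↥(Subgroup.centralizer (Subgroup.zpowers x : Set G))
  have hd := Helper77.card_of_isDefectGroup hM hind.1 hD
  rw [hcD] at hd
  have hd2 : Cfsg.blockDefect 2 f = 2 := by
    have h4 : (2 : ℕ) ^ 2 = 2 ^ Cfsg.blockDefect 2 f := by rw [← hd]; norm_num
    exact (Nat.pow_right_injective le_rfl h4).symm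
  refine ⟨hx2, hd2, ?_⟩
  refine kf_rank_one_of_central_invol hM
    ⟨x, Helper78.zpowers_le_centralizer_zpowers x (Subgroup.mem_zpowers x)⟩ ?_ ?_ ?_ hind.1 hd2
  · rw [Subgroup.mem_center_iff]
    intro w
    apply Subtype.ext
    show (w : G) * x = x * w
    exact (Subgroup.mem_centralizer_iff.mp w.2 x (Subgroup.mem_zpowers x)).symm
  · exact Subtype.ext hx2
  · intro h0
    exact hx1 (congrArg Subtype.val h0)

section counting

variable {p : ℕ} [Fact p.Prime] {M : Ideal Cfsg.AlgInt} {B : Set (Cfsg.IrrCharacter G)}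
  {P : Subgroup G} {c : Set (Cfsg.IrrCharacter (Subgroup.centralizer (P : Set G)))}

open Classical in
/-- If `N_G(P, c) = C_G(P)`, the elements `g` with `g⁻¹ x g ∈ P` fall into at most
`#{f}` cosets of `C_G(x)`. -/
theorem kf_fiber_le (hM : Cfsg.IsPModular p M) (hmax : Cfsg.IsMaximalBrauerPair p M B P c)
    (hPab : ∀ a ∈ P, ∀ b ∈ P, a * b = b * a) (x : G)
    (hTC : ∀ t : G, (t ∈ Subgroup.normalizer (P : Set G) ∧
      Cfsg.StabilizesBlock (Subgroup.centralizer (P : Set G)) c t) →
        t ∈ Subgroup.centralizer (P : Set G)) :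
    (Finset.univ.filter (fun g : G => g⁻¹ * x * g ∈ P)).card
      ≤ Set.ncard {f : Set (Cfsg.IrrCharacter
          (Subgroup.centralizer (Subgroup.zpowers x : Set G))) |
          Cfsg.IsInducedBlock M (Subgroup.centralizer (Subgroup.zpowers x : Set G)) f B}
        * Nat.card (Subgroup.centralizer (Subgroup.zpowers x : Set G)) := by
  have := Fintype.ofFinite (Subgroup.centralizer (Subgroup.zpowers x : Set G))
  have := Fintype.ofFinite
    (Set (Cfsg.IrrCharacter (Subgroup.centralizer (Subgroup.zpowers x : Set G))))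
  choose! F hF using (fun (g : G) (hg : g⁻¹ * x * g ∈ P) => kf_exists_R hM hmax hg)
  have hncard : Set.ncard {f : Set (Cfsg.IrrCharacter
      (Subgroup.centralizer (Subgroup.zpowers x : Set G))) |
      Cfsg.IsInducedBlock M (Subgroup.centralizer (Subgroup.zpowers x : Set G)) f B}
      = (Finset.univ.filter (fun f : Set (Cfsg.IrrCharacter
          (Subgroup.centralizer (Subgroup.zpowers x : Set G))) =>
          Cfsg.IsInducedBlock M (Subgroup.centralizer (Subgroup.zpowers x : Set G)) f B)).card := by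
    rw [← Set.ncard_coe_finset]
    congr 1
    ext f
    simp
  rw [hncard]
  have hmaps : ∀ g ∈ Finset.univ.filter (fun g : G => g⁻¹ * x * g ∈ P),
      F g ∈ Finset.univ.filter (fun f : Set (Cfsg.IrrCharacter
          (Subgroup.centralizer (Subgroup.zpowers x : Set G))) =>
          Cfsg.IsInducedBlock M (Subgroup.centralizer (Subgroup.zpowers x : Set G)) f B) :=
    fun g hg => Finset.mem_filter.mpr ⟨Finset.mem_univ _,
      kf_R_induced hM hmax (hF g (Finset.mem_filter.mp hg).2)⟩
  rw [Finset.card_eq_sum_card_fiberwise hmaps, ← smul_eq_mul]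
  refine Finset.sum_le_card_nsmul _ _ _ fun f _ => ?_
  by_cases hne : ((Finset.univ.filter (fun g : G => g⁻¹ * x * g ∈ P)).filter
      (fun g => F g = f)).Nonempty
  · obtain ⟨g₀, hg₀⟩ := hne
    rw [Finset.mem_filter, Finset.mem_filter] at hg₀
    obtain ⟨⟨-, hg₀P⟩, hg₀f⟩ := hg₀
    have hR₀ : kfR p M P c x g₀ f := hg₀f ▸ hF g₀ hg₀P
    obtain ⟨ψ, hψdef⟩ : ∃ ψ : (Subgroup.centralizer (Subgroup.zpowers x : Set G)) → G,
        ∀ z, ψ z = (z : G) * g₀ := ⟨_, fun _ => rfl⟩
    have hsub : ((Finset.univ.filter (fun g : G => g⁻¹ * x * g ∈ P)).filter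
        (fun g => F g = f)) ⊆ (Finset.univ : Finset (Subgroup.centralizer
          (Subgroup.zpowers x : Set G))).image ψ := by
      intro g hg
      rw [Finset.mem_filter, Finset.mem_filter] at hg
      obtain ⟨⟨-, hgP⟩, hgf⟩ := hg
      have hR : kfR p M P c x g f := hgf ▸ hF g hgP
      obtain ⟨z, hz, t, ht, rfl⟩ := kf_R_fib hM hmax hPab hR₀ hR
      have htC := hTC t ht
      rw [Finset.mem_image]
      refine ⟨⟨z * (g₀ * t * g₀⁻¹), mul_mem hz ?_⟩, Finset.mem_univ _, ?_⟩
      · rw [Helper78.centralizer_zpowers_eq, Subgroup.mem_centralizer_singleton_iff]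
        have h3 := Subgroup.mem_centralizer_iff.mp htC _ hg₀P
        symm
        calc x * (g₀ * t * g₀⁻¹) = g₀ * (g₀⁻¹ * x * g₀ * t) * g₀⁻¹ := by group
          _ = g₀ * (t * (g₀⁻¹ * x * g₀)) * g₀⁻¹ := by rw [h3]
          _ = g₀ * t * g₀⁻¹ * x := by group
      · rw [hψdef]
        show z * (g₀ * t * g₀⁻¹) * g₀ = z * g₀ * t
        group
    calc _ ≤ ((Finset.univ : Finset (Subgroup.centralizer
          (Subgroup.zpowers x : Set G))).image ψ).card :=
          Finset.card_le_card hsub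
      _ ≤ (Finset.univ : Finset (Subgroup.centralizer
          (Subgroup.zpowers x : Set G))).card := Finset.card_image_le
      _ = Nat.card (Subgroup.centralizer (Subgroup.zpowers x : Set G)) := by
          rw [Finset.card_univ, Nat.card_eq_fintype_card]
  · rw [Finset.not_nonempty_iff_eq_empty.mp hne, Finset.card_empty]
    exact Nat.zero_le _

open Classical in
/-- If `N_G(P, c)` acts freely on `P ∖ {1}` and has `n` cosets of `C_G(P)`, every block `f` of
`C_G(x)` inducing `B` accounts for at least `n` cosets of `C_G(x)`. -/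
theorem kf_fiber_ge (hM : Cfsg.IsPModular p M) (hmax : Cfsg.IsMaximalBrauerPair p M B P c)
    (x : G) (hx1 : x ≠ 1) (hx : IsPGroup p (Subgroup.zpowers x))
    (T : Subgroup G) (hT : ∀ g : G, g ∈ T ↔ (g ∈ Subgroup.normalizer (P : Set G) ∧
      Cfsg.StabilizesBlock (Subgroup.centralizer (P : Set G)) c g))
    (n : ℕ) (r : Fin n → G) (hr : ∀ i, r i ∈ T)
    (hinj : ∀ i j, (r i)⁻¹ * r j ∈ Subgroup.centralizer (P : Set G) → i = j)
    (hfree : ∀ t ∈ T, ∀ u ∈ P, u ≠ 1 → t * u = u * t → t ∈ Subgroup.centralizer (P : Set G)) :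
    n * (Set.ncard {f : Set (Cfsg.IrrCharacter
          (Subgroup.centralizer (Subgroup.zpowers x : Set G))) |
          Cfsg.IsInducedBlock M (Subgroup.centralizer (Subgroup.zpowers x : Set G)) f B}
        * Nat.card (Subgroup.centralizer (Subgroup.zpowers x : Set G)))
      ≤ (Finset.univ.filter (fun g : G => g⁻¹ * x * g ∈ P)).card := by
  have := Fintype.ofFinite (Subgroup.centralizer (Subgroup.zpowers x : Set G))
  have := Fintype.ofFinite
    (Set (Cfsg.IrrCharacter (Subgroup.centralizer (Subgroup.zpowers x : Set G))))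
  choose! F hF using (fun (g : G) (hg : g⁻¹ * x * g ∈ P) => kf_exists_R hM hmax hg)
  have hncard : Set.ncard {f : Set (Cfsg.IrrCharacter
      (Subgroup.centralizer (Subgroup.zpowers x : Set G))) |
      Cfsg.IsInducedBlock M (Subgroup.centralizer (Subgroup.zpowers x : Set G)) f B}
      = (Finset.univ.filter (fun f : Set (Cfsg.IrrCharacter
          (Subgroup.centralizer (Subgroup.zpowers x : Set G))) =>
          Cfsg.IsInducedBlock M (Subgroup.centralizer (Subgroup.zpowers x : Set G)) f B)).card := by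
    rw [← Set.ncard_coe_finset]
    congr 1
    ext f
    simp
  rw [hncard]
  have hmaps : ∀ g ∈ Finset.univ.filter (fun g : G => g⁻¹ * x * g ∈ P),
      F g ∈ Finset.univ.filter (fun f : Set (Cfsg.IrrCharacter
          (Subgroup.centralizer (Subgroup.zpowers x : Set G))) =>
          Cfsg.IsInducedBlock M (Subgroup.centralizer (Subgroup.zpowers x : Set G)) f B) :=
    fun g hg => Finset.mem_filter.mpr ⟨Finset.mem_univ _,
      kf_R_induced hM hmax (hF g (Finset.mem_filter.mp hg).2)⟩
  rw [Finset.card_eq_sum_card_fiberwise hmaps]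
  have hfib : ∀ f ∈ Finset.univ.filter (fun f : Set (Cfsg.IrrCharacter
          (Subgroup.centralizer (Subgroup.zpowers x : Set G))) =>
          Cfsg.IsInducedBlock M (Subgroup.centralizer (Subgroup.zpowers x : Set G)) f B),
      Nat.card (Subgroup.centralizer (Subgroup.zpowers x : Set G)) * n
        ≤ ((Finset.univ.filter (fun g : G => g⁻¹ * x * g ∈ P)).filter
            (fun g => F g = f)).card := by
    intro f hf
    have hind := (Finset.mem_filter.mp hf).2
    obtain ⟨g₀, hR₀⟩ := kf_R_surj hM hmax hx hind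
    have hu : g₀⁻¹ * x * g₀ ∈ P := kf_R_mem hR₀
    have hu1 : g₀⁻¹ * x * g₀ ≠ 1 := by
      intro h0
      apply hx1
      calc x = g₀ * (g₀⁻¹ * x * g₀) * g₀⁻¹ := by group
        _ = 1 := by rw [h0]; group
    obtain ⟨φ, hφdef⟩ : ∃ φ : (Subgroup.centralizer (Subgroup.zpowers x : Set G)) × Fin n → G,
        ∀ a, φ a = (a.1 : G) * g₀ * (r a.2)⁻¹ := ⟨_, fun _ => rfl⟩
    have hφ : ∀ a, φ a ∈ ((Finset.univ.filter (fun g : G => g⁻¹ * x * g ∈ P)).filter
            (fun g => F g = f)) := by
      intro a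
      have hR : kfR p M P c x (φ a) f := by
        rw [hφdef]
        exact kf_R_fib' hR₀ a.1.2 ((hT _).mp (inv_mem (hr a.2)))
      rw [Finset.mem_filter, Finset.mem_filter]
      exact ⟨⟨Finset.mem_univ _, kf_R_mem hR⟩, kf_R_unique hM hmax (hF _ (kf_R_mem hR)) hR⟩
    have hinjφ : Function.Injective φ := by
      rintro ⟨z, i⟩ ⟨z', j⟩ hEq
      rw [hφdef, hφdef] at hEq
      simp only at hEq
      have hs : (r j)⁻¹ * r i ∈ Subgroup.centralizer (P : Set G) := by
        apply hfree _ (mul_mem (inv_mem (hr j)) (hr i)) _ hu hu1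
        have hw : g₀ * ((r j)⁻¹ * r i) * g₀⁻¹ = (z' : G)⁻¹ * z := by
          calc g₀ * ((r j)⁻¹ * r i) * g₀⁻¹
              = (z' : G)⁻¹ * ((z' : G) * g₀ * (r j)⁻¹) * r i * g₀⁻¹ := by group
            _ = (z' : G)⁻¹ * ((z : G) * g₀ * (r i)⁻¹) * r i * g₀⁻¹ := by rw [hEq]
            _ = (z' : G)⁻¹ * z := by group
        have hwH : g₀ * ((r j)⁻¹ * r i) * g₀⁻¹ ∈ Subgroup.centralizer ({x} : Set G) := by
          rw [hw, ← Helper78.centralizer_zpowers_eq]
          exact mul_mem (inv_mem z'.2) z.2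
        rw [Subgroup.mem_centralizer_singleton_iff] at hwH
        calc (r j)⁻¹ * r i * (g₀⁻¹ * x * g₀)
            = g₀⁻¹ * ((g₀ * ((r j)⁻¹ * r i) * g₀⁻¹) * x) * g₀ := by group
          _ = g₀⁻¹ * (x * (g₀ * ((r j)⁻¹ * r i) * g₀⁻¹)) * g₀ := by rw [hwH]
          _ = g₀⁻¹ * x * g₀ * ((r j)⁻¹ * r i) := by group
      have hij : j = i := hinj j i hs
      subst hij
      have hzz : (z : G) = z' := mul_right_cancel (mul_right_cancel hEq)
      rw [Subtype.ext hzz]
    calc Nat.card (Subgroup.centralizer (Subgroup.zpowers x : Set G)) * n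
        = (Finset.univ : Finset ((Subgroup.centralizer (Subgroup.zpowers x : Set G))
            × Fin n)).card := by
          rw [Finset.card_univ, Fintype.card_prod, Fintype.card_fin, Nat.card_eq_fintype_card]
      _ ≤ _ := Finset.card_le_card_of_injOn φ (fun a _ => hφ a) hinjφ.injOn
  calc n * ((Finset.univ.filter (fun f : Set (Cfsg.IrrCharacter
          (Subgroup.centralizer (Subgroup.zpowers x : Set G))) =>
          Cfsg.IsInducedBlock M (Subgroup.centralizer (Subgroup.zpowers x : Set G)) f B)).card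
        * Nat.card (Subgroup.centralizer (Subgroup.zpowers x : Set G)))
      = (Finset.univ.filter (fun f : Set (Cfsg.IrrCharacter
          (Subgroup.centralizer (Subgroup.zpowers x : Set G))) =>
          Cfsg.IsInducedBlock M (Subgroup.centralizer (Subgroup.zpowers x : Set G)) f B)).card
        • (Nat.card (Subgroup.centralizer (Subgroup.zpowers x : Set G)) * n) := by
        rw [smul_eq_mul]; ring
    _ ≤ _ := Finset.card_nsmul_le_sum _ _ _ hfib

end counting

open Classical in
/-- The number of pairs `(x, g)`, `x` a nontrivial `2`-element with `g⁻¹ x g ∈ P`. -/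
theorem kf_sum_card (P : Subgroup G) (hcard : Nat.card P = 4) (hP : IsPGroup 2 P) :
    ∑ x ∈ Finset.univ.filter (fun x : G => x ≠ 1 ∧ ∃ k : ℕ, orderOf x = 2 ^ k),
        (Finset.univ.filter (fun g : G => g⁻¹ * x * g ∈ P)).card = 3 * Nat.card G := by
  simp_rw [Finset.card_filter]
  rw [Finset.sum_comm]
  have hPc : (Finset.univ.filter (fun u : G => u ∈ P)).card = 4 := by
    rw [← hcard, Nat.card_eq_fintype_card, Fintype.card_subtype]
  have key : ∀ g : G, ∑ x ∈ Finset.univ.filter (fun x : G => x ≠ 1 ∧ ∃ k : ℕ, orderOf x = 2 ^ k),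
      (if g⁻¹ * x * g ∈ P then 1 else 0) = 3 := by
    intro g
    rw [← Finset.card_filter]
    have h1 : (Finset.univ.filter (fun x : G => x ≠ 1 ∧ ∃ k : ℕ, orderOf x = 2 ^ k)).filter
        (fun x => g⁻¹ * x * g ∈ P)
        = ((Finset.univ.filter (fun u : G => u ∈ P)).erase 1).image (fun u => g * u * g⁻¹) := by
      ext x
      simp only [Finset.mem_filter, Finset.mem_univ, true_and, Finset.mem_image,
        Finset.mem_erase]
      constructor
      · rintro ⟨⟨hx1, -⟩, hxP⟩
        refine ⟨g⁻¹ * x * g, ⟨fun h => hx1 ?_, hxP⟩, by group⟩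
        calc x = g * (g⁻¹ * x * g) * g⁻¹ := by group
          _ = 1 := by rw [h]; group
      · rintro ⟨u, ⟨hu1, huP⟩, rfl⟩
        refine ⟨⟨?_, ?_⟩, ?_⟩
        · intro h
          apply hu1
          calc u = g⁻¹ * (g * u * g⁻¹) * g := by group
            _ = 1 := by rw [h]; group
        · obtain ⟨k, hk⟩ := (IsPGroup.iff_orderOf.mp hP) ⟨u, huP⟩
          rw [Subgroup.orderOf_mk] at hk
          exact ⟨k, by rw [← hk]; exact (MulAut.conj g).orderOf_eq u⟩
        · have h2 : g⁻¹ * (g * u * g⁻¹) * g = u := by group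
          rw [h2]
          exact huP
    have hinj : Function.Injective (fun u : G => g * u * g⁻¹) := by
      intro a b hab
      simpa using hab
    rw [h1, Finset.card_image_of_injective _ hinj, Finset.card_erase_of_mem
      (Finset.mem_filter.mpr ⟨Finset.mem_univ _, P.one_mem⟩), hPc]
  rw [Finset.sum_congr rfl (fun g _ => key g), Finset.sum_const, Finset.card_univ, smul_eq_mul,
    Nat.card_eq_fintype_card, mul_comm]

open Classical in
/-- **Brauer's theorem on blocks with a Klein four defect group**, counting form: `k(B) = 4`;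
`l(B) = 1` if `N_G(P, c) = C_G(P)`; `l(B) = 3` if `N_G(P, c)` has three cosets of `C_G(P)`
(and acts freely on `P ∖ {1}`). -/
theorem kf_rank {M : Ideal Cfsg.AlgInt} (hM : Cfsg.IsPModular 2 M)
    {B : Set (Cfsg.IrrCharacter G)} (hB : Cfsg.IsPBlock M B) {P : Subgroup G}
    {c : Set (Cfsg.IrrCharacter (Subgroup.centralizer (P : Set G)))}
    (hmax : Cfsg.IsMaximalBrauerPair 2 M B P c) (hcard : Nat.card P = 4)
    (hexp : ∀ u ∈ P, u * u = 1)
    (T : Subgroup G) (hT : ∀ g : G, g ∈ T ↔ (g ∈ Subgroup.normalizer (P : Set G) ∧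
      Cfsg.StabilizesBlock (Subgroup.centralizer (P : Set G)) c g))
    (hfree : ∀ t ∈ T, ∀ u ∈ P, u ≠ 1 → t * u = u * t → t ∈ Subgroup.centralizer (P : Set G)) :
    Nat.card B = 4 ∧ (T ≤ Subgroup.centralizer (P : Set G) → Cfsg.blockRank 2 B = 1) ∧
      (∀ r : Fin 3 → G, (∀ i, r i ∈ T) →
        (∀ i j, (r i)⁻¹ * r j ∈ Subgroup.centralizer (P : Set G) → i = j) →
          Cfsg.blockRank 2 B = 3) := by
  have hpf : Fact (Nat.Prime 2) := ⟨hM.1⟩
  have hPab := kf_comm_of_exp hexp
  have hP2 : IsPGroup 2 P := IsPGroup.of_card (n := 2) (by rw [hcard]; norm_num)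
  have hPD := Helper77.isDefectGroup_of_isMaximalBrauerPair hM B P c hmax
  have hdB : Cfsg.blockDefect 2 B = 2 := by
    have hd := Helper77.card_of_isDefectGroup hM hB hPD
    rw [hcard] at hd
    have h4 : (2 : ℕ) ^ 2 = 2 ^ Cfsg.blockDefect 2 B := by rw [← hd]; norm_num
    exact (Nat.pow_right_injective le_rfl h4).symm
  -- a nontrivial element of `P`
  obtain ⟨u, huP, hu1⟩ : ∃ u ∈ P, u ≠ 1 := by
    by_contra hcon
    push_neg at hcon
    have hbot : P = ⊥ := (Subgroup.eq_bot_iff_forall _).mpr hcon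
    rw [hbot, Subgroup.card_bot] at hcard
    omega
  have hpow : ∀ x ∈ Finset.univ.filter (fun x : G => x ≠ 1 ∧ ∃ k : ℕ, orderOf x = 2 ^ k),
      IsPGroup 2 (Subgroup.zpowers x) := by
    intro x hx
    obtain ⟨k, hk⟩ := (Finset.mem_filter.mp hx).2.2
    exact IsPGroup.of_card (n := k) (by rw [Nat.card_zpowers, hk])
  have huX : u ∈ Finset.univ.filter (fun x : G => x ≠ 1 ∧ ∃ k : ℕ, orderOf x = 2 ^ k) := by
    refine Finset.mem_filter.mpr ⟨Finset.mem_univ _, hu1, ?_⟩
    obtain ⟨k, hk⟩ := (IsPGroup.iff_orderOf.mp hP2) ⟨u, huP⟩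
    rw [Subgroup.orderOf_mk] at hk
    exact ⟨k, hk⟩
  have hrank : ∀ x ∈ Finset.univ.filter (fun x : G => x ≠ 1 ∧ ∃ k : ℕ, orderOf x = 2 ^ k),
      ∀ f : Set (Cfsg.IrrCharacter (Subgroup.centralizer (Subgroup.zpowers x : Set G))),
        Cfsg.IsInducedBlock M (Subgroup.centralizer (Subgroup.zpowers x : Set G)) f B →
          Cfsg.blockRank 2 f = 1 := by
    intro x hx f hind
    obtain ⟨g, hR⟩ := kf_R_surj hM hmax (hpow x hx) hind
    exact (kf_block_data hM hmax hcard hexp (Finset.mem_filter.mp hx).2.1 hR).2.2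
  -- `k(B) = 4`
  obtain ⟨f₁, hR₁⟩ := kf_exists_R hM hmax (x := u) (g := 1) (by simpa using huP)
  have hd₁ := kf_block_data hM hmax hcard hexp hu1 hR₁
  have hk : Nat.card B = 4 := by
    have h0 := kf_card_of_major hM hB hdB le_rfl u hd₁.1 _ (Helper78.centralizer_zpowers_eq u) f₁
      (kf_R_induced hM hmax hR₁) hd₁.2.1 hd₁.2.2
    rw [h0]
    norm_num
  -- Brauer's formula
  have h1 := card_mul_card_block hM hB
  rw [sum_pSingular_eq_sum_sections 2
    (fun g => ∑ᶠ ζ ∈ B, (ζ : G → ℂ) g * conj ((ζ : G → ℂ) g))] at h1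
  have h2 : ∀ x ∈ Finset.univ.filter (fun x : G => x ≠ 1 ∧ ∃ k : ℕ, orderOf x = 2 ^ k),
      ∑ y ∈ Finset.univ.filter (fun y : G => Commute x y ∧ ¬ 2 ∣ orderOf y),
        ∑ᶠ ζ ∈ B, (ζ : G → ℂ) (x * y) * conj ((ζ : G → ℂ) (x * y))
      = (((Nat.card (Subgroup.centralizer (Subgroup.zpowers x : Set G))
          * Set.ncard {f : Set (Cfsg.IrrCharacter
              (Subgroup.centralizer (Subgroup.zpowers x : Set G))) |
              Cfsg.IsInducedBlock M (Subgroup.centralizer (Subgroup.zpowers x : Set G)) f B}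
          : ℕ)) : ℂ) := by
    intro x hx
    rw [Nat.cast_mul]
    exact kf_section_count hM x (Finset.mem_filter.mp hx).2.2 _
      (Helper78.centralizer_zpowers_eq x) hB (hrank x hx)
  rw [Finset.sum_congr rfl h2, hk, ← Nat.cast_sum] at h1
  have h3 : Nat.card G * 4 = Nat.card G * Cfsg.blockRank 2 B
      + ∑ x ∈ Finset.univ.filter (fun x : G => x ≠ 1 ∧ ∃ k : ℕ, orderOf x = 2 ^ k),
        Nat.card (Subgroup.centralizer (Subgroup.zpowers x : Set G))
          * Set.ncard {f : Set (Cfsg.IrrCharacter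
              (Subgroup.centralizer (Subgroup.zpowers x : Set G))) |
              Cfsg.IsInducedBlock M (Subgroup.centralizer (Subgroup.zpowers x : Set G)) f B} := by
    exact_mod_cast h1
  have h4 := kf_sum_card P hcard hP2
  have hGpos : 0 < Nat.card G := Nat.card_pos
  refine ⟨hk, ?_, ?_⟩
  · intro hTC
    have h5 : ∀ x ∈ Finset.univ.filter (fun x : G => x ≠ 1 ∧ ∃ k : ℕ, orderOf x = 2 ^ k),
        (Finset.univ.filter (fun g : G => g⁻¹ * x * g ∈ P)).card
          ≤ Nat.card (Subgroup.centralizer (Subgroup.zpowers x : Set G))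
          * Set.ncard {f : Set (Cfsg.IrrCharacter
              (Subgroup.centralizer (Subgroup.zpowers x : Set G))) |
              Cfsg.IsInducedBlock M (Subgroup.centralizer (Subgroup.zpowers x : Set G)) f B} := by
      intro x _
      rw [mul_comm]
      exact kf_fiber_le hM hmax hPab x (fun t ht => hTC ((hT t).mpr ht))
    have h6 := Finset.sum_le_sum h5
    rw [h4] at h6
    have h8 : Nat.card G * Cfsg.blockRank 2 B ≤ Nat.card G * 1 := by linarith
    have h9 : Cfsg.blockRank 2 B ≤ 1 := Nat.le_of_mul_le_mul_left h8 hGpos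
    obtain ⟨χ₀, hχ₀⟩ := Helper77.block_nonempty hM.2.1 hB
    have h10 := Helper82.blockRank_pos (p := 2) Nat.prime_two hχ₀
    omega
  · intro r hr hinj
    have h5 : ∀ x ∈ Finset.univ.filter (fun x : G => x ≠ 1 ∧ ∃ k : ℕ, orderOf x = 2 ^ k),
        3 * (Nat.card (Subgroup.centralizer (Subgroup.zpowers x : Set G))
          * Set.ncard {f : Set (Cfsg.IrrCharacter
              (Subgroup.centralizer (Subgroup.zpowers x : Set G))) |
              Cfsg.IsInducedBlock M (Subgroup.centralizer (Subgroup.zpowers x : Set G)) f B})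
          ≤ (Finset.univ.filter (fun g : G => g⁻¹ * x * g ∈ P)).card := by
      intro x hx
      rw [mul_comm (Nat.card _)]
      exact kf_fiber_ge hM hmax x (Finset.mem_filter.mp hx).2.1 (hpow x hx) T hT 3 r hr hinj
        hfree
    have h6 := Finset.sum_le_sum h5
    rw [h4, ← Finset.mul_sum] at h6
    have h11 : 0 < ∑ x ∈ Finset.univ.filter (fun x : G => x ≠ 1 ∧ ∃ k : ℕ, orderOf x = 2 ^ k),
        Nat.card (Subgroup.centralizer (Subgroup.zpowers x : Set G))
          * Set.ncard {f : Set (Cfsg.IrrCharacter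
              (Subgroup.centralizer (Subgroup.zpowers x : Set G))) |
              Cfsg.IsInducedBlock M (Subgroup.centralizer (Subgroup.zpowers x : Set G)) f B} := by
      refine Finset.sum_pos' (fun _ _ => Nat.zero_le _) ⟨u, huX, Nat.mul_pos Nat.card_pos ?_⟩
      rw [Set.ncard_pos]
      exact ⟨f₁, kf_R_induced hM hmax hR₁⟩
    have h12 : Nat.card G * 3 ≤ Nat.card G * Cfsg.blockRank 2 B := by linarith
    have h13 : Nat.card G * Cfsg.blockRank 2 B < Nat.card G * 4 := by linarith
    have h14 : 3 ≤ Cfsg.blockRank 2 B := Nat.le_of_mul_le_mul_left h12 hGpos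
    have h15 : Cfsg.blockRank 2 B < 4 := Nat.lt_of_mul_lt_mul_left h13
    omega

end Cfsg.Agent.Helper81
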