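import Cfsg.Agent.Helper77.AbelianPair
import Cfsg.Agent.Helper77.PairConj2
import Cfsg.Agent.Helper77.LocalNil
import Cfsg.Agent.Helper78.GenDecomp

/-!
# Subsections below the conjugates of a maximal Brauer pair with abelian defect group

Fix a maximal Brauer pair `(P, c)` of a block `B` with `P` abelian.  For elements `x, g` of `G`
and a block `f` of `C_G(x)`, `kfR p M P c x g f` says that `(⟨x⟩, f) ≤ (P, c)^g`.

* `kf_exists_R`, `kf_R_unique`: for `g⁻¹ x g ∈ P` there is exactly one such `f`.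
* `kf_R_induced`, `kf_R_defect`: `f` induces `B` and has defect group `P^g`.
* `kf_R_surj`: every block of `C_G(x)` inducing `B` (`x` a `p`-element) arises.
* `kf_R_fib`, `kf_R_fib'`: the `g` belonging to a fixed `f` form one double coset
  `C_G(x) g N_G(P, c)`.
-/

set_option autoImplicit false
open Cfsg

namespace Cfsg.Agent.Helper81

universe u

variable {G : Type u} [Group G] [Fintype G]

/-- `(⟨x⟩, f) ≤ (P, c)^g`. -/
def kfR (p : ℕ) (M : Ideal Cfsg.AlgInt) (P : Subgroup G)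
    (c : Set (Cfsg.IrrCharacter (Subgroup.centralizer (P : Set G)))) (x g : G)
    (f : Set (Cfsg.IrrCharacter (Subgroup.centralizer (Subgroup.zpowers x : Set G)))) : Prop :=
  Relation.ReflTransGen (Cfsg.NormalSubpairRel p M)
    (⟨Subgroup.zpowers x, f⟩ : Cfsg.BrauerPairIdx G) (Helper77.conjPair g ⟨P, c⟩)

omit [Fintype G] in
theorem kf_zpowers_le {P : Subgroup G} {x g : G} (h : g⁻¹ * x * g ∈ P) :
    Subgroup.zpowers x ≤ P.map (MulAut.conj g).toMonoidHom := by
  rw [Subgroup.zpowers_le]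
  exact (Helper77.mem_map_conj_iff P g x).mpr h

omit [Fintype G] in
theorem kf_map_conj_comm {P : Subgroup G} (hPab : ∀ a ∈ P, ∀ b ∈ P, a * b = b * a) (g : G) :
    ∀ a ∈ P.map (MulAut.conj g).toMonoidHom, ∀ b ∈ P.map (MulAut.conj g).toMonoidHom,
      a * b = b * a := by
  rintro _ ⟨a, ha, rfl⟩ _ ⟨b, hb, rfl⟩
  show g * a * g⁻¹ * (g * b * g⁻¹) = g * b * g⁻¹ * (g * a * g⁻¹)
  have h := hPab a ha b hb
  calc g * a * g⁻¹ * (g * b * g⁻¹) = g * (a * b) * g⁻¹ := by group
    _ = g * (b * a) * g⁻¹ := by rw [h]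
    _ = g * b * g⁻¹ * (g * a * g⁻¹) := by group

variable {p : ℕ} [Fact p.Prime] {M : Ideal Cfsg.AlgInt} {B : Set (Cfsg.IrrCharacter G)}
  {P : Subgroup G} {c : Set (Cfsg.IrrCharacter (Subgroup.centralizer (P : Set G)))}

theorem kf_exists_R (hM : Cfsg.IsPModular p M) (hmax : Cfsg.IsMaximalBrauerPair p M B P c)
    {x g : G} (h : g⁻¹ * x * g ∈ P) : ∃ f, kfR p M P c x g f := by
  have hm := Helper77.isMaximalBrauerPair_conj hM hmax g
  obtain ⟨f, -, hle⟩ := Helper77.exists_subpairLE hM _ _ hm.1.1 (Subgroup.zpowers x)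
    (kf_zpowers_le h)
  exact ⟨f, hle⟩

theorem kf_R_unique (hM : Cfsg.IsPModular p M) (hmax : Cfsg.IsMaximalBrauerPair p M B P c)
    {x g : G} {f f' : Set (Cfsg.IrrCharacter (Subgroup.centralizer (Subgroup.zpowers x : Set G)))}
    (h : kfR p M P c x g f) (h' : kfR p M P c x g f') : f = f' :=
  Helper77.subpairLE_unique hM _ _ _ rfl (Helper77.isMaximalBrauerPair_conj hM hmax g).1.1
    _ f f' h h'

omit [Fintype G] [Fact p.Prime] in
theorem kf_R_le {x g : G}
    {f : Set (Cfsg.IrrCharacter (Subgroup.centralizer (Subgroup.zpowers x : Set G)))}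
    (h : kfR p M P c x g f) : Subgroup.zpowers x ≤ P.map (MulAut.conj g).toMonoidHom :=
  Helper75.subpairLE_fst_le (a := ⟨_, f⟩) (b := Helper77.conjPair g ⟨P, c⟩) h

omit [Fintype G] [Fact p.Prime] in
theorem kf_R_mem {x g : G}
    {f : Set (Cfsg.IrrCharacter (Subgroup.centralizer (Subgroup.zpowers x : Set G)))}
    (h : kfR p M P c x g f) : g⁻¹ * x * g ∈ P :=
  (Helper77.mem_map_conj_iff P g x).mp (kf_R_le h (Subgroup.mem_zpowers x))

theorem kf_R_induced (hM : Cfsg.IsPModular p M) (hmax : Cfsg.IsMaximalBrauerPair p M B P c)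
    {x g : G} {f : Set (Cfsg.IrrCharacter (Subgroup.centralizer (Subgroup.zpowers x : Set G)))}
    (h : kfR p M P c x g f) :
    Cfsg.IsInducedBlock M (Subgroup.centralizer (Subgroup.zpowers x : Set G)) f B := by
  have hm := Helper77.isMaximalBrauerPair_conj hM hmax g
  have h1 := (Helper77.isBrauerPairOf_iff_of_reflTransGen hM h B hm.1.2.1).mp hm.1
  exact Helper78.isInducedBlock_of_isBrauerPairOf hM _
    (Helper78.zpowers_le_centralizer_zpowers x) f h1

theorem kf_R_defect (hM : Cfsg.IsPModular p M) (hmax : Cfsg.IsMaximalBrauerPair p M B P c)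
    (hPab : ∀ a ∈ P, ∀ b ∈ P, a * b = b * a)
    {x g : G} {f : Set (Cfsg.IrrCharacter (Subgroup.centralizer (Subgroup.zpowers x : Set G)))}
    (h : kfR p M P c x g f) :
    Cfsg.IsDefectGroup p M f ((P.map (MulAut.conj g).toMonoidHom).subgroupOf
      (Subgroup.centralizer (Subgroup.zpowers x : Set G))) := by
  have hm := Helper77.isMaximalBrauerPair_conj hM hmax g
  exact Helper77.isDefectGroup_centralizer_of_le_centralizer hM hm h
    (Helper77.le_centralizer_of_le_of_comm (kf_map_conj_comm hPab g) (kf_R_le h))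

theorem kf_R_surj (hM : Cfsg.IsPModular p M) (hmax : Cfsg.IsMaximalBrauerPair p M B P c)
    {x : G} (hx : IsPGroup p (Subgroup.zpowers x))
    {f : Set (Cfsg.IrrCharacter (Subgroup.centralizer (Subgroup.zpowers x : Set G)))}
    (hind : Cfsg.IsInducedBlock M (Subgroup.centralizer (Subgroup.zpowers x : Set G)) f B) :
    ∃ g, kfR p M P c x g f := by
  have h1 := Helper77.isBrauerPairOf_of_isInducedBlock hM (Subgroup.zpowers x) hx
    (Helper78.zpowers_le_centralizer_zpowers x) f hind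
  obtain ⟨y, hy⟩ := Helper77.exists_subpairLE_conj_of_isMaximalBrauerPair hM B P
    (Subgroup.zpowers x) c f hmax h1
  refine ⟨y⁻¹, ?_⟩
  have h2 := Helper77.subpairLE_conjPair y⁻¹ (a := Helper77.conjPair y ⟨Subgroup.zpowers x, f⟩)
    (b := ⟨P, c⟩) hy
  rw [Helper77.conjPair_inv_conjPair] at h2
  exact h2

theorem kf_R_fib (hM : Cfsg.IsPModular p M) (hmax : Cfsg.IsMaximalBrauerPair p M B P c)
    (hPab : ∀ a ∈ P, ∀ b ∈ P, a * b = b * a)
    {x g h : G} {f : Set (Cfsg.IrrCharacter (Subgroup.centralizer (Subgroup.zpowers x : Set G)))}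
    (h1 : kfR p M P c x g f) (h2 : kfR p M P c x h f) :
    ∃ z ∈ Subgroup.centralizer (Subgroup.zpowers x : Set G), ∃ t : G,
      (t ∈ Subgroup.normalizer (P : Set G) ∧
        Cfsg.StabilizesBlock (Subgroup.centralizer (P : Set G)) c t) ∧ h = z * g * t := by
  have hm₁ := Helper77.isMaximalBrauerPair_conj hM hmax g
  have hm₂ := Helper77.isMaximalBrauerPair_conj hM hmax h
  have hC₁ := Helper77.le_centralizer_of_le_of_comm (kf_map_conj_comm hPab g) (kf_R_le h1)
  have hC₂ := Helper77.le_centralizer_of_le_of_comm (kf_map_conj_comm hPab h) (kf_R_le h2)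
  obtain ⟨z, hz, hzeq⟩ := Helper77.exists_conjPair_eq_of_le_centralizer hM hm₁ hm₂ h1 h2 hC₁ hC₂
  have e1 : Helper77.conjPair z (Helper77.conjPair h ⟨P, c⟩) = Helper77.conjPair g ⟨P, c⟩ := hzeq
  have e2 : Helper77.conjPair (g⁻¹ * z * h) ⟨P, c⟩ = ⟨P, c⟩ := by
    rw [mul_assoc, Helper77.conjPair_mul, Helper77.conjPair_mul, e1,
      Helper77.conjPair_inv_conjPair]
  exact ⟨z⁻¹, inv_mem hz, g⁻¹ * z * h, (Helper77.conjPair_eq_self_iff P c _).mp e2, by group⟩

omit [Fact p.Prime] in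
theorem kf_R_fib' {x g : G}
    {f : Set (Cfsg.IrrCharacter (Subgroup.centralizer (Subgroup.zpowers x : Set G)))}
    (h1 : kfR p M P c x g f) {z : G}
    (hz : z ∈ Subgroup.centralizer (Subgroup.zpowers x : Set G)) {t : G}
    (ht : t ∈ Subgroup.normalizer (P : Set G) ∧
      Cfsg.StabilizesBlock (Subgroup.centralizer (P : Set G)) c t) :
    kfR p M P c x (z * g * t) f := by
  have e1 : Helper77.conjPair t ⟨P, c⟩ = ⟨P, c⟩ := (Helper77.conjPair_eq_self_iff P c t).mpr ht
  have h2 := Helper77.subpairLE_conjPair z h1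
  rw [Helper77.conjPair_of_mem_centralizer _ f hz] at h2
  unfold kfR
  rw [Helper77.conjPair_mul, Helper77.conjPair_mul, e1]
  exact h2

end Cfsg.Agent.Helper81
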