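import Cfsg.Agent.Helper81.KleinInt
import Cfsg.Agent.Helper77.BlockRank

/-!
# Blocks of defect two (for the prime `2`) with one irreducible Brauer character

For a `2`-block `B` of defect `2` with `l(B) = 1`: `k(B) = 4` and all members of `B` agree on
the `2`-regular elements.

* `kp_pregInner_of_mult`: the `p`-regular inner product from the multiplicities of `k χ°`.
* `kp_all_one`: integers `≥ 1` whose sum is their number are all `1`.
* `kp_rank_one`: the statement above.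
-/

set_option autoImplicit false
open Cfsg
open scoped ComplexConjugate

namespace Cfsg.Agent.Helper81

universe u

theorem kp_all_one {ι : Type*} (s : Finset ι) (f : ι → ℤ) (h1 : ∀ i ∈ s, 1 ≤ f i)
    (hsum : ∑ i ∈ s, f i = s.card) : ∀ i ∈ s, f i = 1 := by
  intro i hi
  by_contra hne
  have hlt : ∑ j ∈ s, (1 : ℤ) < ∑ j ∈ s, f j :=
    Finset.sum_lt_sum h1 ⟨i, hi, lt_of_le_of_ne (h1 i hi) (Ne.symm hne)⟩
  rw [hsum] at hlt
  simp at hlt

variable {G : Type u} [Group G] [Fintype G]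

theorem kp_pregInner_of_mult (k : ℕ) (hk : 0 < k) (χ ψ : Cfsg.IrrCharacter G) (m : ℤ)
    (hm : Cfsg.classInner (Helper73.pregScal 2 (k : ℂ) (χ : G → ℂ)) (ψ : G → ℂ) = (m : ℂ)) :
    Helper77.pregInner 2 (χ : G → ℂ) (ψ : G → ℂ) = (Nat.card G : ℂ) * m / k := by
  unfold Cfsg.classInner Helper73.pregScal at hm
  have h2 : ∑ x : G, (if 2 ∣ orderOf x then 0 else (k : ℂ) * (χ : G → ℂ) x)
        * conj ((ψ : G → ℂ) x)
      = k * Helper77.pregInner 2 (χ : G → ℂ) (ψ : G → ℂ) := by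
    unfold Helper77.pregInner
    rw [Finset.mul_sum]
    refine Finset.sum_congr rfl fun x _ => ?_
    split_ifs
    · simp
    · ring
  rw [h2] at hm
  have hG : (Nat.card G : ℂ) ≠ 0 := by exact_mod_cast Nat.card_pos.ne'
  have hk' : (k : ℂ) ≠ 0 := by exact_mod_cast hk.ne'
  field_simp at hm ⊢
  linear_combination hm

/-- **Rank one, defect two.**  A `2`-block of defect `2` with one irreducible Brauer character
has exactly four irreducible characters; they agree on the `2`-regular elements and have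
`2`-regular norm `|G| / 4`. -/
theorem kp_rank_one {M : Ideal Cfsg.AlgInt} (hM : Cfsg.IsPModular 2 M)
    {B : Set (Cfsg.IrrCharacter G)} (hB : Cfsg.IsPBlock M B)
    (hd : Cfsg.blockDefect 2 B = 2) (hl : Cfsg.blockRank 2 B = 1) :
    Nat.card B = 4 ∧
      (∀ χ ∈ B, ∀ ψ ∈ B, ∀ x : G, ¬ 2 ∣ orderOf x → (χ : G → ℂ) x = (ψ : G → ℂ) x) ∧
      ∀ χ ∈ B, Helper77.pregInner 2 (χ : G → ℂ) (χ : G → ℂ) = (Nat.card G : ℂ) / 4 := by
  classical
  have hpf : Fact (Nat.Prime 2) := ⟨hM.1⟩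
  have := Fintype.ofFinite (Cfsg.IrrCharacter G)
  have hG : (Nat.card G : ℂ) ≠ 0 := by exact_mod_cast Nat.card_pos.ne'
  obtain ⟨BF, hBFdef⟩ : ∃ BF : Finset (Cfsg.IrrCharacter G),
      BF = Finset.univ.filter (fun χ : Cfsg.IrrCharacter G => χ ∈ B) := ⟨_, rfl⟩
  have hBF : ∀ χ, χ ∈ BF ↔ χ ∈ B := by
    intro χ
    rw [hBFdef]
    simp
  have hcardB : Nat.card B = BF.card := by
    rw [Nat.card_eq_fintype_card, hBFdef, Fintype.card_subtype]
  have hh : ∀ χ ∈ B, Cfsg.blockHeight 2 B (χ : G → ℂ) = 0 :=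
    fun χ hχ => kf_height_zero hM hB (by omega) hχ
  -- the multiplicities
  have hex : ∀ χ : Cfsg.IrrCharacter G, ∃ m : Cfsg.IrrCharacter G → ℤ, χ ∈ B →
      (∀ ψ : Cfsg.IrrCharacter G, Cfsg.classInner
        (Helper73.pregScal 2 ((2 ^ 2 : ℕ) : ℂ) (χ : G → ℂ)) (ψ : G → ℂ) = (m ψ : ℂ)) ∧
      (∀ ψ : Cfsg.IrrCharacter G, ψ ∉ B → m ψ = 0) ∧
      (∀ ψ : Cfsg.IrrCharacter G, ψ ∈ B → ¬ (2 : ℤ) ∣ m ψ) := by
    intro χ
    by_cases hχ : χ ∈ B
    · obtain ⟨m, hm, hout, hin⟩ := Helper73.exists_mult_of_height_zero hM hB hχ (hh χ hχ)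
      rw [hd] at hm
      refine ⟨m, fun _ => ⟨hm, hout, ?_⟩⟩
      intro ψ hψ hdvd
      obtain ⟨h0, hv⟩ := hin ψ hψ
      rw [hh ψ hψ] at hv
      have h1 : ((2 : ℕ) : ℤ) ^ 1 ∣ m ψ := by simpa using hdvd
      rw [padicValInt_dvd_iff] at h1
      rcases h1 with h1 | h1
      · exact h0 h1
      · omega
    · exact ⟨fun _ => 0, fun h => absurd h hχ⟩
  choose n hn using hex
  have hpI : ∀ χ ∈ B, ∀ ψ : Cfsg.IrrCharacter G,
      Helper77.pregInner 2 (χ : G → ℂ) (ψ : G → ℂ) = (Nat.card G : ℂ) * (n χ ψ : ℂ) / 4 := by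
    intro χ hχ ψ
    have h1 := kp_pregInner_of_mult (2 ^ 2) (by norm_num) χ ψ (n χ ψ) ((hn χ hχ).1 ψ)
    rw [h1]
    push_cast
    norm_num
  have hodd : ∀ χ ∈ BF, ∀ ψ ∈ BF, ¬ (2 : ℤ) ∣ n χ ψ := fun χ hχ ψ hψ =>
    (hn χ ((hBF χ).mp hχ)).2.2 ψ ((hBF ψ).mp hψ)
  have hrow : ∀ χ ∈ BF, ∑ ψ ∈ BF, (n χ ψ) ^ 2 = 2 ^ 2 * n χ χ := by
    intro χ hχ
    obtain ⟨hm, hout, -⟩ := hn χ ((hBF χ).mp hχ)
    have h1 := Helper73.sum_sq_classInner_pregScal 2 (2 ^ 2) χ (n χ) hm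
    have h2 : ∑ ψ ∈ BF, (n χ ψ) ^ 2 = ∑ ψ : Cfsg.IrrCharacter G, (n χ ψ) ^ 2 := by
      apply Finset.sum_subset (Finset.subset_univ _)
      intro ψ _ hψ
      have hψB : ψ ∉ B := fun h => hψ ((hBF ψ).mpr h)
      rw [hout ψ hψB]
      norm_num
    rw [h2, h1]
    push_cast
    ring
  have htr : ∑ χ ∈ BF, n χ χ = 2 ^ 2 := by
    have h1 := Helper77.card_mul_blockRank hM hB
    rw [← hBFdef, hl, Finset.sum_congr rfl (fun χ hχ => hpI χ ((hBF χ).mp hχ) χ),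
      ← Finset.sum_div, ← Finset.mul_sum] at h1
    have h2 : (Nat.card G : ℂ) * ((∑ χ ∈ BF, n χ χ : ℤ) : ℂ) = (Nat.card G : ℂ) * ((2 ^ 2 : ℤ) : ℂ) := by
      field_simp at h1
      push_cast at h1 ⊢
      linear_combination (-(Nat.card G : ℂ)) * h1
    have h3 := mul_left_cancel₀ hG h2
    exact_mod_cast h3
  obtain ⟨χ₀, hχ₀⟩ := Helper77.block_nonempty hM.2.1 hB
  have hc4 : BF.card = 2 ^ 2 :=
    kf_card_of_odd_matrix BF ⟨χ₀, (hBF χ₀).mpr hχ₀⟩ n 2 le_rfl hodd htr hrow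
  have hpos : ∀ χ ∈ BF, 1 ≤ n χ χ := by
    intro χ hχ
    have h1 : (n χ χ) ^ 2 ≤ ∑ ψ ∈ BF, (n χ ψ) ^ 2 :=
      Finset.single_le_sum (f := fun ψ => (n χ ψ) ^ 2) (fun ψ _ => sq_nonneg _) hχ
    rw [hrow χ hχ] at h1
    have h0 : n χ χ ≠ 0 := fun h => hodd χ hχ χ hχ (by rw [h]; exact dvd_zero _)
    have h3 : 0 < (n χ χ) ^ 2 := by positivity
    nlinarith
  have hdiag : ∀ χ ∈ BF, n χ χ = 1 :=
    kp_all_one BF (fun χ => n χ χ) hpos (by rw [htr, hc4]; norm_num)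
  have hsq : ∀ χ ∈ BF, ∀ ψ ∈ BF, (n χ ψ) ^ 2 = 1 := by
    intro χ hχ
    refine kp_all_one BF (fun ψ => (n χ ψ) ^ 2) ?_ ?_
    · intro ψ hψ
      exact Helper73.one_le_sq_of_ne_zero
        (fun h => hodd χ hχ ψ hψ (by rw [h]; exact dvd_zero _))
    · rw [hrow χ hχ, hdiag χ hχ, hc4]
      norm_num
  have hsymm : ∀ χ ∈ B, ∀ ψ ∈ B, n ψ χ = n χ ψ := by
    intro χ hχ ψ hψ
    have h1 := Helper77.conj_pregInner 2 (χ : G → ℂ) (ψ : G → ℂ)
    rw [hpI χ hχ ψ, hpI ψ hψ χ] at h1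
    have h2 : (Nat.card G : ℂ) * ((n ψ χ : ℤ) : ℂ) = (Nat.card G : ℂ) * ((n χ ψ : ℤ) : ℂ) := by
      simp only [map_div₀, map_mul, map_natCast, map_intCast, map_ofNat] at h1
      field_simp at h1
      linear_combination (-(Nat.card G : ℂ)) * h1
    have h3 := mul_left_cancel₀ hG h2
    exact_mod_cast h3
  have hagree : ∀ χ ∈ B, ∀ ψ ∈ B, ∀ x : G, ¬ 2 ∣ orderOf x →
      (χ : G → ℂ) x = (ψ : G → ℂ) x := by
    intro χ hχ ψ hψ
    obtain ⟨e, he⟩ : ∃ e : ℤ, e = n χ ψ := ⟨_, rfl⟩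
    have he2 : e ^ 2 = 1 := by
      rw [he]
      exact hsq χ ((hBF χ).mpr hχ) ψ ((hBF ψ).mpr hψ)
    have key : ∑ x : G, (if ¬ 2 ∣ orderOf x then
          ((χ : G → ℂ) x - (e : ℂ) * (ψ : G → ℂ) x)
            * conj ((χ : G → ℂ) x - (e : ℂ) * (ψ : G → ℂ) x) else 0)
        = Helper77.pregInner 2 (χ : G → ℂ) (χ : G → ℂ)
          - (e : ℂ) * Helper77.pregInner 2 (χ : G → ℂ) (ψ : G → ℂ)
          - (e : ℂ) * Helper77.pregInner 2 (ψ : G → ℂ) (χ : G → ℂ)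
          + (e : ℂ) * (e : ℂ) * Helper77.pregInner 2 (ψ : G → ℂ) (ψ : G → ℂ) := by
      unfold Helper77.pregInner
      rw [Finset.mul_sum, Finset.mul_sum, Finset.mul_sum, ← Finset.sum_sub_distrib,
        ← Finset.sum_sub_distrib, ← Finset.sum_add_distrib]
      refine Finset.sum_congr rfl fun x _ => ?_
      by_cases hx : 2 ∣ orderOf x
      · simp only [if_neg (not_not.mpr hx)]
        ring
      · simp only [if_pos hx]
        rw [map_sub, map_mul, map_intCast]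
        ring
    rw [hpI χ hχ χ, hpI χ hχ ψ, hpI ψ hψ χ, hpI ψ hψ ψ, hsymm χ hχ ψ hψ, ← he,
      hdiag χ ((hBF χ).mpr hχ), hdiag ψ ((hBF ψ).mpr hψ)] at key
    have hz : (Nat.card G : ℂ) * ((1 : ℤ) : ℂ) / 4 - (e : ℂ) * ((Nat.card G : ℂ) * (e : ℂ) / 4)
        - (e : ℂ) * ((Nat.card G : ℂ) * (e : ℂ) / 4)
        + (e : ℂ) * (e : ℂ) * ((Nat.card G : ℂ) * ((1 : ℤ) : ℂ) / 4) = 0 := by
      have h3 : ((e : ℤ) : ℂ) ^ 2 = 1 := by exact_mod_cast he2
      push_cast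
      linear_combination (-(Nat.card G : ℂ) / 4) * h3
    rw [hz] at key
    have hr : ∀ x : G, (if ¬ 2 ∣ orderOf x then
          ((χ : G → ℂ) x - (e : ℂ) * (ψ : G → ℂ) x)
            * conj ((χ : G → ℂ) x - (e : ℂ) * (ψ : G → ℂ) x) else 0)
        = (((if ¬ 2 ∣ orderOf x then
            Complex.normSq ((χ : G → ℂ) x - (e : ℂ) * (ψ : G → ℂ) x) else 0 : ℝ)) : ℂ) := by
      intro x
      by_cases hx : 2 ∣ orderOf x
      · rw [if_neg (not_not.mpr hx), if_neg (not_not.mpr hx)]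
        simp
      · rw [if_pos hx, if_pos hx, Complex.mul_conj]
    rw [Finset.sum_congr rfl (fun x _ => hr x), ← Complex.ofReal_sum] at key
    have key' := Complex.ofReal_eq_zero.mp key
    rw [Finset.sum_eq_zero_iff_of_nonneg] at key'
    swap
    · intro x _
      by_cases hx : 2 ∣ orderOf x
      · rw [if_neg (not_not.mpr hx)]
      · rw [if_pos hx]
        exact Complex.normSq_nonneg _
    have hval : ∀ x : G, ¬ 2 ∣ orderOf x → (χ : G → ℂ) x = (e : ℂ) * (ψ : G → ℂ) x := by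
      intro x hx
      have h1 := key' x (Finset.mem_univ x)
      rw [if_pos hx] at h1
      exact sub_eq_zero.mp (Complex.normSq_eq_zero.mp h1)
    have he1 : e = 1 := by
      have h2 : (e - 1) * (e + 1) = 0 := by linear_combination he2
      rcases mul_eq_zero.mp h2 with h | h
      · omega
      · exfalso
        have he' : e = -1 := by omega
        obtain ⟨a, ha, hχ1⟩ := irr_one_eq χ
        obtain ⟨b, hb, hψ1⟩ := irr_one_eq ψ
        have h3 := hval 1 (by rw [orderOf_one]; norm_num)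
        rw [hχ1, hψ1, he'] at h3
        have h4 : ((a + b : ℕ) : ℂ) = 0 := by
          push_cast at h3 ⊢
          linear_combination h3
        have h5 : a + b = 0 := by exact_mod_cast h4
        omega
    intro x hx
    rw [hval x hx, he1]
    push_cast
    ring
  refine ⟨by rw [hcardB, hc4]; norm_num, hagree, ?_⟩
  intro χ hχ
  rw [hpI χ hχ χ, hdiag χ ((hBF χ).mpr hχ)]
  push_cast
  ring

end Cfsg.Agent.Helper81
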