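import Cfsg.Agent.Helper81.PerfW
import Cfsg.Agent.Helper81.KleinFormula
import Cfsg.Agent.Helper81.ClassAlgebra
import Cfsg.Agent.Helper81.BlockDefect

/-!
# Subsections of a block with a Klein four defect group

Let `(P, c₀)` be a maximal Brauer pair of the `2`-block `B`, `P` a Klein four group, `u ≠ 1` a
`2`-element and `f` a block of `C_G(u)` inducing `B`.  Then all members of `f` agree on the
`2`-regular elements of `C_G(u)` (call the common function `φ`), and the `f`-part of
`c ↦ χ(u c)` is `δ_χ φ` on the `2`-regular elements, with `δ ∈ kpW B` a sign vector.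

* `kp_subsection`: the statement above, with the integrality of `4 φ(s) / |C(s)|`.
-/

set_option autoImplicit false
open Cfsg
open scoped ComplexConjugate

namespace Cfsg.Agent.Helper81

universe u

theorem kp_pregInner_congr {K : Type u} [Group K] [Fintype K] (p : ℕ) {F F' E E' : K → ℂ}
    (h : ∀ x, ¬ p ∣ orderOf x → F x = F' x) (h' : ∀ x, ¬ p ∣ orderOf x → E x = E' x) :
    Helper77.pregInner p F E = Helper77.pregInner p F' E' := by
  unfold Helper77.pregInner
  refine Finset.sum_congr rfl fun x _ => ?_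
  by_cases hx : p ∣ orderOf x
  · rw [if_neg (not_not.mpr hx), if_neg (not_not.mpr hx)]
  · rw [if_pos hx, if_pos hx, h x hx, h' x hx]

theorem kp_pregInner_smul {K : Type u} [Group K] [Fintype K] (p : ℕ) (a b : ℂ) (F E : K → ℂ) :
    Helper77.pregInner p (fun x => a * F x) (fun x => b * E x)
      = a * conj b * Helper77.pregInner p F E := by
  unfold Helper77.pregInner
  rw [Finset.mul_sum]
  refine Finset.sum_congr rfl fun x _ => ?_
  by_cases hx : p ∣ orderOf x
  · rw [if_neg (not_not.mpr hx), if_neg (not_not.mpr hx), mul_zero]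
  · rw [if_pos hx, if_pos hx, map_mul]
    ring

variable {G : Type u} [Group G]

/-- If `u ≠ 1` is a `2`-element commuting with `h` and `u h` has odd order, then `h` has even
order. -/
theorem kp_singular_of_mul_regular {u h : G} (hcomm : u * h = h * u) (hu1 : u ≠ 1)
    (hu : ∃ k : ℕ, orderOf u = 2 ^ k) (hreg : ¬ 2 ∣ orderOf (u * h)) : 2 ∣ orderOf h := by
  by_contra hh
  obtain ⟨k, hk⟩ := hu
  have hk0 : k ≠ 0 := by
    rintro rfl
    rw [pow_zero, orderOf_eq_one_iff] at hk
    exact hu1 hk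
  have hc0 : Commute (u * h) h := by
    show u * h * h = h * (u * h)
    rw [← mul_assoc, hcomm]
  have hc : Commute (u * h) h⁻¹ := hc0.inv_right
  have h1 := hc.orderOf_mul_dvd_lcm
  rw [mul_inv_cancel_right, orderOf_inv, hk] at h1
  have h2 : 2 ∣ Nat.lcm (orderOf (u * h)) (orderOf h) := dvd_trans (dvd_pow_self 2 hk0) h1
  have h3 : 2 ∣ orderOf (u * h) * orderOf h := dvd_trans h2 (Nat.lcm_dvd_mul _ _)
  rcases (Nat.Prime.dvd_mul Nat.prime_two).mp h3 with h4 | h4
  · exact hreg h4
  · exact hh h4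

variable [Fintype G]

/-- The blocks of the centralizer of a nontrivial `2`-element inducing `B`: defect two and one
irreducible Brauer character. -/
theorem kp_sub_data {M : Ideal Cfsg.AlgInt} (hM : Cfsg.IsPModular 2 M)
    {B : Set (Cfsg.IrrCharacter G)} {P : Subgroup G}
    {c₀ : Set (Cfsg.IrrCharacter (Subgroup.centralizer (P : Set G)))}
    (hmax : Cfsg.IsMaximalBrauerPair 2 M B P c₀) (hcard : Nat.card P = 4)
    (hexp : ∀ u ∈ P, u * u = 1) {u : G} (hu1 : u ≠ 1) (hu : ∃ k : ℕ, orderOf u = 2 ^ k)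
    (H : Subgroup G) (hH : H = Subgroup.centralizer (Subgroup.zpowers u : Set G))
    (f : Set (Cfsg.IrrCharacter H)) (hind : Cfsg.IsInducedBlock M H f B) :
    u * u = 1 ∧ Cfsg.blockDefect 2 f = 2 ∧ Cfsg.blockRank 2 f = 1 := by
  subst hH
  have hpf : Fact (Nat.Prime 2) := ⟨hM.1⟩
  have hP : IsPGroup 2 (Subgroup.zpowers u) := by
    obtain ⟨k, hk⟩ := hu
    exact IsPGroup.of_card (n := k) (by rw [Nat.card_zpowers, hk])
  obtain ⟨g, hR⟩ := kf_R_surj hM hmax hP hind
  exact kf_block_data hM hmax hcard hexp hu1 hR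

/-- **Subsections of a Klein four block.** -/
theorem kp_subsection {M : Ideal Cfsg.AlgInt} (hM : Cfsg.IsPModular 2 M)
    {B : Set (Cfsg.IrrCharacter G)} (hB : Cfsg.IsPBlock M B) {P : Subgroup G}
    {c₀ : Set (Cfsg.IrrCharacter (Subgroup.centralizer (P : Set G)))}
    (hmax : Cfsg.IsMaximalBrauerPair 2 M B P c₀) (hcard : Nat.card P = 4)
    (hexp : ∀ u ∈ P, u * u = 1) (u : G) (hu1 : u ≠ 1) (hu : ∃ k : ℕ, orderOf u = 2 ^ k)
    (f : Set (Cfsg.IrrCharacter (Subgroup.centralizer ({u} : Set G))))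
    (hind : Cfsg.IsInducedBlock M (Subgroup.centralizer ({u} : Set G)) f B) :
    ∃ (δ : Cfsg.IrrCharacter G → ℤ) (φ : Subgroup.centralizer ({u} : Set G) → ℂ),
      δ ∈ kpW B ∧
      (∀ s : Subgroup.centralizer ({u} : Set G), ¬ 2 ∣ orderOf s →
        Cfsg.MemLocalRing M (φ s) ∧ Cfsg.MemLocalRing M (4 * φ s
          / (Nat.card (Subgroup.centralizer
              ({s} : Set (Subgroup.centralizer ({u} : Set G)))) : ℂ))) ∧
      ∀ (χ : Cfsg.IrrCharacter G) (s : Subgroup.centralizer ({u} : Set G)), ¬ 2 ∣ orderOf s →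
        Cfsg.blockPart f (fun c : Subgroup.centralizer ({u} : Set G) => (χ : G → ℂ) (u * c)) s
          = (δ χ : ℂ) * φ s := by
  classical
  have hpf : Fact (Nat.Prime 2) := ⟨hM.1⟩
  have hMm := hM.2.1
  have hMp : M.IsPrime := hMm.isPrime
  let _ : Fintype (Subgroup.centralizer ({u} : Set G)) := Fintype.ofFinite _
  have := Fintype.ofFinite (Cfsg.IrrCharacter G)
  have := Fintype.ofFinite (Cfsg.IrrCharacter (Subgroup.centralizer ({u} : Set G)))
  obtain ⟨hu2, hdf, hlf⟩ := kp_sub_data hM hmax hcard hexp hu1 hu _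
    (Helper78.centralizer_zpowers_eq u).symm f hind
  have hf := hind.1
  obtain ⟨hcf, hagree, hnorm⟩ := kp_rank_one hM hf hdf hlf
  obtain ⟨θ₀, hθ₀⟩ := Helper77.block_nonempty hMm hf
  have huH : u ∈ Subgroup.centralizer ({u} : Set G) := by
    rw [Subgroup.mem_centralizer_iff]
    intro s hs
    rw [Set.mem_singleton_iff] at hs
    rw [hs]
  have hcent : ∀ h : Subgroup.centralizer ({u} : Set G), u * (h : G) = (h : G) * u :=
    fun c => Subgroup.mem_centralizer_iff.mp c.2 u rfl
  have hcardH : (Nat.card (Subgroup.centralizer ({u} : Set G)) : ℂ) ≠ 0 := by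
    have : 0 < Nat.card (Subgroup.centralizer ({u} : Set G)) := Nat.card_pos
    exact_mod_cast this.ne'
  have hone : ¬ 2 ∣ orderOf (1 : Subgroup.centralizer ({u} : Set G)) := by
    rw [orderOf_one]
    norm_num
  -- the defect of `B` and `k(B) = 4`
  have hPD := Helper77.isDefectGroup_of_isMaximalBrauerPair hM B P c₀ hmax
  have hdB : Cfsg.blockDefect 2 B = 2 := by
    have hd := Helper77.card_of_isDefectGroup hM hB hPD
    rw [hcard] at hd
    have h4 : (2 : ℕ) ^ 2 = 2 ^ Cfsg.blockDefect 2 B := by rw [← hd]; norm_num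
    exact (Nat.pow_right_injective le_rfl h4).symm
  have hkB : Nat.card B = 2 ^ 2 :=
    kf_card_of_major hM hB hdB le_rfl u hu2 _ rfl f hind hdf hlf
  obtain ⟨BF, hBFdef⟩ : ∃ BF : Finset (Cfsg.IrrCharacter G),
      BF = Finset.univ.filter (fun χ : Cfsg.IrrCharacter G => χ ∈ B) := ⟨_, rfl⟩
  have hBF : ∀ χ, χ ∈ BF ↔ χ ∈ B := by
    intro χ
    rw [hBFdef]
    simp
  have hcardB : BF.card = 4 := by
    rw [hBFdef, ← Fintype.card_subtype, ← Nat.card_eq_fintype_card, hkB]
    norm_num
  obtain ⟨fF, hfFdef⟩ : ∃ fF : Finset (Cfsg.IrrCharacter (Subgroup.centralizer ({u} : Set G))),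
      fF = Finset.univ.filter
        (fun θ : Cfsg.IrrCharacter (Subgroup.centralizer ({u} : Set G)) => θ ∈ f) := ⟨_, rfl⟩
  have hfF : ∀ θ, θ ∈ fF ↔ θ ∈ f := by
    intro θ
    rw [hfFdef]
    simp
  -- the coefficients
  choose a ha using fun (χ : Cfsg.IrrCharacter G)
    (θ : Cfsg.IrrCharacter (Subgroup.centralizer ({u} : Set G))) =>
      kf_secCoeff_int (Subgroup.centralizer ({u} : Set G)) u huH hcent hu2 χ θ
  obtain ⟨δ, hδ⟩ : ∃ δ : Cfsg.IrrCharacter G → ℤ, ∀ χ, δ χ = ∑ θ ∈ fF, a χ θ :=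
    ⟨_, fun _ => rfl⟩
  -- the block parts
  have hpart : ∀ (χ : Cfsg.IrrCharacter G) (s : Subgroup.centralizer ({u} : Set G)),
      ¬ 2 ∣ orderOf s →
      Cfsg.blockPart f (fun c : Subgroup.centralizer ({u} : Set G) => (χ : G → ℂ) (u * c)) s
        = (δ χ : ℂ) * (θ₀ : Subgroup.centralizer ({u} : Set G) → ℂ) s := by
    intro χ s hs
    rw [Helper75.blockPart_filter_apply, ← hfFdef, hδ]
    push_cast
    rw [Finset.sum_mul]
    refine Finset.sum_congr rfl fun θ hθ => ?_
    rw [ha χ θ, hagree θ ((hfF θ).mp hθ) θ₀ hθ₀ s hs]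
  -- the contributions
  have hcontr : ∀ χ : Cfsg.IrrCharacter G,
      Helper75.contrib (Subgroup.centralizer ({u} : Set G)) u f 2 2 (χ : G → ℂ) (χ : G → ℂ)
        = (((δ χ) ^ 2 : ℤ) : ℂ) := by
    intro χ
    unfold Helper75.contrib
    rw [kp_pregInner_congr 2
      (F' := fun s => (δ χ : ℂ) * (θ₀ : Subgroup.centralizer ({u} : Set G) → ℂ) s)
      (E' := fun s => (δ χ : ℂ) * (θ₀ : Subgroup.centralizer ({u} : Set G) → ℂ) s)
      (hpart χ) (hpart χ), kp_pregInner_smul, hnorm θ₀ hθ₀, map_intCast]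
    push_cast
    field_simp
    ring
  have htrace := Helper75.contrib_trace hM u hu B f hind BF hBF 2
  rw [hlf, Finset.sum_congr rfl (fun χ _ => hcontr χ)] at htrace
  have hsum : ∑ χ ∈ BF, (δ χ) ^ 2 = BF.card := by
    rw [hcardB]
    have h1 : ((∑ χ ∈ BF, (δ χ) ^ 2 : ℤ) : ℂ) = ((4 : ℤ) : ℂ) := by
      push_cast
      push_cast at htrace
      rw [htrace]
      norm_num
    exact_mod_cast h1
  have hne : ∀ χ ∈ BF, δ χ ≠ 0 := by
    intro χ hχ h0
    have hχB := (hBF χ).mp hχ
    have hh := kf_height_zero hM hB (by omega) hχB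
    apply Helper75.contrib_not_memLocalIdeal (Subgroup.centralizer ({u} : Set G)) hM u huH hcent
      hu hind hdf hχB hh hχB hh
    rw [hcontr χ, h0]
    simpa using memLocalIdeal_zero hMm.ne_top
  have hsq : ∀ χ ∈ BF, (δ χ) ^ 2 = 1 :=
    kp_all_one BF (fun χ => (δ χ) ^ 2)
      (fun χ hχ => Helper73.one_le_sq_of_ne_zero (hne χ hχ)) hsum
  have hsign : ∀ χ ∈ B, δ χ = 1 ∨ δ χ = -1 := by
    intro χ hχ
    have h1 := hsq χ ((hBF χ).mpr hχ)
    have h2 : (δ χ - 1) * (δ χ + 1) = 0 := by linear_combination h1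
    rcases mul_eq_zero.mp h2 with h | h
    · left; omega
    · right; omega
  -- the kernel property
  have hker : ∀ x : G, ¬ 2 ∣ orderOf x → ∑ χ ∈ BF, (δ χ : ℂ) * (χ : G → ℂ) x = 0 := by
    intro x hx
    have hy : ¬ 2 ∣ orderOf x⁻¹ := by rwa [orderOf_inv]
    have e1 : ∀ χ ∈ BF, (θ₀ : Subgroup.centralizer ({u} : Set G) → ℂ) 1
          * ((δ χ : ℂ) * (χ : G → ℂ) x)
        = ∑ θ ∈ fF, ∑ h : Subgroup.centralizer ({u} : Set G),
            (Nat.card (Subgroup.centralizer ({u} : Set G)) : ℂ)⁻¹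
              * ((χ : G → ℂ) (u * (h : G)) * conj ((χ : G → ℂ) x⁻¹)
                * ((θ : Subgroup.centralizer ({u} : Set G) → ℂ) 1
                  * conj ((θ : Subgroup.centralizer ({u} : Set G) → ℂ) h))) := by
      intro χ _
      rw [hδ]
      push_cast
      rw [Finset.sum_mul, Finset.mul_sum]
      refine Finset.sum_congr rfl fun θ hθ => ?_
      rw [← ha χ θ, ← hagree θ ((hfF θ).mp hθ) θ₀ hθ₀ 1 hone, Helper77.irr_inv χ x,
        Complex.conj_conj]
      unfold Cfsg.classInner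
      rw [Finset.mul_sum, Finset.sum_mul, Finset.mul_sum]
      refine Finset.sum_congr rfl fun h _ => ?_
      ring
    have hexpand : (θ₀ : Subgroup.centralizer ({u} : Set G) → ℂ) 1
          * ∑ χ ∈ BF, (δ χ : ℂ) * (χ : G → ℂ) x
        = ∑ h : Subgroup.centralizer ({u} : Set G),
            (Nat.card (Subgroup.centralizer ({u} : Set G)) : ℂ)⁻¹
              * ((∑ χ ∈ BF, (χ : G → ℂ) (u * (h : G)) * conj ((χ : G → ℂ) x⁻¹))
                * (∑ θ ∈ fF, (θ : Subgroup.centralizer ({u} : Set G) → ℂ) 1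
                  * conj ((θ : Subgroup.centralizer ({u} : Set G) → ℂ) h))) := by
      rw [Finset.mul_sum, Finset.sum_congr rfl e1]
      have e2 : ∀ h : Subgroup.centralizer ({u} : Set G),
          (Nat.card (Subgroup.centralizer ({u} : Set G)) : ℂ)⁻¹
              * ((∑ χ ∈ BF, (χ : G → ℂ) (u * (h : G)) * conj ((χ : G → ℂ) x⁻¹))
                * (∑ θ ∈ fF, (θ : Subgroup.centralizer ({u} : Set G) → ℂ) 1
                  * conj ((θ : Subgroup.centralizer ({u} : Set G) → ℂ) h)))
            = ∑ χ ∈ BF, ∑ θ ∈ fF, (Nat.card (Subgroup.centralizer ({u} : Set G)) : ℂ)⁻¹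
              * ((χ : G → ℂ) (u * (h : G)) * conj ((χ : G → ℂ) x⁻¹)
                * ((θ : Subgroup.centralizer ({u} : Set G) → ℂ) 1
                  * conj ((θ : Subgroup.centralizer ({u} : Set G) → ℂ) h))) := by
        intro h
        rw [Finset.sum_mul_sum, Finset.mul_sum]
        refine Finset.sum_congr rfl fun χ _ => ?_
        rw [Finset.mul_sum]
      rw [Finset.sum_congr rfl (fun h _ => e2 h)]
      conv_rhs => rw [Finset.sum_comm]
      refine Finset.sum_congr rfl fun χ _ => ?_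
      rw [Finset.sum_comm]
    have hzero : ∀ h : Subgroup.centralizer ({u} : Set G),
        (Nat.card (Subgroup.centralizer ({u} : Set G)) : ℂ)⁻¹
          * ((∑ χ ∈ BF, (χ : G → ℂ) (u * (h : G)) * conj ((χ : G → ℂ) x⁻¹))
            * (∑ θ ∈ fF, (θ : Subgroup.centralizer ({u} : Set G) → ℂ) 1
              * conj ((θ : Subgroup.centralizer ({u} : Set G) → ℂ) h))) = 0 := by
      intro h
      by_cases hs : 2 ∣ orderOf (u * (h : G))
      · have h1 := Helper77.weak_block_orthogonality hM hB hy hs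
        rw [finsum_mem_eq_sum_filter_univ, ← hBFdef] at h1
        have h2 : ∑ χ ∈ BF, (χ : G → ℂ) (u * (h : G)) * conj ((χ : G → ℂ) x⁻¹)
            = conj (∑ χ ∈ BF, (χ : G → ℂ) x⁻¹ * conj ((χ : G → ℂ) (u * (h : G)))) := by
          rw [map_sum]
          refine Finset.sum_congr rfl fun χ _ => ?_
          rw [map_mul, Complex.conj_conj, mul_comm]
        rw [h2, h1, map_zero, zero_mul, mul_zero]
      · have hh : 2 ∣ orderOf h := by
          have h0 := kp_singular_of_mul_regular (hcent h) hu1 hu hs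
          rwa [Subgroup.orderOf_coe] at h0
        have h1 := Helper77.weak_block_orthogonality hM hf
          (x := (1 : Subgroup.centralizer ({u} : Set G))) (y := h) hone hh
        rw [finsum_mem_eq_sum_filter_univ, ← hfFdef] at h1
        rw [h1, mul_zero, mul_zero]
    simp only [hzero, Finset.sum_const_zero] at hexpand
    exact (mul_eq_zero.mp hexpand).resolve_left (irr_one_ne_zero θ₀)
  refine ⟨δ, (θ₀ : Subgroup.centralizer ({u} : Set G) → ℂ), ?_, ?_, hpart⟩
  · rw [kp_mem_W_iff, ← hBFdef]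
    exact ⟨hsign, hker⟩
  · intro s _
    refine ⟨memLocalRing_of_isIntegral hMm.ne_top (irr_isIntegral θ₀ s), ?_⟩
    have hcs : (Nat.card (Subgroup.centralizer
        ({s} : Set (Subgroup.centralizer ({u} : Set G)))) : ℂ) ≠ 0 := by
      have : 0 < Nat.card (Subgroup.centralizer
        ({s} : Set (Subgroup.centralizer ({u} : Set G)))) := Nat.card_pos
      exact_mod_cast this.ne'
    have h1 : 4 * (θ₀ : Subgroup.centralizer ({u} : Set G) → ℂ) s
          / (Nat.card (Subgroup.centralizer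
              ({s} : Set (Subgroup.centralizer ({u} : Set G)))) : ℂ)
        = Cfsg.centralChar (θ₀ : Subgroup.centralizer ({u} : Set G) → ℂ) s
          * Helper75.defWeight 2 2 (θ₀ : Subgroup.centralizer ({u} : Set G) → ℂ) := by
      unfold Cfsg.centralChar Helper75.defWeight
      have hidx : (Nat.card (Subgroup.centralizer ({u} : Set G)) : ℂ)
          = ((Subgroup.centralizer
              ({s} : Set (Subgroup.centralizer ({u} : Set G)))).index : ℂ)
            * (Nat.card (Subgroup.centralizer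
              ({s} : Set (Subgroup.centralizer ({u} : Set G)))) : ℂ) := by
        rw [← Nat.cast_mul, mul_comm, Subgroup.card_mul_index]
      have hθ1 := irr_one_ne_zero θ₀
      have hix : ((Subgroup.centralizer
          ({s} : Set (Subgroup.centralizer ({u} : Set G)))).index : ℂ) ≠ 0 := by
        intro h0
        rw [h0, zero_mul] at hidx
        exact hcardH hidx
      rw [hidx]
      field_simp
      ring
    rw [h1]
    exact Helper77.memLocalRing_mul hMm
      (memLocalRing_of_isIntegral hMm.ne_top (centralChar_isIntegral θ₀ s))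
      (Helper75.defWeight_memLocalRing hM hf hdf hθ₀)

end Cfsg.Agent.Helper81
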