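import Cfsg.Agent.Helper81.KleinFour
import Cfsg.Agent.Helper81.LocalRing
import Cfsg.Agent.Helper76.CentralChar
import Cfsg.Agent.Helper79.Basic
import Cfsg.Agent.Helper15.CharInner
import Cfsg.Agent.Helper77.LocalRing

/-!
# Combinations of irreducible characters vanishing on the `p`-singular elements

If `ψ = ∑ a_χ χ` with local integers `a_χ` vanishes on the `p`-singular elements, then
`ψ(x) / |C_G(x)|` is a local integer for every `p`-regular `x`.

* `kp_central_scalar_integral`: a central element acts on an irreducible character by an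
  algebraic integer scalar.
* `kp_sum_translate`: `∑_{q ∈ Q} χ(x q) ∈ |Q| · (algebraic integers)` for `Q ≤ C_G(x)`.
* `kp_div_centralizer`: the divisibility statement.
-/

set_option autoImplicit false
open Cfsg
open scoped ComplexConjugate

namespace Cfsg.Agent.Helper81

universe u

theorem kp_central_scalar_integral {C : Type u} [Group C] [Finite C] (z : C)
    (hz : z ∈ Subgroup.center C) (ζ : Cfsg.IrrCharacter C) :
    ∃ c : ℂ, IsIntegral ℤ c ∧ ∀ g : C, (ζ : C → ℂ) (z * g) = c * (ζ : C → ℂ) g := by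
  obtain ⟨c, hc⟩ := Helper76.exists_central_scalar (Subgroup.center C).subtype (fun w => w.2) ζ
  obtain ⟨hc1, hcmul⟩ := Helper76.scalar_mul (Subgroup.center C).subtype (ζ : C → ℂ)
    (irr_one_ne_zero ζ) c hc
  have hpow : ∀ n : ℕ, c ((⟨z, hz⟩ : Subgroup.center C) ^ n) = c ⟨z, hz⟩ ^ n := by
    intro n
    induction n with
    | zero => rw [pow_zero, pow_zero, hc1]
    | succ n ih => rw [pow_succ, pow_succ, hcmul, ih]
  refine ⟨c ⟨z, hz⟩, ?_, ?_⟩
  · have hpos : 0 < orderOf (⟨z, hz⟩ : Subgroup.center C) := orderOf_pos _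
    apply IsIntegral.of_pow hpos
    rw [← hpow, pow_orderOf_eq_one, hc1]
    exact isIntegral_one
  · intro g
    have h1 := hc ⟨z, hz⟩ g
    rw [← h1]
    show (ζ : C → ℂ) (z * g) = (ζ : C → ℂ) (g * z)
    rw [Subgroup.mem_center_iff.mp hz g]

variable {G : Type u} [Group G] [Fintype G]

/-- The sum of `χ(x q)` over a subgroup `Q` of `C_G(x)` is `|Q|` times an algebraic integer. -/
theorem kp_sum_translate (χ : Cfsg.IrrCharacter G) (x : G)
    (Q : Subgroup (Subgroup.centralizer ({x} : Set G))) [Fintype Q] :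
    ∃ z : ℂ, IsIntegral ℤ z ∧
      ∑ q : Q, (χ : G → ℂ) (x * ((q : Subgroup.centralizer ({x} : Set G)) : G))
        = (Nat.card Q : ℂ) * z := by
  classical
  let _ : Fintype (Subgroup.centralizer ({x} : Set G)) := Fintype.ofFinite _
  have := Fintype.ofFinite (Cfsg.IrrCharacter (Subgroup.centralizer ({x} : Set G)))
  have hxC : x ∈ Subgroup.centralizer ({x} : Set G) := by
    rw [Subgroup.mem_centralizer_iff]
    intro s hs
    rw [Set.mem_singleton_iff] at hs
    rw [hs]
  have hcen : (⟨x, hxC⟩ : Subgroup.centralizer ({x} : Set G))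
      ∈ Subgroup.center (Subgroup.centralizer ({x} : Set G)) := by
    rw [Subgroup.mem_center_iff]
    intro w
    apply Subtype.ext
    show (w : G) * x = x * (w : G)
    exact (Subgroup.mem_centralizer_iff.mp w.2 x rfl).symm
  have hcl : Cfsg.IsClassFunction (Subgroup.centralizer ({x} : Set G))
      (fun c : Subgroup.centralizer ({x} : Set G) => (χ : G → ℂ) c) :=
    fun c d => irr_conj χ _ _
  have hexp := Helper15.classFun_eq_sum hcl
  choose n hn using fun ζ : Cfsg.IrrCharacter (Subgroup.centralizer ({x} : Set G)) =>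
    Helper3.classInner_isCharacter_nat
      (Helper79.isCharacter_restrict (Helper79.irr_isCharacter χ)
        (Subgroup.centralizer ({x} : Set G))) (Helper79.irr_isCharacter ζ)
  choose c hcint hc using fun ζ : Cfsg.IrrCharacter (Subgroup.centralizer ({x} : Set G)) =>
    kp_central_scalar_integral (⟨x, hxC⟩ : Subgroup.centralizer ({x} : Set G)) hcen ζ
  choose m hm using fun ζ : Cfsg.IrrCharacter (Subgroup.centralizer ({x} : Set G)) =>
    exists_nat_sum_subgroup ζ Q
  refine ⟨∑ ζ : Cfsg.IrrCharacter (Subgroup.centralizer ({x} : Set G)),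
      (n ζ : ℂ) * c ζ * (m ζ : ℂ),
    IsIntegral.sum _ (fun ζ _ => ((isIntegral_natCast _).mul (hcint ζ)).mul
      (isIntegral_natCast _)), ?_⟩
  have h1 : ∀ q : Q, (χ : G → ℂ) (x * ((q : Subgroup.centralizer ({x} : Set G)) : G))
      = ∑ ζ : Cfsg.IrrCharacter (Subgroup.centralizer ({x} : Set G)),
          (n ζ : ℂ) * (c ζ * (ζ : Subgroup.centralizer ({x} : Set G) → ℂ) q) := by
    intro q
    have h2 := congrFun hexp ((⟨x, hxC⟩ : Subgroup.centralizer ({x} : Set G)) * q)
    simp only [Finset.sum_apply, Pi.smul_apply, smul_eq_mul] at h2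
    have h3 : x * ((q : Subgroup.centralizer ({x} : Set G)) : G)
        = (((⟨x, hxC⟩ : Subgroup.centralizer ({x} : Set G)) * q
            : Subgroup.centralizer ({x} : Set G)) : G) := rfl
    rw [h3, h2]
    refine Finset.sum_congr rfl fun ζ _ => ?_
    rw [hn ζ, hc ζ]
  rw [Finset.sum_congr rfl (fun q _ => h1 q), Finset.sum_comm, Finset.mul_sum]
  refine Finset.sum_congr rfl fun ζ _ => ?_
  rw [← Finset.mul_sum, ← Finset.mul_sum, hm ζ]
  ring

/-- **Divisibility by the centralizer order.**  A combination with local integer coefficients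
of irreducible characters which vanishes on the `p`-singular elements takes at `x` a value
divisible by `|C_G(x)|` in the local ring. -/
theorem kp_div_centralizer {p : ℕ} {M : Ideal Cfsg.AlgInt} (hM : Cfsg.IsPModular p M)
    {ι : Type*} (S : Finset ι) (a : ι → ℂ) (X : ι → Cfsg.IrrCharacter G)
    (ha : ∀ χ ∈ S, Cfsg.MemLocalRing M (a χ))
    (hvan : ∀ y : G, p ∣ orderOf y → ∑ χ ∈ S, a χ * (X χ : G → ℂ) y = 0) (x : G)
    (hx : ¬ p ∣ orderOf x) :
    Cfsg.MemLocalRing M ((∑ χ ∈ S, a χ * (X χ : G → ℂ) x)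
      / (Nat.card (Subgroup.centralizer ({x} : Set G)) : ℂ)) := by
  classical
  have hpf : Fact p.Prime := ⟨hM.1⟩
  have hMm := hM.2.1
  haveI hMp : M.IsPrime := hMm.isPrime
  let _ : Fintype (Subgroup.centralizer ({x} : Set G)) := Fintype.ofFinite _
  obtain ⟨Q⟩ : Nonempty (Sylow p (Subgroup.centralizer ({x} : Set G))) := inferInstance
  let _ : Fintype (Q : Subgroup (Subgroup.centralizer ({x} : Set G))) := Fintype.ofFinite _
  have hidx : ¬ p ∣ (Q : Subgroup (Subgroup.centralizer ({x} : Set G))).index :=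
    Sylow.not_dvd_index Q
  have hcardC : (Nat.card (Subgroup.centralizer ({x} : Set G)) : ℂ)
      = (Nat.card (Q : Subgroup (Subgroup.centralizer ({x} : Set G))) : ℂ)
        * ((Q : Subgroup (Subgroup.centralizer ({x} : Set G))).index : ℂ) := by
    rw [← Nat.cast_mul, Subgroup.card_mul_index]
  have hQ0 : (Nat.card (Q : Subgroup (Subgroup.centralizer ({x} : Set G))) : ℂ) ≠ 0 := by
    have : 0 < Nat.card (Q : Subgroup (Subgroup.centralizer ({x} : Set G))) := Nat.card_pos
    exact_mod_cast this.ne'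
  have hi0 : ((Q : Subgroup (Subgroup.centralizer ({x} : Set G))).index : ℂ) ≠ 0 := by
    intro h0
    have h1 : (Q : Subgroup (Subgroup.centralizer ({x} : Set G))).index = 0 := by
      exact_mod_cast h0
    exact hidx (h1 ▸ dvd_zero p)
  -- singular translates
  have hsing : ∀ q : (Q : Subgroup (Subgroup.centralizer ({x} : Set G))), q ≠ 1 →
      p ∣ orderOf (x * ((q : Subgroup.centralizer ({x} : Set G)) : G)) := by
    intro q hq
    obtain ⟨j, hj⟩ := (IsPGroup.iff_orderOf.mp Q.isPGroup') q
    have hj0 : j ≠ 0 := by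
      rintro rfl
      rw [pow_zero, orderOf_eq_one_iff] at hj
      exact hq hj
    have hoq : orderOf ((q : Subgroup.centralizer ({x} : Set G)) : G) = p ^ j := by
      rw [Subgroup.orderOf_coe, Subgroup.orderOf_coe, hj]
    have hcomm : Commute x ((q : Subgroup.centralizer ({x} : Set G)) : G) :=
      Subgroup.mem_centralizer_iff.mp (q : Subgroup.centralizer ({x} : Set G)).2 x rfl
    have hco : Nat.Coprime (orderOf x) (orderOf ((q : Subgroup.centralizer ({x} : Set G)) : G)) := by
      rw [hoq]
      exact Nat.Coprime.pow_right j ((Nat.Prime.coprime_iff_not_dvd hM.1).mpr hx).symm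
    rw [hcomm.orderOf_mul_eq_mul_orderOf_of_coprime hco, hoq]
    exact dvd_mul_of_dvd_right (dvd_pow_self p hj0) _
  choose z hzint hz using fun χ : Cfsg.IrrCharacter G =>
    kp_sum_translate χ x (Q : Subgroup (Subgroup.centralizer ({x} : Set G)))
  have hsum1 : ∑ q : (Q : Subgroup (Subgroup.centralizer ({x} : Set G))),
      ∑ χ ∈ S, a χ * (X χ : G → ℂ) (x * ((q : Subgroup.centralizer ({x} : Set G)) : G))
        = ∑ χ ∈ S, a χ * (X χ : G → ℂ) x := by
    rw [Finset.sum_eq_single (1 : (Q : Subgroup (Subgroup.centralizer ({x} : Set G))))]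
    · refine Finset.sum_congr rfl fun χ _ => ?_
      have e : x * (((1 : (Q : Subgroup (Subgroup.centralizer ({x} : Set G))))
          : Subgroup.centralizer ({x} : Set G)) : G) = x := mul_one x
      rw [e]
    · intro q _ hq
      exact hvan _ (hsing q hq)
    · intro h
      exact absurd (Finset.mem_univ _) h
  have hsum2 : ∑ q : (Q : Subgroup (Subgroup.centralizer ({x} : Set G))),
      ∑ χ ∈ S, a χ * (X χ : G → ℂ) (x * ((q : Subgroup.centralizer ({x} : Set G)) : G))
        = (Nat.card (Q : Subgroup (Subgroup.centralizer ({x} : Set G))) : ℂ)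
          * ∑ χ ∈ S, a χ * z (X χ) := by
    rw [Finset.sum_comm, Finset.mul_sum]
    refine Finset.sum_congr rfl fun χ _ => ?_
    rw [← Finset.mul_sum, hz (X χ)]
    ring
  rw [← hsum1, hsum2, hcardC]
  have h3 : ((Nat.card (Q : Subgroup (Subgroup.centralizer ({x} : Set G))) : ℂ)
        * ∑ χ ∈ S, a χ * z (X χ))
        / ((Nat.card (Q : Subgroup (Subgroup.centralizer ({x} : Set G))) : ℂ)
          * ((Q : Subgroup (Subgroup.centralizer ({x} : Set G))).index : ℂ))
      = (∑ χ ∈ S, a χ * z (X χ))
        * (((Q : Subgroup (Subgroup.centralizer ({x} : Set G))).index : ℂ))⁻¹ := by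
    field_simp
  rw [h3]
  refine Helper77.memLocalRing_mul hMm ?_ (Helper77.memLocalRing_natCast_inv hM hidx)
  refine memLocalRing_sum S _ (fun χ hχ => ?_)
  exact Helper77.memLocalRing_mul hMm (ha χ hχ)
    (memLocalRing_of_isIntegral hMm.ne_top (hzint (X χ)))

end Cfsg.Agent.Helper81
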