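import Cfsg.Agent.Helper81.PerfW
import Cfsg.Agent.Helper81.PerfV
import Cfsg.Prelude.Def_BlockLocal

/-!
# Assembling a perfect isometry from local decompositions

`kpLocal M B`: every `2`-singular value of the members of `B` is a combination
`χ(x) = ∑_j δ_j(χ) a_j` with sign vectors `δ_j ∈ kpW B` and local integers `a_j` such that
`4 a_j / |C_G(x)|` is a local integer.

* `kp_assemble`: given `kpLocal` for `B` and `c` and a signed bijection `(I, ε) : c → B`
  transporting the sign kernels `kpW`, the pair `(I, ε)` is a perfect isometry.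
* `kp_isometry_one`: two `2`-blocks of defect two with `l = 1`.
* `kp_isometry_three`: two blocks with `k = 4`, `l = 3`.
-/

set_option autoImplicit false
open Cfsg
open scoped ComplexConjugate

namespace Cfsg.Agent.Helper81

universe u v

/-- Local decomposition of the `2`-singular values of a set of irreducible characters. -/
def kpLocal {G : Type u} [Group G] (M : Ideal Cfsg.AlgInt) (B : Set (Cfsg.IrrCharacter G)) :
    Prop :=
  ∀ x : G, 2 ∣ orderOf x →
    ∃ (ι : Type u) (S : Finset ι) (δ : ι → Cfsg.IrrCharacter G → ℤ) (a : ι → ℂ),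
      (∀ j ∈ S, δ j ∈ kpW B) ∧ (∀ j ∈ S, Cfsg.MemLocalRing M (a j)) ∧
      (∀ j ∈ S, Cfsg.MemLocalRing M
        (4 * a j / (Nat.card (Subgroup.centralizer ({x} : Set G)) : ℂ))) ∧
      ∀ χ ∈ B, (χ : G → ℂ) x = ∑ j ∈ S, (δ j χ : ℂ) * a j

theorem kp_exists_bij {α β : Type*} [Finite α] [Finite β] {c : Set α} {B : Set β}
    (hcard : Nat.card c = Nat.card B) (hne : B.Nonempty) : ∃ I : α → β, Set.BijOn I c B := by
  classical
  obtain ⟨e⟩ := (Finite.card_eq (α := ↥c) (β := ↥B)).mp hcard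
  obtain ⟨b₀, hb₀⟩ := hne
  refine ⟨fun a => if h : a ∈ c then (e ⟨a, h⟩ : β) else b₀, ?_, ?_, ?_⟩
  · intro a ha
    simp only [dif_pos ha]
    exact (e ⟨a, ha⟩).2
  · intro a ha a' ha' h
    simp only [dif_pos ha, dif_pos ha'] at h
    exact congrArg Subtype.val (e.injective (Subtype.ext h))
  · intro b hb
    refine ⟨(e.symm ⟨b, hb⟩ : α), (e.symm ⟨b, hb⟩).2, ?_⟩
    simp only [dif_pos (e.symm ⟨b, hb⟩).2]
    simp

theorem kp_sum_bij {α β : Type*} [Fintype α] [Fintype β] {c : Set α} {B : Set β}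
    [DecidablePred (fun a => a ∈ c)] [DecidablePred (fun b => b ∈ B)] {I : α → β}
    (hI : Set.BijOn I c B) {A : Type*} [AddCommMonoid A] (g : β → A) :
    ∑ a ∈ Finset.univ.filter (fun a => a ∈ c), g (I a)
      = ∑ b ∈ Finset.univ.filter (fun b => b ∈ B), g b := by
  refine Finset.sum_bij (fun a _ => I a) ?_ ?_ ?_ (fun _ _ => rfl)
  · intro a ha
    rw [Finset.mem_filter] at ha ⊢
    exact ⟨Finset.mem_univ _, hI.mapsTo ha.2⟩
  · intro a ha a' ha' h
    exact hI.injOn (Finset.mem_filter.mp ha).2 (Finset.mem_filter.mp ha').2 h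
  · intro b hb
    obtain ⟨a, ha, rfl⟩ := hI.surjOn (Finset.mem_filter.mp hb).2
    exact ⟨a, Finset.mem_filter.mpr ⟨Finset.mem_univ _, ha⟩, rfl⟩

variable {G : Type u} [Group G] [Fintype G] {H : Type v} [Group H] [Fintype H]

/-- **Assembly.** -/
theorem kp_assemble {M : Ideal Cfsg.AlgInt} (hM : Cfsg.IsPModular 2 M)
    {B : Set (Cfsg.IrrCharacter G)} {c : Set (Cfsg.IrrCharacter H)}
    (hLB : kpLocal M B) (hLc : kpLocal M c)
    (I : Cfsg.IrrCharacter H → Cfsg.IrrCharacter G) (ε : Cfsg.IrrCharacter H → ℤ)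
    (hI : Set.BijOn I c B) (hε : ∀ η ∈ c, ε η = 1 ∨ ε η = -1)
    (hA : ∀ w ∈ kpW c, ∀ x : G, ¬ 2 ∣ orderOf x →
      ∑ᶠ η ∈ c, ((ε η * w η : ℤ) : ℂ) * (I η : G → ℂ) x = 0)
    (hBc : ∀ w ∈ kpW B, (fun η => ε η * w (I η)) ∈ kpW c)
    (hdiv : ∀ w ∈ kpW c, ∀ w' ∈ kpW c, ∃ m : ℤ,
      ∑ᶠ η ∈ c, ((w η * w' η : ℤ) : ℂ) = 4 * (m : ℂ)) :
    Cfsg.IsPerfectIsometry 2 M c B I ε := by
  classical
  have hMm := hM.2.1
  haveI hMp : M.IsPrime := hMm.isPrime
  have := Fintype.ofFinite (Cfsg.IrrCharacter G)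
  have := Fintype.ofFinite (Cfsg.IrrCharacter H)
  obtain ⟨cF, hcFdef⟩ : ∃ cF : Finset (Cfsg.IrrCharacter H),
      cF = Finset.univ.filter (fun η : Cfsg.IrrCharacter H => η ∈ c) := ⟨_, rfl⟩
  have hcF : ∀ η, η ∈ cF ↔ η ∈ c := by
    intro η
    rw [hcFdef]
    simp
  have hμ : ∀ (x : G) (y : H), Cfsg.signedBijectionKernel c I ε x y
      = ∑ η ∈ cF, (ε η : ℂ) * (I η : G → ℂ) x * (η : H → ℂ) y := by
    intro x y
    unfold Cfsg.signedBijectionKernel
    rw [finsum_mem_eq_sum_filter_univ, ← hcFdef]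
  have hWc : ∀ w ∈ kpW c, ∀ y : H, ¬ 2 ∣ orderOf y →
      ∑ η ∈ cF, (w η : ℂ) * (η : H → ℂ) y = 0 := by
    intro w hw y hy
    have h1 := ((kp_mem_W_iff c w).mp hw).2 y hy
    rwa [← hcFdef] at h1
  -- Stage A
  have hstageA : ∀ x : G, 2 ∣ orderOf x →
      ∃ (ι : Type u) (S : Finset ι) (w : ι → Cfsg.IrrCharacter H → ℤ) (a : ι → ℂ),
        (∀ j ∈ S, w j ∈ kpW c) ∧ (∀ j ∈ S, Cfsg.MemLocalRing M (a j)) ∧
        (∀ j ∈ S, Cfsg.MemLocalRing M
          (4 * a j / (Nat.card (Subgroup.centralizer ({x} : Set G)) : ℂ))) ∧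
        ∀ y : H, ∑ η ∈ cF, (ε η : ℂ) * (I η : G → ℂ) x * (η : H → ℂ) y
          = ∑ j ∈ S, a j * ∑ η ∈ cF, (w j η : ℂ) * (η : H → ℂ) y := by
    intro x hx
    obtain ⟨ι, S, δ, a, hW, hloc, hdivx, hval⟩ := hLB x hx
    refine ⟨ι, S, fun j η => ε η * δ j (I η), a, fun j hj => hBc (δ j) (hW j hj), hloc, hdivx,
      fun y => ?_⟩
    have h1 : ∀ η ∈ cF, (ε η : ℂ) * (I η : G → ℂ) x * (η : H → ℂ) y
        = ∑ j ∈ S, a j * (((ε η * δ j (I η) : ℤ) : ℂ) * (η : H → ℂ) y) := by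
      intro η hη
      rw [hval (I η) (hI.mapsTo ((hcF η).mp hη)), Finset.mul_sum, Finset.sum_mul]
      refine Finset.sum_congr rfl fun j _ => ?_
      push_cast
      ring
    rw [Finset.sum_congr rfl h1, Finset.sum_comm]
    refine Finset.sum_congr rfl fun j _ => ?_
    rw [Finset.mul_sum]
  -- Stage B
  have hstageB : ∀ y : H, 2 ∣ orderOf y →
      ∃ (ι : Type v) (S : Finset ι) (δ : ι → Cfsg.IrrCharacter H → ℤ) (a : ι → ℂ),
        (∀ j ∈ S, δ j ∈ kpW c) ∧ (∀ j ∈ S, Cfsg.MemLocalRing M (a j)) ∧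
        (∀ j ∈ S, Cfsg.MemLocalRing M
          (4 * a j / (Nat.card (Subgroup.centralizer ({y} : Set H)) : ℂ))) ∧
        ∀ g : Cfsg.IrrCharacter H → ℂ, ∑ η ∈ cF, g η * (η : H → ℂ) y
          = ∑ j ∈ S, a j * ∑ η ∈ cF, g η * (δ j η : ℂ) := by
    intro y hy
    obtain ⟨ι, S, δ, a, hW, hloc, hdivy, hval⟩ := hLc y hy
    refine ⟨ι, S, δ, a, hW, hloc, hdivy, fun g => ?_⟩
    have h1 : ∀ η ∈ cF, g η * (η : H → ℂ) y = ∑ j ∈ S, a j * (g η * (δ j η : ℂ)) := by
      intro η hη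
      rw [hval η ((hcF η).mp hη), Finset.mul_sum]
      refine Finset.sum_congr rfl fun j _ => ?_
      ring
    rw [Finset.sum_congr rfl h1, Finset.sum_comm]
    refine Finset.sum_congr rfl fun j _ => ?_
    rw [Finset.mul_sum]
  -- singular, regular
  have hsr : ∀ (x : G) (y : H), 2 ∣ orderOf x → ¬ 2 ∣ orderOf y →
      ∑ η ∈ cF, (ε η : ℂ) * (I η : G → ℂ) x * (η : H → ℂ) y = 0 := by
    intro x y hx hy
    obtain ⟨ι, S, w, a, hW, -, -, hval⟩ := hstageA x hx
    rw [hval y]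
    apply Finset.sum_eq_zero
    intro j hj
    rw [hWc (w j) (hW j hj) y hy, mul_zero]
  -- regular, singular
  have hrs : ∀ (x : G) (y : H), ¬ 2 ∣ orderOf x → 2 ∣ orderOf y →
      ∑ η ∈ cF, (ε η : ℂ) * (I η : G → ℂ) x * (η : H → ℂ) y = 0 := by
    intro x y hx hy
    obtain ⟨ι, S, δ, a, hW, -, -, hval⟩ := hstageB y hy
    rw [hval (fun η => (ε η : ℂ) * (I η : G → ℂ) x)]
    apply Finset.sum_eq_zero
    intro j hj
    have h1 := hA (δ j) (hW j hj) x hx
    rw [finsum_mem_eq_sum_filter_univ, ← hcFdef] at h1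
    have h2 : ∑ η ∈ cF, (ε η : ℂ) * (I η : G → ℂ) x * (δ j η : ℂ)
        = ∑ η ∈ cF, ((ε η * δ j η : ℤ) : ℂ) * (I η : G → ℂ) x := by
      refine Finset.sum_congr rfl fun η _ => ?_
      push_cast
      ring
    rw [h2, h1, mul_zero]
  -- singular, singular
  have hss : ∀ (x : G) (y : H), 2 ∣ orderOf x → 2 ∣ orderOf y →
      Cfsg.MemLocalRing M ((∑ η ∈ cF, (ε η : ℂ) * (I η : G → ℂ) x * (η : H → ℂ) y)
        / (Nat.card (Subgroup.centralizer ({x} : Set G)) : ℂ)) ∧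
      Cfsg.MemLocalRing M ((∑ η ∈ cF, (ε η : ℂ) * (I η : G → ℂ) x * (η : H → ℂ) y)
        / (Nat.card (Subgroup.centralizer ({y} : Set H)) : ℂ)) := by
    intro x y hx hy
    obtain ⟨ι, S, w, a, hW, hloc, hdivx, hval⟩ := hstageA x hx
    obtain ⟨ι', S', δ', a', hW', hloc', hdivy, hval'⟩ := hstageB y hy
    have hm : ∀ j ∈ S, ∀ j' ∈ S', ∃ m : ℤ,
        ∑ η ∈ cF, (w j η : ℂ) * (δ' j' η : ℂ) = 4 * (m : ℂ) := by
      intro j hj j' hj'
      obtain ⟨m, hm⟩ := hdiv (w j) (hW j hj) (δ' j') (hW' j' hj')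
      rw [finsum_mem_eq_sum_filter_univ, ← hcFdef] at hm
      refine ⟨m, ?_⟩
      rw [← hm]
      refine Finset.sum_congr rfl fun η _ => ?_
      push_cast
      ring
    choose! m hm using hm
    have hform : ∑ η ∈ cF, (ε η : ℂ) * (I η : G → ℂ) x * (η : H → ℂ) y
        = ∑ j ∈ S, ∑ j' ∈ S', a j * a' j' * (4 * (m j j' : ℂ)) := by
      rw [hval y]
      refine Finset.sum_congr rfl fun j hj => ?_
      rw [hval' (fun η => (w j η : ℂ)), Finset.mul_sum]
      refine Finset.sum_congr rfl fun j' hj' => ?_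
      rw [hm j hj j' hj']
      ring
    rw [hform]
    constructor
    · rw [Finset.sum_div]
      refine memLocalRing_sum S _ (fun j hj => ?_)
      rw [Finset.sum_div]
      refine memLocalRing_sum S' _ (fun j' hj' => ?_)
      have e : a j * a' j' * (4 * (m j j' : ℂ))
            / (Nat.card (Subgroup.centralizer ({x} : Set G)) : ℂ)
          = (4 * a j / (Nat.card (Subgroup.centralizer ({x} : Set G)) : ℂ))
            * (a' j' * (m j j' : ℂ)) := by ring
      rw [e]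
      exact Helper77.memLocalRing_mul hMm (hdivx j hj)
        (Helper77.memLocalRing_mul hMm (hloc' j' hj') (memLocalRing_intCast hMm.ne_top _))
    · rw [Finset.sum_div]
      refine memLocalRing_sum S _ (fun j hj => ?_)
      rw [Finset.sum_div]
      refine memLocalRing_sum S' _ (fun j' hj' => ?_)
      have e : a j * a' j' * (4 * (m j j' : ℂ))
            / (Nat.card (Subgroup.centralizer ({y} : Set H)) : ℂ)
          = (4 * a' j' / (Nat.card (Subgroup.centralizer ({y} : Set H)) : ℂ))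
            * (a j * (m j j' : ℂ)) := by ring
      rw [e]
      exact Helper77.memLocalRing_mul hMm (hdivy j' hj')
        (Helper77.memLocalRing_mul hMm (hloc j hj) (memLocalRing_intCast hMm.ne_top _))
  -- regular, regular
  have hrr : ∀ (x : G) (y : H), ¬ 2 ∣ orderOf x → ¬ 2 ∣ orderOf y →
      Cfsg.MemLocalRing M ((∑ η ∈ cF, (ε η : ℂ) * (I η : G → ℂ) x * (η : H → ℂ) y)
        / (Nat.card (Subgroup.centralizer ({x} : Set G)) : ℂ)) ∧
      Cfsg.MemLocalRing M ((∑ η ∈ cF, (ε η : ℂ) * (I η : G → ℂ) x * (η : H → ℂ) y)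
        / (Nat.card (Subgroup.centralizer ({y} : Set H)) : ℂ)) := by
    intro x y hx hy
    constructor
    · have h1 := kp_div_centralizer hM cF (fun η => (ε η : ℂ) * (η : H → ℂ) y) I
        (fun η _ => Helper77.memLocalRing_mul hMm (memLocalRing_intCast hMm.ne_top _)
          (memLocalRing_of_isIntegral hMm.ne_top (Helper77.irr_isIntegral η y)))
        (fun x' hx' => by
          rw [← hsr x' y hx' hy]
          refine Finset.sum_congr rfl fun η _ => ?_
          ring) x hx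
      have h2 : ∑ η ∈ cF, (ε η : ℂ) * (I η : G → ℂ) x * (η : H → ℂ) y
          = ∑ η ∈ cF, (ε η : ℂ) * (η : H → ℂ) y * (I η : G → ℂ) x := by
        refine Finset.sum_congr rfl fun η _ => ?_
        ring
      rw [h2]
      exact h1
    · exact kp_div_centralizer hM cF (fun η => (ε η : ℂ) * (I η : G → ℂ) x) (fun η => η)
        (fun η _ => Helper77.memLocalRing_mul hMm (memLocalRing_intCast hMm.ne_top _)
          (memLocalRing_of_isIntegral hMm.ne_top (Helper77.irr_isIntegral (I η) x)))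
        (fun y' hy' => hrs x y' hx hy') y hy
  have hzero : ∀ n : ℕ, Cfsg.MemLocalRing M ((0 : ℂ) / (n : ℂ)) := by
    intro n
    rw [zero_div]
    simpa using memLocalRing_intCast (M := M) hMm.ne_top 0
  refine ⟨hI, hε, fun x y => ?_⟩
  rw [hμ x y]
  by_cases hx : 2 ∣ orderOf x <;> by_cases hy : 2 ∣ orderOf y
  · obtain ⟨h1, h2⟩ := hss x y hx hy
    exact ⟨h1, h2, Or.inl ⟨fun h => absurd hx h, fun h => absurd hy h⟩⟩
  · rw [hsr x y hx hy]
    exact ⟨hzero _, hzero _, Or.inr rfl⟩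
  · rw [hrs x y hx hy]
    exact ⟨hzero _, hzero _, Or.inr rfl⟩
  · obtain ⟨h1, h2⟩ := hrr x y hx hy
    exact ⟨h1, h2, Or.inl ⟨fun _ => hy, fun _ => hx⟩⟩

end Cfsg.Agent.Helper81
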