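import Cfsg.Agent.Helper81.PerfE

/-!
# Perfect isometries between blocks with four characters

* `kp_isometry_one`: two `2`-blocks of defect two with `l = 1` and local decompositions
  (`kpLocal`) are perfectly isometric, by any bijection with all signs `+1`.
* `kp_isometry_three`: two blocks with `k = 4`, `l = 3`, local decompositions and nonempty sign
  kernels are perfectly isometric, by any bijection with the signs `δ_B(I η) δ_c(η)`.
-/

set_option autoImplicit false
open Cfsg
open scoped ComplexConjugate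

namespace Cfsg.Agent.Helper81

universe u v

variable {G : Type u} [Group G] [Fintype G] {H : Type v} [Group H] [Fintype H]

theorem kp_isometry_one {M : Ideal Cfsg.AlgInt} (hM : Cfsg.IsPModular 2 M)
    {B : Set (Cfsg.IrrCharacter G)} {c : Set (Cfsg.IrrCharacter H)}
    (hB : Cfsg.IsPBlock M B) (hc : Cfsg.IsPBlock M c)
    (hdB : Cfsg.blockDefect 2 B = 2) (hdc : Cfsg.blockDefect 2 c = 2)
    (hlB : Cfsg.blockRank 2 B = 1) (hlc : Cfsg.blockRank 2 c = 1)
    (hLB : kpLocal M B) (hLc : kpLocal M c) :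
    ∃ (I : Cfsg.IrrCharacter H → Cfsg.IrrCharacter G) (ε : Cfsg.IrrCharacter H → ℤ),
      Cfsg.IsPerfectIsometry 2 M c B I ε := by
  classical
  have hMm := hM.2.1
  have := Fintype.ofFinite (Cfsg.IrrCharacter G)
  have := Fintype.ofFinite (Cfsg.IrrCharacter H)
  obtain ⟨hkB, hagB, -⟩ := kp_rank_one hM hB hdB hlB
  obtain ⟨hkc, hagc, -⟩ := kp_rank_one hM hc hdc hlc
  obtain ⟨χ₀, hχ₀⟩ := Helper77.block_nonempty hMm hB
  obtain ⟨I, hI⟩ := kp_exists_bij (c := c) (B := B) (by rw [hkB, hkc]) ⟨χ₀, hχ₀⟩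
  have hcard : ((Finset.univ.filter (fun η : Cfsg.IrrCharacter H => η ∈ c)).card : ℤ) = 4 := by
    rw [← Fintype.card_subtype, ← Nat.card_eq_fintype_card, hkc]
    norm_num
  refine ⟨I, fun _ => 1, kp_assemble hM hLB hLc I _ hI (fun _ _ => Or.inl rfl) ?_ ?_ ?_⟩
  · intro w hw x hx
    rw [finsum_mem_eq_sum_filter_univ]
    have h0 := (kp_W_one hM hc hdc hlc w hw.1).mp hw
    have h1 : ∑ η ∈ Finset.univ.filter (fun η : Cfsg.IrrCharacter H => η ∈ c),
          (((1 : ℤ) * w η : ℤ) : ℂ) * (I η : G → ℂ) x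
        = ((∑ η ∈ Finset.univ.filter (fun η : Cfsg.IrrCharacter H => η ∈ c), w η : ℤ) : ℂ)
          * (χ₀ : G → ℂ) x := by
      push_cast
      rw [Finset.sum_mul]
      refine Finset.sum_congr rfl fun η hη => ?_
      rw [one_mul, hagB (I η) (hI.mapsTo (Finset.mem_filter.mp hη).2) χ₀ hχ₀ x hx]
    rw [h1, h0]
    push_cast
    ring
  · intro w hw
    have hsign : ∀ η ∈ c, (1 : ℤ) * w (I η) = 1 ∨ (1 : ℤ) * w (I η) = -1 := by
      intro η hη
      rw [one_mul]
      exact hw.1 (I η) (hI.mapsTo hη)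
    rw [kp_W_one hM hc hdc hlc _ hsign]
    have h0 := (kp_W_one hM hB hdB hlB w hw.1).mp hw
    rw [← h0, ← kp_sum_bij hI (fun χ => w χ)]
    refine Finset.sum_congr rfl fun η _ => ?_
    rw [one_mul]
  · intro w hw w' hw'
    have h0 := (kp_W_one hM hc hdc hlc w hw.1).mp hw
    have h0' := (kp_W_one hM hc hdc hlc w' hw'.1).mp hw'
    rw [finsum_mem_eq_sum_filter_univ]
    have hterm : ∀ η ∈ Finset.univ.filter (fun η : Cfsg.IrrCharacter H => η ∈ c),
        ∃ t : ℤ, (w η - 1) * (w' η - 1) = 4 * t := by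
      intro η hη
      have hηc := (Finset.mem_filter.mp hη).2
      rcases hw.1 η hηc with h | h <;> rcases hw'.1 η hηc with h' | h' <;> rw [h, h']
      · exact ⟨0, by norm_num⟩
      · exact ⟨0, by norm_num⟩
      · exact ⟨0, by norm_num⟩
      · exact ⟨1, by norm_num⟩
    choose! t ht using hterm
    refine ⟨∑ η ∈ Finset.univ.filter (fun η : Cfsg.IrrCharacter H => η ∈ c), t η - 1, ?_⟩
    have key : ∑ η ∈ Finset.univ.filter (fun η : Cfsg.IrrCharacter H => η ∈ c), w η * w' η
        = 4 * (∑ η ∈ Finset.univ.filter (fun η : Cfsg.IrrCharacter H => η ∈ c), t η - 1) := by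
      have e : ∀ η ∈ Finset.univ.filter (fun η : Cfsg.IrrCharacter H => η ∈ c),
          w η * w' η = 4 * t η + w η + w' η - 1 := by
        intro η hη
        linear_combination ht η hη
      rw [Finset.sum_congr rfl e, Finset.sum_sub_distrib, Finset.sum_add_distrib,
        Finset.sum_add_distrib, h0, h0', ← Finset.mul_sum, Finset.sum_const, nsmul_eq_mul, hcard]
      ring
    rw [← Int.cast_sum, key]
    push_cast
    ring

theorem kp_isometry_three {M : Ideal Cfsg.AlgInt} (hM : Cfsg.IsPModular 2 M)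
    {B : Set (Cfsg.IrrCharacter G)} {c : Set (Cfsg.IrrCharacter H)}
    (hkB : Nat.card B = 4) (hkc : Nat.card c = 4)
    (hlB : Cfsg.blockRank 2 B = 3) (hlc : Cfsg.blockRank 2 c = 3)
    (hLB : kpLocal M B) (hLc : kpLocal M c)
    {δB : Cfsg.IrrCharacter G → ℤ} (hδB : δB ∈ kpW B)
    {δc : Cfsg.IrrCharacter H → ℤ} (hδc : δc ∈ kpW c) :
    ∃ (I : Cfsg.IrrCharacter H → Cfsg.IrrCharacter G) (ε : Cfsg.IrrCharacter H → ℤ),
      Cfsg.IsPerfectIsometry 2 M c B I ε := by
  classical
  have hMm := hM.2.1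
  have := Fintype.ofFinite (Cfsg.IrrCharacter G)
  have := Fintype.ofFinite (Cfsg.IrrCharacter H)
  have hcardB : (Finset.univ.filter (fun χ : Cfsg.IrrCharacter G => χ ∈ B)).card = 4 := by
    rw [← Fintype.card_subtype, ← Nat.card_eq_fintype_card, hkB]
  have hcardc : (Finset.univ.filter (fun η : Cfsg.IrrCharacter H => η ∈ c)).card = 4 := by
    rw [← Fintype.card_subtype, ← Nat.card_eq_fintype_card, hkc]
  have hBne : B.Nonempty := by
    have h1 : (Finset.univ.filter (fun χ : Cfsg.IrrCharacter G => χ ∈ B)).Nonempty := by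
      rw [← Finset.card_pos, hcardB]
      norm_num
    obtain ⟨χ₀, h⟩ := h1
    exact ⟨χ₀, (Finset.mem_filter.mp h).2⟩
  obtain ⟨I, hI⟩ := kp_exists_bij (c := c) (B := B) (by rw [hkB, hkc]) hBne
  have hsqB : ∀ χ ∈ B, δB χ * δB χ = 1 := by
    intro χ hχ
    rcases hδB.1 χ hχ with h | h <;> rw [h] <;> norm_num
  have hsqc : ∀ η ∈ c, δc η * δc η = 1 := by
    intro η hη
    rcases hδc.1 η hη with h | h <;> rw [h] <;> norm_num
  refine ⟨I, fun η => δB (I η) * δc η, kp_assemble hM hLB hLc I _ hI ?_ ?_ ?_ ?_⟩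
  · intro η hη
    rcases hδB.1 (I η) (hI.mapsTo hη) with h | h <;> rcases hδc.1 η hη with h' | h' <;>
      rw [h, h'] <;> norm_num
  · intro w hw x hx
    rw [finsum_mem_eq_sum_filter_univ]
    have hkerB := ((kp_mem_W_iff B δB).mp hδB).2 x hx
    rw [← kp_sum_bij hI (fun χ => (δB χ : ℂ) * (χ : G → ℂ) x)] at hkerB
    rcases kp_W_three c hcardc hlc hδc hw with h | h
    · have h1 : ∑ η ∈ Finset.univ.filter (fun η : Cfsg.IrrCharacter H => η ∈ c),
            ((δB (I η) * δc η * w η : ℤ) : ℂ) * (I η : G → ℂ) x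
          = ∑ η ∈ Finset.univ.filter (fun η : Cfsg.IrrCharacter H => η ∈ c),
            (δB (I η) : ℂ) * (I η : G → ℂ) x := by
        refine Finset.sum_congr rfl fun η hη => ?_
        have hηc := (Finset.mem_filter.mp hη).2
        rw [h η hηc, mul_assoc, hsqc η hηc, mul_one]
      rw [h1, hkerB]
    · have h1 : ∑ η ∈ Finset.univ.filter (fun η : Cfsg.IrrCharacter H => η ∈ c),
            ((δB (I η) * δc η * w η : ℤ) : ℂ) * (I η : G → ℂ) x
          = -∑ η ∈ Finset.univ.filter (fun η : Cfsg.IrrCharacter H => η ∈ c),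
            (δB (I η) : ℂ) * (I η : G → ℂ) x := by
        rw [← Finset.sum_neg_distrib]
        refine Finset.sum_congr rfl fun η hη => ?_
        have hηc := (Finset.mem_filter.mp hη).2
        have h2 : δB (I η) * δc η * w η = -δB (I η) := by
          rw [h η hηc, mul_assoc, mul_neg, hsqc η hηc, mul_neg, mul_one]
        rw [h2]
        push_cast
        ring
      rw [h1, hkerB, neg_zero]
  · intro w hw
    rcases kp_W_three B hcardB hlB hδB hw with h | h
    · refine kp_W_congr hδc (fun η hη => ?_)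
      show δB (I η) * δc η * w (I η) = δc η
      rw [h (I η) (hI.mapsTo hη)]
      calc δB (I η) * δc η * δB (I η) = δB (I η) * δB (I η) * δc η := by ring
        _ = δc η := by rw [hsqB (I η) (hI.mapsTo hη), one_mul]
    · refine kp_W_neg hδc (fun η hη => ?_)
      show δB (I η) * δc η * w (I η) = -δc η
      rw [h (I η) (hI.mapsTo hη)]
      calc δB (I η) * δc η * -δB (I η) = -(δB (I η) * δB (I η) * δc η) := by ring
        _ = -δc η := by rw [hsqB (I η) (hI.mapsTo hη), one_mul]
  · intro w hw w' hw'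
    rw [finsum_mem_eq_sum_filter_univ]
    have hsq : ∀ η ∈ c, w η * w η = 1 := by
      intro η hη
      rcases hw.1 η hη with h | h <;> rw [h] <;> norm_num
    rcases kp_W_three c hcardc hlc hw hw' with h | h
    · refine ⟨1, ?_⟩
      have h1 : ∀ η ∈ Finset.univ.filter (fun η : Cfsg.IrrCharacter H => η ∈ c),
          ((w η * w' η : ℤ) : ℂ) = 1 := by
        intro η hη
        have hηc := (Finset.mem_filter.mp hη).2
        rw [h η hηc, hsq η hηc]
        norm_num
      rw [Finset.sum_congr rfl h1, Finset.sum_const, hcardc]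
      norm_num
    · refine ⟨-1, ?_⟩
      have h1 : ∀ η ∈ Finset.univ.filter (fun η : Cfsg.IrrCharacter H => η ∈ c),
          ((w η * w' η : ℤ) : ℂ) = -1 := by
        intro η hη
        have hηc := (Finset.mem_filter.mp hη).2
        rw [h η hηc, mul_neg, hsq η hηc]
        norm_num
      rw [Finset.sum_congr rfl h1, Finset.sum_const, hcardc]
      norm_num

end Cfsg.Agent.Helper81
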