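import Cfsg.Agent.Helper81.PerfB
import Cfsg.Agent.Helper16.PPart
import Cfsg.Agent.Helper16.BlockPart

/-!
# Values of a Klein four block on the `2`-singular elements

Let `(P, c₀)` be a maximal Brauer pair of the `2`-block `B`, `P` a Klein four group.  For every
`2`-singular `x` there are finitely many sign vectors `δ_j ∈ kpW B` and numbers `a_j` (local
integers, with `4 a_j / |C_G(x)|` a local integer) such that `χ(x) = ∑_j δ_j(χ) a_j` for all
`χ ∈ B`.

* `kp_card_centralizer_eq`: `|C_{C(u)}(s)| = |C_G(u s)|` when `u` is a power of `u s`.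
* `kp_local`: the statement above.
-/

set_option autoImplicit false
open Cfsg
open scoped ComplexConjugate

namespace Cfsg.Agent.Helper81

universe u

variable {G : Type u} [Group G]

theorem kp_card_centralizer_eq {u s x : G} (hx : u * s = x)
    (hux : ∀ g : G, x * g = g * x → u * g = g * u)
    (hs : s ∈ Subgroup.centralizer ({u} : Set G)) :
    Nat.card (Subgroup.centralizer
        ({(⟨s, hs⟩ : Subgroup.centralizer ({u} : Set G))} :
          Set (Subgroup.centralizer ({u} : Set G))))
      = Nat.card (Subgroup.centralizer ({x} : Set G)) := by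
  refine Nat.card_congr
    { toFun := fun h => ⟨((h : Subgroup.centralizer ({u} : Set G)) : G), ?_⟩
      invFun := fun g => ⟨⟨(g : G), ?_⟩, ?_⟩
      left_inv := fun h => rfl
      right_inv := fun g => rfl }
  · rw [Subgroup.mem_centralizer_iff]
    intro w hw
    rw [Set.mem_singleton_iff] at hw
    rw [hw]
    have h1 : u * ((h : Subgroup.centralizer ({u} : Set G)) : G)
        = ((h : Subgroup.centralizer ({u} : Set G)) : G) * u :=
      Subgroup.mem_centralizer_iff.mp (h : Subgroup.centralizer ({u} : Set G)).2 u rfl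
    have h2 : s * ((h : Subgroup.centralizer ({u} : Set G)) : G)
        = ((h : Subgroup.centralizer ({u} : Set G)) : G) * s :=
      congrArg Subtype.val (Subgroup.mem_centralizer_iff.mp h.2 ⟨s, hs⟩ rfl)
    rw [← hx, mul_assoc, h2, ← mul_assoc, h1, mul_assoc]
  · rw [Subgroup.mem_centralizer_iff]
    intro w hw
    rw [Set.mem_singleton_iff] at hw
    rw [hw]
    exact hux _ (Subgroup.mem_centralizer_iff.mp g.2 x rfl)
  · rw [Subgroup.mem_centralizer_iff]
    intro w hw
    rw [Set.mem_singleton_iff] at hw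
    rw [hw]
    apply Subtype.ext
    show s * (g : G) = (g : G) * s
    have h0 : x * (g : G) = (g : G) * x := Subgroup.mem_centralizer_iff.mp g.2 x rfl
    have h1 := hux _ h0
    have hs' : s = u⁻¹ * x := by rw [← hx]; group
    have h2 : u⁻¹ * (g : G) = (g : G) * u⁻¹ := by
      calc u⁻¹ * (g : G) = u⁻¹ * ((g : G) * u) * u⁻¹ := by group
        _ = u⁻¹ * (u * (g : G)) * u⁻¹ := by rw [h1]
        _ = (g : G) * u⁻¹ := by group
    rw [hs', mul_assoc, h0, ← mul_assoc, h2, mul_assoc]

variable [Fintype G]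

/-- **Values of a Klein four block on `2`-singular elements.** -/
theorem kp_local {M : Ideal Cfsg.AlgInt} (hM : Cfsg.IsPModular 2 M)
    {B : Set (Cfsg.IrrCharacter G)} (hB : Cfsg.IsPBlock M B) {P : Subgroup G}
    {c₀ : Set (Cfsg.IrrCharacter (Subgroup.centralizer (P : Set G)))}
    (hmax : Cfsg.IsMaximalBrauerPair 2 M B P c₀) (hcard : Nat.card P = 4)
    (hexp : ∀ u ∈ P, u * u = 1) (x : G) (hx : 2 ∣ orderOf x) :
    ∃ (ι : Type u) (S : Finset ι) (δ : ι → Cfsg.IrrCharacter G → ℤ) (a : ι → ℂ),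
      (∀ j ∈ S, δ j ∈ kpW B) ∧ (∀ j ∈ S, Cfsg.MemLocalRing M (a j)) ∧
      (∀ j ∈ S, Cfsg.MemLocalRing M
        (4 * a j / (Nat.card (Subgroup.centralizer ({x} : Set G)) : ℂ))) ∧
      ∀ χ ∈ B, (χ : G → ℂ) x = ∑ j ∈ S, (δ j χ : ℂ) * a j := by
  classical
  have hpf : Fact (Nat.Prime 2) := ⟨hM.1⟩
  have hMm := hM.2.1
  haveI hMp : M.IsPrime := hMm.isPrime
  obtain ⟨u, hpp⟩ := Helper16.exists_isPPart 2 x (orderOf_pos x)
  obtain ⟨k, n, hk, hn, hpow⟩ := Helper16.isPPart_pow hpp
  obtain ⟨s, hus, hcomm, hu, hs⟩ := hpp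
  have hu1 : u ≠ 1 := by
    rintro rfl
    rw [one_mul] at hus
    rw [← hus] at hx
    exact hs hx
  obtain ⟨i, hi⟩ := Helper16.exists_mul_modEq_one_prime_pow Nat.prime_two hn k
  have hum : x ^ (n * i) = u := hpow _ hi ⟨i, rfl⟩
  have hux : ∀ g : G, x * g = g * x → u * g = g * u := by
    intro g hg
    rw [← hum]
    exact (Commute.pow_left (show Commute x g from hg) _).eq
  let _ : Fintype (Subgroup.centralizer ({u} : Set G)) := Fintype.ofFinite _
  have := Fintype.ofFinite (Cfsg.IrrCharacter G)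
  have := Fintype.ofFinite (Cfsg.IrrCharacter (Subgroup.centralizer ({u} : Set G)))
  have hsH : s ∈ Subgroup.centralizer ({u} : Set G) := by
    rw [Subgroup.mem_centralizer_iff]
    intro w hw
    rw [Set.mem_singleton_iff] at hw
    rw [hw]
    exact hcomm.eq
  have hsreg : ¬ 2 ∣ orderOf (⟨s, hsH⟩ : Subgroup.centralizer ({u} : Set G)) := by
    rw [← Subgroup.orderOf_coe]
    exact hs
  have hcent : ∀ h : Subgroup.centralizer ({u} : Set G), u * (h : G) = (h : G) * u :=
    fun c => Subgroup.mem_centralizer_iff.mp c.2 u rfl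
  -- the subsection data
  choose! δ φ hW hloc hpart using
    fun (f : Set (Cfsg.IrrCharacter (Subgroup.centralizer ({u} : Set G))))
      (hf : Cfsg.IsInducedBlock M (Subgroup.centralizer ({u} : Set G)) f B) =>
        kp_subsection hM hB hmax hcard hexp u hu1 hu f hf
  obtain ⟨S, hS⟩ : ∃ S : Finset (Set (Cfsg.IrrCharacter (Subgroup.centralizer ({u} : Set G)))),
      S = (Finset.univ.image
        (fun ψ : Cfsg.IrrCharacter (Subgroup.centralizer ({u} : Set G)) =>
          Cfsg.blockOf M (ψ : Subgroup.centralizer ({u} : Set G) → ℂ))).filter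
        (fun f => Cfsg.IsInducedBlock M (Subgroup.centralizer ({u} : Set G)) f B) := ⟨_, rfl⟩
  have hSind : ∀ f ∈ S, Cfsg.IsInducedBlock M (Subgroup.centralizer ({u} : Set G)) f B := by
    intro f hf
    rw [hS] at hf
    exact (Finset.mem_filter.mp hf).2
  refine ⟨Set (Cfsg.IrrCharacter (Subgroup.centralizer ({u} : Set G))), S, δ,
    fun f => φ f ⟨s, hsH⟩, fun f hf => hW f (hSind f hf),
    fun f hf => (hloc f (hSind f hf) ⟨s, hsH⟩ hsreg).1, fun f hf => ?_, fun χ hχ => ?_⟩
  · have h1 := (hloc f (hSind f hf) ⟨s, hsH⟩ hsreg).2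
    rwa [kp_card_centralizer_eq hus hux hsH] at h1
  · have hFcl : Cfsg.IsClassFunction (Subgroup.centralizer ({u} : Set G))
        (fun c : Subgroup.centralizer ({u} : Set G) => (χ : G → ℂ) (u * c)) := by
      intro c d
      show (χ : G → ℂ) (u * ((d : G) * (c : G) * (d : G)⁻¹)) = (χ : G → ℂ) (u * (c : G))
      have e : u * ((d : G) * (c : G) * (d : G)⁻¹) = (d : G) * (u * (c : G)) * (d : G)⁻¹ := by
        rw [← mul_assoc, ← mul_assoc, hcent d]
        group
      rw [e]
      exact irr_conj χ _ _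
    have hexp' := congrFun (Helper15.classFun_eq_sum hFcl) ⟨s, hsH⟩
    simp only [Finset.sum_apply, Pi.smul_apply, smul_eq_mul] at hexp'
    rw [← hus, hexp', ← Finset.sum_fiberwise_of_maps_to
      (g := fun ψ : Cfsg.IrrCharacter (Subgroup.centralizer ({u} : Set G)) =>
        Cfsg.blockOf M (ψ : Subgroup.centralizer ({u} : Set G) → ℂ))
      (t := Finset.univ.image
        (fun ψ : Cfsg.IrrCharacter (Subgroup.centralizer ({u} : Set G)) =>
          Cfsg.blockOf M (ψ : Subgroup.centralizer ({u} : Set G) → ℂ)))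
      (fun ψ _ => Finset.mem_image_of_mem _ (Finset.mem_univ ψ)), hS, Finset.sum_filter]
    refine Finset.sum_congr rfl fun f hf => ?_
    obtain ⟨ψ₀, -, rfl⟩ := Finset.mem_image.mp hf
    have hfb : Cfsg.IsPBlock M
        (Cfsg.blockOf M (ψ₀ : Subgroup.centralizer ({u} : Set G) → ℂ)) := ⟨ψ₀, rfl⟩
    have hfil : ∑ ψ ∈ Finset.univ.filter
          (fun ψ : Cfsg.IrrCharacter (Subgroup.centralizer ({u} : Set G)) =>
            Cfsg.blockOf M (ψ : Subgroup.centralizer ({u} : Set G) → ℂ)
              = Cfsg.blockOf M (ψ₀ : Subgroup.centralizer ({u} : Set G) → ℂ)),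
          Cfsg.classInner (fun c : Subgroup.centralizer ({u} : Set G) => (χ : G → ℂ) (u * c))
            (ψ : Subgroup.centralizer ({u} : Set G) → ℂ)
            * (ψ : Subgroup.centralizer ({u} : Set G) → ℂ) ⟨s, hsH⟩
        = Cfsg.blockPart (Cfsg.blockOf M (ψ₀ : Subgroup.centralizer ({u} : Set G) → ℂ))
            (fun c : Subgroup.centralizer ({u} : Set G) => (χ : G → ℂ) (u * c)) ⟨s, hsH⟩ := by
      rw [Helper75.blockPart_filter_apply]
      refine Finset.sum_congr ?_ (fun _ _ => rfl)
      ext ψ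
      simp only [Finset.mem_filter, Finset.mem_univ, true_and]
      constructor
      · intro h
        rw [← h]
        exact mem_blockOf_self ψ
      · intro h
        exact Helper16.blockOf_eq_of_mem hMm h
    rw [hfil]
    by_cases hind : Cfsg.IsInducedBlock M (Subgroup.centralizer ({u} : Set G))
        (Cfsg.blockOf M (ψ₀ : Subgroup.centralizer ({u} : Set G) → ℂ)) B
    · rw [if_pos hind]
      exact hpart _ hind χ ⟨s, hsH⟩ hsreg
    · rw [if_neg hind, Helper73.blockPart_eq_finsum]
      exact Helper16.finsum_classInner_centralizer_eq_zero hM u hu hB χ hχ hfb hind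
        ⟨s, hsH⟩ hsreg

end Cfsg.Agent.Helper81
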