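import Cfsg.Agent.S4637
import Cfsg.Agent.Helper81.PerfL
import Cfsg.Agent.Helper73.HKUnique
import Cfsg.Agent.Helper16.BrauerCorr
import Cfsg.Agent.Helper77.PairDefect

/-!
# The Brauer correspondent of a Klein four block has the same inertial index

Let `B` be a `2`-block of `G` with Klein four defect group `P` and `c` the block of `N = N_G(P)`
with defect group `P` inducing `B`.  A block `b'` of `C_N(P) = C_G(P)` inducing `c` also induces
`B` (transitivity), and its stabilizers in `N` and in `G` coincide; hence `l(c) = l(B)`.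

* `kp_stab_transport`: stabilizing a block of `L ≤ N`, seen inside `N` or inside `G`.
* `kp_W_nonempty`: the sign kernel of a Klein four block is nonempty.
* `kp_transfer`: `k(B) = k(c) = 4`, `l(B) = l(c) ∈ {1, 3}`, and maximal Brauer pairs on both
  sides.
-/

set_option autoImplicit false
open Cfsg
open scoped ComplexConjugate

namespace Cfsg.Agent.Helper81

universe u

variable {G : Type u} [Group G]

theorem kp_stab_transport {N L : Subgroup G} (hLN : L ≤ N)
    (b' : Set (Cfsg.IrrCharacter ↥(L.subgroupOf N))) (g : ↥N) :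
    Cfsg.StabilizesBlock (L.subgroupOf N) b' g ↔
      Cfsg.StabilizesBlock L
        (Helper75.irrComp (Subgroup.subgroupOfEquivOfLe hLN).symm '' b') (g : G) := by
  have hnorm : g ∈ Subgroup.normalizer ((L.subgroupOf N : Subgroup ↥N) : Set ↥N)
      ↔ (g : G) ∈ Subgroup.normalizer (L : Set G) := by
    rw [Subgroup.mem_normalizer_iff, Subgroup.mem_normalizer_iff]
    constructor
    · intro h x
      constructor
      · intro hx
        have h1 := (h ⟨x, hLN hx⟩).mp (Subgroup.mem_subgroupOf.mpr hx)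
        exact Subgroup.mem_subgroupOf.mp h1
      · intro hx
        have hxN : x ∈ N := by
          have h1 : (g : G)⁻¹ * ((g : G) * x * (g : G)⁻¹) * (g : G) ∈ N :=
            N.mul_mem (N.mul_mem (N.inv_mem g.2) (hLN hx)) g.2
          have h2 : (g : G)⁻¹ * ((g : G) * x * (g : G)⁻¹) * (g : G) = x := by group
          rwa [h2] at h1
        have h1 := (h ⟨x, hxN⟩).mpr (Subgroup.mem_subgroupOf.mpr hx)
        exact Subgroup.mem_subgroupOf.mp h1
    · intro h x
      rw [Subgroup.mem_subgroupOf, Subgroup.mem_subgroupOf]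
      exact h (x : G)
  have hchar : ∀ χ χ' : Cfsg.IrrCharacter ↥(L.subgroupOf N),
      Cfsg.IsConjCharOf (L.subgroupOf N) g (χ : ↥(L.subgroupOf N) → ℂ)
          (χ' : ↥(L.subgroupOf N) → ℂ) ↔
        Cfsg.IsConjCharOf L (g : G)
          (Helper75.irrComp (Subgroup.subgroupOfEquivOfLe hLN).symm χ : L → ℂ)
          (Helper75.irrComp (Subgroup.subgroupOfEquivOfLe hLN).symm χ' : L → ℂ) := by
    intro χ χ'
    constructor
    · intro h l l' hl
      exact h ((Subgroup.subgroupOfEquivOfLe hLN).symm l)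
        ((Subgroup.subgroupOfEquivOfLe hLN).symm l') (Subtype.ext hl)
    · intro h k k' hk
      have h1 := h (Subgroup.subgroupOfEquivOfLe hLN k) (Subgroup.subgroupOfEquivOfLe hLN k')
        (by
          show ((k' : ↥N) : G) = (g : G) * ((k : ↥N) : G) * (g : G)⁻¹
          rw [hk]
          rfl)
      rw [Helper75.irrComp_apply, Helper75.irrComp_apply, MulEquiv.symm_apply_apply,
        MulEquiv.symm_apply_apply] at h1
      exact h1
  unfold Cfsg.StabilizesBlock
  rw [hnorm]
  refine and_congr_right fun _ => ?_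
  constructor
  · rintro h _ ⟨χ, hχ, rfl⟩
    obtain ⟨χ', hχ', hconj⟩ := h χ hχ
    exact ⟨_, ⟨χ', hχ', rfl⟩, (hchar χ χ').mp hconj⟩
  · intro h χ hχ
    obtain ⟨_, ⟨χ', hχ', rfl⟩, hconj⟩ := h _ ⟨χ, hχ, rfl⟩
    exact ⟨χ', hχ', (hchar χ χ').mpr hconj⟩

variable [Fintype G]

theorem kp_W_nonempty {M : Ideal Cfsg.AlgInt} (hM : Cfsg.IsPModular 2 M)
    {B : Set (Cfsg.IrrCharacter G)} (hB : Cfsg.IsPBlock M B) {P : Subgroup G}
    {c₀ : Set (Cfsg.IrrCharacter (Subgroup.centralizer (P : Set G)))}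
    (hmax : Cfsg.IsMaximalBrauerPair 2 M B P c₀) (hcard : Nat.card P = 4)
    (hexp : ∀ u ∈ P, u * u = 1) : ∃ w, w ∈ kpW B := by
  have hpf : Fact (Nat.Prime 2) := ⟨hM.1⟩
  obtain ⟨u, huP, hu1⟩ : ∃ u ∈ P, u ≠ 1 := by
    by_contra hcon
    push_neg at hcon
    have hbot : P = ⊥ := (Subgroup.eq_bot_iff_forall _).mpr hcon
    rw [hbot, Subgroup.card_bot] at hcard
    omega
  have hP2 : IsPGroup 2 P := IsPGroup.of_card (n := 2) (by rw [hcard]; norm_num)
  have hu : ∃ k : ℕ, orderOf u = 2 ^ k := by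
    obtain ⟨k, hk⟩ := (IsPGroup.iff_orderOf.mp hP2) ⟨u, huP⟩
    rw [Subgroup.orderOf_mk] at hk
    exact ⟨k, hk⟩
  obtain ⟨f₁, hR₁⟩ := kf_exists_R hM hmax (x := u) (g := 1) (by simpa using huP)
  have hind := kf_R_induced hM hmax hR₁
  have key : ∀ (H : Subgroup G), Subgroup.centralizer (Subgroup.zpowers u : Set G) = H →
      ∃ f : Set (Cfsg.IrrCharacter H), Cfsg.IsInducedBlock M H f B := by
    intro H hH
    subst hH
    exact ⟨f₁, hind⟩
  obtain ⟨f, hf⟩ := key _ (Helper78.centralizer_zpowers_eq u)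
  obtain ⟨δ, φ, hδ, -, -⟩ := kp_subsection hM hB hmax hcard hexp u hu1 hu f hf
  exact ⟨δ, hδ⟩

/-- **Transfer to the Brauer correspondent.** -/
theorem kp_transfer (M : Ideal Cfsg.AlgInt) (hM : Cfsg.IsPModular 2 M)
    (B : Set (Cfsg.IrrCharacter G)) (hB : Cfsg.IsPBlock M B) (P : Subgroup G)
    (hPD : Cfsg.IsDefectGroup 2 M B P) (hV : IsKleinFour P)
    (c : Set (Cfsg.IrrCharacter (Subgroup.normalizer (P : Set G))))
    (hcD : Cfsg.IsDefectGroup 2 M c (P.subgroupOf (Subgroup.normalizer (P : Set G))))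
    (hc : Cfsg.IsInducedBlock M (Subgroup.normalizer (P : Set G)) c B) :
    ∃ e : ℕ, (e = 1 ∨ e = 3) ∧ Nat.card B = 4 ∧ Cfsg.blockRank 2 B = e ∧ Nat.card c = 4 ∧
      Cfsg.blockRank 2 c = e ∧
      (∃ c₀, Cfsg.IsMaximalBrauerPair 2 M B P c₀) ∧
      (∃ c₁, Cfsg.IsMaximalBrauerPair 2 M c (P.subgroupOf (Subgroup.normalizer (P : Set G))) c₁) := by
  classical
  have hpf : Fact (Nat.Prime 2) := ⟨hM.1⟩
  have hMm := hM.2.1
  let _ : Fintype (Subgroup.normalizer (P : Set G)) := Fintype.ofFinite _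
  obtain ⟨-, -, -, -, hPp⟩ := Helper16.isDefectGroup_exists_data hPD
  have hcard : Nat.card P = 4 := IsKleinFour.card_four
  have hexp : ∀ u ∈ P, u * u = 1 := fun u hu =>
    congrArg Subtype.val (IsKleinFour.mul_self (⟨u, hu⟩ : P))
  have hPab := kf_comm_of_exp hexp
  have hPC : P ≤ Subgroup.centralizer (P : Set G) :=
    Helper77.le_centralizer_of_le_of_comm hPab le_rfl
  have hCN : Subgroup.centralizer (P : Set G) ≤ Subgroup.normalizer (P : Set G) :=
    Subgroup.centralizer_le_normalizer _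
  have hPN : P ≤ Subgroup.normalizer (P : Set G) := Subgroup.le_normalizer
  -- the side of the normalizer
  have hV' : IsKleinFour ↥(P.subgroupOf (Subgroup.normalizer (P : Set G))) :=
    ⟨by rw [Nat.card_congr (Subgroup.subgroupOfEquivOfLe hPN).toEquiv]; exact hcard,
     by rw [Monoid.exponent_eq_of_mulEquiv (Subgroup.subgroupOfEquivOfLe hPN)]
        exact IsKleinFour.exponent_two⟩
  have hcard' : Nat.card ↥(P.subgroupOf (Subgroup.normalizer (P : Set G))) = 4 := hV'.card_four
  have hP'p : IsPGroup 2 ↥(P.subgroupOf (Subgroup.normalizer (P : Set G))) :=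
    IsPGroup.of_card (n := 2) (by rw [hcard']; norm_num)
  have hexp' : ∀ u ∈ P.subgroupOf (Subgroup.normalizer (P : Set G)), u * u = 1 :=
    fun u hu => Subtype.ext (hexp _ (Subgroup.mem_subgroupOf.mp hu))
  have hP'ab := kf_comm_of_exp hexp'
  have hP'C : P.subgroupOf (Subgroup.normalizer (P : Set G))
      ≤ Subgroup.centralizer ((P.subgroupOf (Subgroup.normalizer (P : Set G))
          : Subgroup (Subgroup.normalizer (P : Set G))) : Set (Subgroup.normalizer (P : Set G))) :=
    Helper77.le_centralizer_of_le_of_comm hP'ab le_rfl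
  have hKeq : Subgroup.centralizer ((P.subgroupOf (Subgroup.normalizer (P : Set G))
        : Subgroup (Subgroup.normalizer (P : Set G))) : Set (Subgroup.normalizer (P : Set G)))
      = (Subgroup.centralizer (P : Set G)).subgroupOf (Subgroup.normalizer (P : Set G)) := by
    ext n
    rw [Subgroup.mem_subgroupOf, Subgroup.mem_centralizer_iff, Subgroup.mem_centralizer_iff]
    constructor
    · intro h p hp
      have h1 := h ⟨p, hPN hp⟩ (Subgroup.mem_subgroupOf.mpr hp)
      exact congrArg Subtype.val h1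
    · intro h p hp
      exact Subtype.ext (h p.1 (Subgroup.mem_subgroupOf.mp hp))
  let _ : Fintype ↥((Subgroup.centralizer (P : Set G)).subgroupOf
      (Subgroup.normalizer (P : Set G))) := Fintype.ofFinite _
  have hNtop : Subgroup.normalizer ((P.subgroupOf (Subgroup.normalizer (P : Set G))
      : Subgroup (Subgroup.normalizer (P : Set G))) : Set (Subgroup.normalizer (P : Set G)))
      = ⊤ := Subgroup.normalizer_eq_top _
  obtain ⟨b', hb'⟩ := Helper16.exists_isInducedBlock_of_conjLE hM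
    (P.subgroupOf (Subgroup.normalizer (P : Set G)))
    ((Subgroup.centralizer (P : Set G)).subgroupOf (Subgroup.normalizer (P : Set G))) hP'p
    (hP'C.trans (le_of_eq hKeq)) (le_of_eq hKeq)
    (by rw [hNtop]; exact le_top) hc.1 hcD (Helper16.ConjLE.of_le le_rfl)
  have keyN : ∀ (K' : Subgroup (Subgroup.normalizer (P : Set G)))
      (_ : Subgroup.centralizer ((P.subgroupOf (Subgroup.normalizer (P : Set G))
        : Subgroup (Subgroup.normalizer (P : Set G))) : Set (Subgroup.normalizer (P : Set G)))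
          = K')
      (b : Set (Cfsg.IrrCharacter ↥K')) (_ : Cfsg.IsInducedBlock M K' b c)
      (T : Subgroup (Subgroup.normalizer (P : Set G)))
      (_ : ∀ g : Subgroup.normalizer (P : Set G), g ∈ T ↔
        (g ∈ Subgroup.normalizer ((P.subgroupOf (Subgroup.normalizer (P : Set G))
          : Subgroup (Subgroup.normalizer (P : Set G))) : Set (Subgroup.normalizer (P : Set G)))
          ∧ Cfsg.StabilizesBlock K' b g))
      (e : ℕ) (_ : K'.relIndex T = e),
      ((e = 1 ∨ e = 3) ∧ Nat.card c = 4 ∧ Cfsg.blockRank 2 c = e) ∧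
        ∃ c₁, Cfsg.IsMaximalBrauerPair 2 M c
          (P.subgroupOf (Subgroup.normalizer (P : Set G))) c₁ := by
    intro K' hK'
    subst hK'
    intro b hb T hT e he
    refine ⟨Cfsg.Agent.S4637.result M hM c hc.1
      (P.subgroupOf (Subgroup.normalizer (P : Set G))) hcD hV' b hb T hT e he, b, ?_⟩
    exact Helper77.isMaximalBrauerPair_of_card_eq hM
      (Helper77.isBrauerPairOf_of_isInducedBlock hM _ hP'p hP'C b hb) hcD rfl
  -- the side of `G`
  let _ : Fintype ↥(Subgroup.centralizer (P : Set G)) := Fintype.ofFinite _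
  obtain ⟨c₀, hc₀def⟩ : ∃ c₀ : Set (Cfsg.IrrCharacter (Subgroup.centralizer (P : Set G))),
      c₀ = Helper75.irrComp (Subgroup.subgroupOfEquivOfLe hCN).symm '' b' := ⟨_, rfl⟩
  have hc₀ : Cfsg.IsInducedBlock M (Subgroup.centralizer (P : Set G)) c₀ B := by
    rw [hc₀def]
    exact Helper73.hk_induced_trans hMm hCN hb' hc
  have hmaxB := Helper77.isMaximalBrauerPair_of_card_eq hM
    (Helper77.isBrauerPairOf_of_isInducedBlock hM P hPp hPC c₀ hc₀) hPD rfl
  obtain ⟨T, hTdef⟩ : ∃ T : Subgroup G, T = Subgroup.normalizer (P : Set G)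
      ⊓ Helper77.stabSubgroup (Subgroup.centralizer (P : Set G)) c₀ := ⟨_, rfl⟩
  have hT : ∀ g : G, g ∈ T ↔ (g ∈ Subgroup.normalizer (P : Set G) ∧
      Cfsg.StabilizesBlock (Subgroup.centralizer (P : Set G)) c₀ g) := by
    intro g
    rw [hTdef, Subgroup.mem_inf]
    rfl
  have hTN : T ≤ Subgroup.normalizer (P : Set G) := fun t ht => ((hT t).mp ht).1
  have hT' : ∀ g : Subgroup.normalizer (P : Set G),
      g ∈ T.subgroupOf (Subgroup.normalizer (P : Set G)) ↔
        (g ∈ Subgroup.normalizer ((P.subgroupOf (Subgroup.normalizer (P : Set G))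
          : Subgroup (Subgroup.normalizer (P : Set G))) : Set (Subgroup.normalizer (P : Set G)))
          ∧ Cfsg.StabilizesBlock ((Subgroup.centralizer (P : Set G)).subgroupOf
              (Subgroup.normalizer (P : Set G))) b' g) := by
    intro g
    rw [Subgroup.mem_subgroupOf, hT, kp_stab_transport hCN b' g, ← hc₀def, hNtop]
    constructor
    · rintro ⟨-, h⟩
      exact ⟨Subgroup.mem_top g, h⟩
    · rintro ⟨-, h⟩
      exact ⟨g.2, h⟩
  obtain ⟨e, he⟩ : ∃ e : ℕ, (Subgroup.centralizer (P : Set G)).relIndex T = e := ⟨_, rfl⟩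
  have he' : ((Subgroup.centralizer (P : Set G)).subgroupOf
      (Subgroup.normalizer (P : Set G))).relIndex
        (T.subgroupOf (Subgroup.normalizer (P : Set G))) = e := by
    rw [Subgroup.relIndex_subgroupOf hTN, he]
  obtain ⟨h13, hkB, hlB⟩ := Cfsg.Agent.S4637.result M hM B hB P hPD hV c₀ hc₀ T hT e he
  obtain ⟨⟨-, hkc, hlc⟩, hmaxc⟩ := keyN _ hKeq b' hb'
    (T.subgroupOf (Subgroup.normalizer (P : Set G))) hT' e he'
  exact ⟨e, h13, hkB, hlB, hkc, hlc, ⟨c₀, hmaxB⟩, hmaxc⟩

end Cfsg.Agent.Helper81
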