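import Cfsg.Agent.Helper81.PerfA
import Cfsg.Agent.Helper81.SectionCount

/-!
# Sign vectors annihilating the `2`-regular restrictions of a block

`kpW B` is the set of sign vectors `w` on `B` with `∑_{χ ∈ B} w χ · χ(x) = 0` for all
`2`-regular `x`.

* `kp_mem_W_iff`: membership with finite sums.
* `kp_W_congr`, `kp_W_neg`: closure properties.
* `kp_W_one`: for `l(B) = 1` (defect two) these are the balanced sign vectors.
* `kp_W_three`: for `k(B) = 4`, `l(B) = 3` any two of them agree up to a global sign.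
-/

set_option autoImplicit false
open Cfsg
open scoped ComplexConjugate

namespace Cfsg.Agent.Helper81

universe u

variable {G : Type u} [Group G]

/-- Sign vectors on `B` annihilating the `2`-regular restrictions of the members of `B`. -/
def kpW (B : Set (Cfsg.IrrCharacter G)) : Set (Cfsg.IrrCharacter G → ℤ) :=
  {w | (∀ χ ∈ B, w χ = 1 ∨ w χ = -1) ∧
    ∀ x : G, ¬ 2 ∣ orderOf x → ∑ᶠ χ ∈ B, (w χ : ℂ) * (χ : G → ℂ) x = 0}

theorem kp_mem_W_iff [Fintype (Cfsg.IrrCharacter G)] (B : Set (Cfsg.IrrCharacter G))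
    [DecidablePred (fun χ => χ ∈ B)] (w : Cfsg.IrrCharacter G → ℤ) :
    w ∈ kpW B ↔ (∀ χ ∈ B, w χ = 1 ∨ w χ = -1) ∧
      ∀ x : G, ¬ 2 ∣ orderOf x →
        ∑ χ ∈ Finset.univ.filter (fun χ => χ ∈ B), (w χ : ℂ) * (χ : G → ℂ) x = 0 := by
  unfold kpW
  rw [Set.mem_setOf_eq]
  refine and_congr_right fun _ => forall_congr' fun x => imp_congr_right fun _ => ?_
  rw [finsum_mem_eq_sum_filter_univ]

theorem kp_W_congr {B : Set (Cfsg.IrrCharacter G)} {w w' : Cfsg.IrrCharacter G → ℤ}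
    (hw : w ∈ kpW B) (h : ∀ χ ∈ B, w' χ = w χ) : w' ∈ kpW B := by
  refine ⟨fun χ hχ => by rw [h χ hχ]; exact hw.1 χ hχ, fun x hx => ?_⟩
  rw [← hw.2 x hx]
  exact finsum_mem_congr rfl fun χ hχ => by rw [h χ hχ]

theorem kp_W_neg {B : Set (Cfsg.IrrCharacter G)} {w w' : Cfsg.IrrCharacter G → ℤ}
    (hw : w ∈ kpW B) (h : ∀ χ ∈ B, w' χ = -w χ) : w' ∈ kpW B := by
  refine ⟨fun χ hχ => ?_, fun x hx => ?_⟩
  · rw [h χ hχ]
    rcases hw.1 χ hχ with h1 | h1 <;> rw [h1] <;> simp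
  · have h1 : ∑ᶠ χ ∈ B, (w' χ : ℂ) * (χ : G → ℂ) x
        = ∑ᶠ χ ∈ B, (-1 : ℂ) * ((w χ : ℂ) * (χ : G → ℂ) x) :=
      finsum_mem_congr rfl fun χ hχ => by rw [h χ hχ]; push_cast; ring
    rw [h1, ← mul_finsum_mem, hw.2 x hx, mul_zero]

/-- For a `2`-block of defect two with `l(B) = 1` the members of `kpW B` are the balanced sign
vectors. -/
theorem kp_W_one [Fintype G] [Fintype (Cfsg.IrrCharacter G)] {M : Ideal Cfsg.AlgInt}
    (hM : Cfsg.IsPModular 2 M) {B : Set (Cfsg.IrrCharacter G)} (hB : Cfsg.IsPBlock M B)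
    [DecidablePred (fun χ => χ ∈ B)]
    (hd : Cfsg.blockDefect 2 B = 2) (hl : Cfsg.blockRank 2 B = 1)
    (w : Cfsg.IrrCharacter G → ℤ) (hsign : ∀ χ ∈ B, w χ = 1 ∨ w χ = -1) :
    w ∈ kpW B ↔ ∑ χ ∈ Finset.univ.filter (fun χ => χ ∈ B), w χ = 0 := by
  obtain ⟨-, hagree, -⟩ := kp_rank_one hM hB hd hl
  obtain ⟨χ₀, hχ₀⟩ := Helper77.block_nonempty hM.2.1 hB
  have key : ∀ x : G, ¬ 2 ∣ orderOf x →
      ∑ χ ∈ Finset.univ.filter (fun χ => χ ∈ B), (w χ : ℂ) * (χ : G → ℂ) x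
        = ((∑ χ ∈ Finset.univ.filter (fun χ => χ ∈ B), w χ : ℤ) : ℂ) * (χ₀ : G → ℂ) x := by
    intro x hx
    push_cast
    rw [Finset.sum_mul]
    refine Finset.sum_congr rfl fun χ hχ => ?_
    rw [hagree χ (Finset.mem_filter.mp hχ).2 χ₀ hχ₀ x hx]
  rw [kp_mem_W_iff]
  constructor
  · rintro ⟨-, h⟩
    have h1 := h 1 (by rw [orderOf_one]; norm_num)
    rw [key 1 (by rw [orderOf_one]; norm_num)] at h1
    rcases mul_eq_zero.mp h1 with h2 | h2
    · exact_mod_cast h2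
    · exact absurd h2 (irr_one_ne_zero χ₀)
  · intro h
    refine ⟨hsign, fun x hx => ?_⟩
    rw [key x hx, h]
    push_cast
    ring

/-- For `k(B) = 4` and `l(B) = 3` two members of `kpW B` agree up to a global sign. -/
theorem kp_W_three [Finite G] [Fintype (Cfsg.IrrCharacter G)] (B : Set (Cfsg.IrrCharacter G))
    [DecidablePred (fun χ => χ ∈ B)]
    (hcard : (Finset.univ.filter (fun χ : Cfsg.IrrCharacter G => χ ∈ B)).card = 4)
    (hl : Cfsg.blockRank 2 B = 3) {w w' : Cfsg.IrrCharacter G → ℤ}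
    (hw : w ∈ kpW B) (hw' : w' ∈ kpW B) :
    (∀ χ ∈ B, w' χ = w χ) ∨ (∀ χ ∈ B, w' χ = -w χ) := by
  classical
  obtain ⟨L, hL⟩ : ∃ L : (↥B → ℂ) →ₗ[ℂ] (G → ℂ), L = Fintype.linearCombination ℂ
      (fun χ : ↥B => Cfsg.pRegularPart 2 ((χ : Cfsg.IrrCharacter G) : G → ℂ)) := ⟨_, rfl⟩
  have hrange : Module.finrank ℂ ↥(LinearMap.range L) = 3 := by
    rw [hL, Fintype.range_linearCombination, ← hl]
    unfold Cfsg.blockRank
    rw [Set.image_eq_range]
  have hdom : Module.finrank ℂ (↥B → ℂ) = 4 := by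
    rw [Module.finrank_fintype_fun_eq_card, Fintype.card_subtype]
    exact hcard
  have hker : Module.finrank ℂ ↥(LinearMap.ker L) = 1 := by
    have h := LinearMap.finrank_range_add_finrank_ker L
    omega
  have hmem : ∀ v : Cfsg.IrrCharacter G → ℤ, v ∈ kpW B →
      (fun χ : ↥B => ((v χ : ℤ) : ℂ)) ∈ LinearMap.ker L := by
    intro v hv
    rw [LinearMap.mem_ker, hL]
    funext x
    rw [Fintype.linearCombination_apply]
    simp only [Finset.sum_apply, Pi.smul_apply, smul_eq_mul, Pi.zero_apply]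
    by_cases hx : 2 ∣ orderOf x
    · apply Finset.sum_eq_zero
      intro χ _
      rw [Helper77.pRegularPart_apply, if_neg (not_not.mpr hx), mul_zero]
    · have h1 := ((kp_mem_W_iff B v).mp hv).2 x hx
      rw [Finset.sum_subtype (Finset.univ.filter (fun χ : Cfsg.IrrCharacter G => χ ∈ B))
        (p := fun χ => χ ∈ B) (fun χ => by simp) (fun χ => (v χ : ℂ) * (χ : G → ℂ) x)] at h1
      rw [← h1]
      refine Finset.sum_congr rfl fun χ _ => ?_
      rw [Helper77.pRegularPart_apply, if_pos hx]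
  obtain ⟨χ₀, hχ₀⟩ : ∃ χ₀, χ₀ ∈ B := by
    have h1 : (Finset.univ.filter (fun χ : Cfsg.IrrCharacter G => χ ∈ B)).Nonempty := by
      rw [← Finset.card_pos, hcard]
      norm_num
    obtain ⟨χ₀, h⟩ := h1
    exact ⟨χ₀, (Finset.mem_filter.mp h).2⟩
  have hne : (⟨fun χ : ↥B => ((w χ : ℤ) : ℂ), hmem w hw⟩ : ↥(LinearMap.ker L)) ≠ 0 := by
    intro h
    have h1 := congrFun (congrArg Subtype.val h) ⟨χ₀, hχ₀⟩
    simp only [ZeroMemClass.coe_zero, Pi.zero_apply] at h1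
    rcases hw.1 χ₀ hχ₀ with h2 | h2 <;> rw [h2] at h1 <;> norm_num at h1
  obtain ⟨c, hc⟩ := (finrank_eq_one_iff_of_nonzero' _ hne).mp hker
    ⟨fun χ : ↥B => ((w' χ : ℤ) : ℂ), hmem w' hw'⟩
  have hc' : ∀ χ ∈ B, c * (w χ : ℂ) = (w' χ : ℂ) := by
    intro χ hχ
    have h1 := congrFun (congrArg Subtype.val hc) ⟨χ, hχ⟩
    simpa using h1
  have hc0 := hc' χ₀ hχ₀
  have hcpm : c = 1 ∨ c = -1 := by
    rcases hw.1 χ₀ hχ₀ with h2 | h2 <;> rcases hw'.1 χ₀ hχ₀ with h3 | h3 <;>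
      rw [h2, h3] at hc0 <;> push_cast at hc0
    · left; linear_combination hc0
    · right; linear_combination hc0
    · right; linear_combination -hc0
    · left; linear_combination -hc0
  rcases hcpm with h | h
  · left
    intro χ hχ
    have h1 := hc' χ hχ
    rw [h, one_mul] at h1
    exact_mod_cast h1.symm
  · right
    intro χ hχ
    have h1 := hc' χ hχ
    rw [h] at h1
    have h2 : ((w' χ : ℤ) : ℂ) = ((-w χ : ℤ) : ℂ) := by
      push_cast
      linear_combination -h1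
    exact_mod_cast h2

end Cfsg.Agent.Helper81
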