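import Cfsg.Agent.Helper81.SectionCount
import Cfsg.Agent.Helper61.BS8Center
import Cfsg.Agent.S0950
import Cfsg.Agent.Helper76.QuotRank
import Cfsg.Agent.Helper39.BlockGen

/-!
# The principal 2-block of a group with quaternion Sylow 2-subgroup of order 8

`G` has a Sylow 2-subgroup `S ≅ Q8`, `O(G) = 1` and `G ≠ S`.  By Brauer–Suzuki the centre has
order 2; all elements of order 4 are conjugate; their centralizers have normal 2-complements.
The quotient by the centre has Klein four Sylow 2-subgroups and one class of involutions.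
Counting by sections gives `k(B₀(G)) = 2 l + 1` and `4 = k(B₀(G/Z)) = l + 1`, so `k(B₀(G)) = 7`.
-/

set_option autoImplicit false
open Cfsg

namespace Cfsg.Agent.Helper81

open scoped ComplexConjugate

universe u

section q8

/-- In `Q8`, the centralizer of an element of order 4 is the cyclic group it generates. -/
theorem q8_commute_cases (q r : QuaternionGroup 2) (h0 : q ≠ .a 0) (h2 : q ≠ .a 2)
    (hc : q * r = r * q) : r = 1 ∨ r = q ∨ r = q * q ∨ r = q * q * q := by
  revert h0 h2 hc
  rcases Helper61.q8_cases q with rfl | rfl | rfl | rfl | rfl | rfl | rfl | rfl <;>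
    rcases Helper61.q8_cases r with rfl | rfl | rfl | rfl | rfl | rfl | rfl | rfl <;> decide

theorem q8_conj_inv : (QuaternionGroup.xa 0 : QuaternionGroup 2) * .a 1 * (.xa 0)⁻¹ = (.a 1)⁻¹ := by
  decide

theorem q8_ne_of_orderOf_four' {q : QuaternionGroup 2} (h : orderOf q = 4) :
    q ≠ .a 0 ∧ q ≠ .a 2 := by
  constructor
  · rintro rfl
    have : orderOf (QuaternionGroup.a 0 : QuaternionGroup 2) = 1 := by
      rw [← QuaternionGroup.one_def]
      exact orderOf_one
    omega
  · rintro rfl
    rw [Helper61.q8_orderOf_a_two] at h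
    omega

end q8

section quat

variable {G : Type u} [Group G] [Finite G]

/-- A `p`-element is conjugate into a given Sylow `p`-subgroup, together with any `p`-subgroup
containing it. -/
theorem exists_conj_mem_sylow_of_isPGroup {p : ℕ} [Fact p.Prime] (S : Sylow p G) (R : Subgroup G)
    (hR : IsPGroup p R) : ∃ g : G, ∀ y ∈ R, g * y * g⁻¹ ∈ (S : Subgroup G) := by
  obtain ⟨Q, hQ⟩ := hR.exists_le_sylow
  obtain ⟨g, hg⟩ := Helper61.exists_conj_mem_sylow S Q
  exact ⟨g, fun y hy => hg y (hQ hy)⟩

/-- The data of a group with Sylow 2-subgroup `Q8`, `O(G) = 1`, `G ≠ S`. -/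
theorem quat_sylow_data (S : Sylow 2 G) (e : (S : Subgroup G) ≃* QuaternionGroup 2)
    (hO : ∀ N : Subgroup G, N.Normal → Odd (Nat.card N) → N = ⊥)
    (hG : (S : Subgroup G) ≠ ⊤) :
    ∃ z u : G, (z ∈ Subgroup.center G ∧ orderOf z = 2 ∧ ∀ c ∈ Subgroup.center G, c = 1 ∨ c = z) ∧
      (orderOf u = 4 ∧ u * u = z) ∧
      (∀ x : G, x ≠ 1 → (∃ k : ℕ, orderOf x = 2 ^ k) → x = z ∨ IsConj u x) ∧
      (∀ x : G, IsConj u x →
        ∃ k : ℕ, (Cfsg.pPrimeCore 2 (Subgroup.centralizer ({x} : Set G))).index = 2 ^ k) := by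
  classical
  have : Fact (Nat.Prime 2) := ⟨Nat.prime_two⟩
  -- the centre
  have hcen := Helper61.card_center_eq_two_of_sylow_q8 S e hO
  obtain ⟨z', hz'1, hz'u⟩ := (Nat.card_eq_two_iff' (1 : Subgroup.center G)).mp hcen
  obtain ⟨z, hz⟩ : ∃ z : G, z = (z' : G) := ⟨_, rfl⟩
  have hzc : z ∈ Subgroup.center G := by rw [hz]; exact z'.2
  have hz1 : z ≠ 1 := by
    intro h
    apply hz'1
    apply Subtype.ext
    rw [← hz, h]
    rfl
  have hcases : ∀ c ∈ Subgroup.center G, c = 1 ∨ c = z := by
    intro c hc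
    by_cases h1 : c = 1
    · exact Or.inl h1
    · right
      have := hz'u ⟨c, hc⟩ (fun h => h1 (congrArg Subtype.val h))
      rw [hz, ← this]
  have hzz : z * z = 1 := by
    rcases hcases (z * z) (Subgroup.mul_mem _ hzc hzc) with h | h
    · exact h
    · exact absurd (mul_eq_left.mp h) hz1
  have hz2 : orderOf z = 2 := orderOf_eq_prime (by rw [pow_two]; exact hzz) hz1
  have hzcomm : ∀ g : G, g * z = z * g := fun g => Subgroup.mem_center_iff.mp hzc g
  have hcenS : Subgroup.center G ≤ (S : Subgroup G) :=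
    Helper16.normal_le_sylow (Subgroup.center G) (IsPGroup.of_card (n := 1) (by rw [hcen, pow_one])) S
  have hzS : z ∈ (S : Subgroup G) := hcenS hzc
  have huniq := Helper61.sylow_q8_unique_invol S e
  -- structure of `S`
  have hSord : ∀ a : G, ∀ ha : a ∈ (S : Subgroup G), a ≠ 1 → a ≠ z → orderOf a = 4 := by
    intro a ha ha1 haz
    have h0 : e ⟨a, ha⟩ ≠ .a 0 := by
      intro h
      apply ha1
      rw [← QuaternionGroup.one_def, MulEquiv.map_eq_one_iff] at h
      exact congrArg Subtype.val h
    have h2 : e ⟨a, ha⟩ ≠ .a 2 := by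
      intro h
      apply haz
      apply huniq a z ha hzS _ hz2
      rw [← Subgroup.orderOf_mk a ha, ← e.orderOf_eq, h]
      exact Helper61.q8_orderOf_a_two
    rw [← Subgroup.orderOf_mk a ha, ← e.orderOf_eq]
    exact Helper61.q8_orderOf_eq_four h0 h2
  have hScomm : ∀ a b : G, a ∈ (S : Subgroup G) → b ∈ (S : Subgroup G) → orderOf a = 4 →
      a * b = b * a → b = 1 ∨ b = a ∨ b = a * a ∨ b = a * a * a := by
    intro a b ha hb ha4 hab
    have hq := q8_ne_of_orderOf_four' (q := e ⟨a, ha⟩)
      (by rw [e.orderOf_eq, Subgroup.orderOf_mk]; exact ha4)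
    have hc : e ⟨a, ha⟩ * e ⟨b, hb⟩ = e ⟨b, hb⟩ * e ⟨a, ha⟩ := by
      rw [← map_mul, ← map_mul]
      congr 1
      exact Subtype.ext hab
    rcases q8_commute_cases _ _ hq.1 hq.2 hc with h | h | h | h
    · left
      rw [MulEquiv.map_eq_one_iff] at h
      exact congrArg Subtype.val h
    · right; left
      exact congrArg Subtype.val (e.injective h)
    · right; right; left
      rw [← map_mul] at h
      exact congrArg Subtype.val (e.injective h)
    · right; right; right
      rw [← map_mul, ← map_mul] at h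
      exact congrArg Subtype.val (e.injective h)
  -- the element `u`
  obtain ⟨u', hu'⟩ : ∃ u' : (S : Subgroup G), e u' = .a 1 := ⟨e.symm (.a 1), by simp⟩
  obtain ⟨u, hu⟩ : ∃ u : G, u = (u' : G) := ⟨_, rfl⟩
  have huS : u ∈ (S : Subgroup G) := by rw [hu]; exact u'.2
  have hu4 : orderOf u = 4 := by
    rw [hu, Subgroup.orderOf_coe, ← e.orderOf_eq, hu', QuaternionGroup.orderOf_a_one]
  have hu1 : u ≠ 1 := by
    intro h
    rw [h, orderOf_one] at hu4
    omega
  have huu1 : u * u ≠ 1 := by
    intro h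
    have := orderOf_dvd_of_pow_eq_one (show u ^ 2 = 1 by rw [pow_two]; exact h)
    rw [hu4] at this
    omega
  have hu4' : u * u * u * u = 1 := by
    have := pow_orderOf_eq_one u
    rw [hu4] at this
    rw [← this]
    simp [pow_succ, mul_assoc]
  have huu : u * u = z := by
    apply huniq (u * u) z (Subgroup.mul_mem _ huS huS) hzS _ hz2
    apply orderOf_eq_prime _ huu1
    rw [pow_two, ← mul_assoc]
    exact hu4'
  -- inverting `u`
  obtain ⟨w, hwS, hw⟩ : ∃ w ∈ (S : Subgroup G), w * u * w⁻¹ = u⁻¹ := by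
    refine ⟨(e.symm (.xa 0) : (S : Subgroup G)), (e.symm (.xa 0)).2, ?_⟩
    have h1 : e.symm (.xa 0) * u' * (e.symm (.xa 0))⁻¹ = u'⁻¹ := by
      apply e.injective
      rw [map_mul, map_mul, map_inv, map_inv, hu']
      simp only [MulEquiv.apply_symm_apply]
      exact q8_conj_inv
    have h2 := congrArg Subtype.val h1
    rw [hu]
    exact h2
  -- `S` has no normal complement
  have hnc : ∀ N : Subgroup G, N.Normal → ¬ Subgroup.IsComplement' N (S : Subgroup G) := by
    intro N hN hc
    have h1 : (S : Subgroup G).index = Nat.card N := hc.index_eq_card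
    have h2 : Odd (Nat.card N) := by
      rw [← h1, ← Nat.not_even_iff_odd, even_iff_two_dvd]
      exact S.not_dvd_index
    have h3 := hO N hN h2
    rw [h3, Subgroup.isComplement'_bot_left] at hc
    exact hG hc
  -- elements of order 4 in `S` are conjugate to `u`
  have hS4 : ∀ a : G, a ∈ (S : Subgroup G) → orderOf a = 4 → IsConj u a := by
    intro a ha ha4
    obtain ⟨n, -, hn⟩ := Cfsg.Agent.S0950.result S e hnc (Subgroup.zpowers a) (Subgroup.zpowers u)
      (by rw [Subgroup.zpowers_le]; exact ha) (by rw [Subgroup.zpowers_le]; exact huS)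
      (by rw [Nat.card_zpowers, ha4]) (by rw [Nat.card_zpowers, hu4])
    have h1 : n * a * n⁻¹ ∈ Subgroup.zpowers u := by
      rw [hn]
      exact ⟨a, Subgroup.mem_zpowers a, rfl⟩
    have h2 : n * a * n⁻¹ ∈ (S : Subgroup G) := by
      have : Subgroup.zpowers u ≤ (S : Subgroup G) := by rw [Subgroup.zpowers_le]; exact huS
      exact this h1
    have h3 : u * (n * a * n⁻¹) = (n * a * n⁻¹) * u := by
      obtain ⟨k, hk⟩ := Subgroup.mem_zpowers_iff.mp h1
      rw [← hk]
      exact ((Commute.refl u).zpow_right k).eq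
    have h4 : orderOf (n * a * n⁻¹) = 4 := by
      rw [Helper49.orderOf_conj_eq']; exact ha4
    rcases hScomm u (n * a * n⁻¹) huS h2 hu4 h3 with h | h | h | h
    · rw [h, orderOf_one] at h4; omega
    · -- `n a n⁻¹ = u`
      rw [isConj_iff]
      refine ⟨n⁻¹, ?_⟩
      rw [← h]
      group
    · rw [h, huu, hz2] at h4; omega
    · -- `n a n⁻¹ = u³ = u⁻¹ = w u w⁻¹`
      have h5 : u * u * u = u⁻¹ := eq_inv_iff_mul_eq_one.mpr hu4'
      rw [h5, ← hw] at h
      rw [isConj_iff]
      refine ⟨n⁻¹ * w, ?_⟩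
      have : a = n⁻¹ * (n * a * n⁻¹) * n := by group
      rw [this, h]
      group
  -- all nontrivial 2-elements
  have hall : ∀ x : G, x ≠ 1 → (∃ k : ℕ, orderOf x = 2 ^ k) → x = z ∨ IsConj u x := by
    intro x hx1 hxk
    obtain ⟨k, hk⟩ := hxk
    obtain ⟨g, hg⟩ := exists_conj_mem_sylow_of_isPGroup S (Subgroup.zpowers x)
      (IsPGroup.of_card (n := k) (by rw [Nat.card_zpowers, hk]))
    have hs := hg x (Subgroup.mem_zpowers x)
    by_cases hsz : g * x * g⁻¹ = z
    · left
      have : x = g⁻¹ * (g * x * g⁻¹) * g := by group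
      rw [this, hsz, mul_assoc, ← hzcomm g, ← mul_assoc, inv_mul_cancel, one_mul]
    · right
      have hs1 : g * x * g⁻¹ ≠ 1 := by
        intro h
        apply hx1
        have : x = g⁻¹ * (g * x * g⁻¹) * g := by group
        rw [this, h]
        group
      have h4 := hSord _ hs hs1 hsz
      have h5 := hS4 _ hs h4
      exact h5.trans (isConj_iff.mpr ⟨g⁻¹, by group⟩)
  refine ⟨z, u, ⟨hzc, hz2, hcases⟩, ⟨hu4, huu⟩, hall, ?_⟩
  -- centralizers of elements of order 4
  intro x hx
  have hx4 : orderOf x = 4 := by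
    obtain ⟨c, rfl⟩ := isConj_iff.mp hx
    rw [Helper49.orderOf_conj_eq']; exact hu4
  have : Finite (Subgroup.centralizer ({x} : Set G)) := inferInstance
  obtain ⟨T⟩ : Nonempty (Sylow 2 (Subgroup.centralizer ({x} : Set G))) := inferInstance
  apply exists_index_pPrimeCore_of_normalizer_le T
  -- every element of `T` is a power of `x`
  have hT : ∀ t : Subgroup.centralizer ({x} : Set G), t ∈ (T : Subgroup _) →
      (t : G) = 1 ∨ (t : G) = x ∨ (t : G) = x * x ∨ (t : G) = x * x * x := by
    intro t ht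
    -- the 2-group generated by `T` and `x`
    have hTp : IsPGroup 2 ((T : Subgroup (Subgroup.centralizer ({x} : Set G))).map
        (Subgroup.centralizer ({x} : Set G)).subtype) := T.2.map _
    have hxp : IsPGroup 2 (Subgroup.zpowers x) :=
      IsPGroup.of_card (n := 2) (by rw [Nat.card_zpowers, hx4]; norm_num)
    have hle : (T : Subgroup (Subgroup.centralizer ({x} : Set G))).map
        (Subgroup.centralizer ({x} : Set G)).subtype
        ≤ Subgroup.normalizer (Subgroup.zpowers x : Set G) := by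
      refine le_trans ?_ (Subgroup.centralizer_le_normalizer (s := (Subgroup.zpowers x : Set G)))
      rintro _ ⟨t', -, rfl⟩
      rw [Subgroup.mem_centralizer_iff]
      intro h hh
      obtain ⟨k, rfl⟩ := Subgroup.mem_zpowers_iff.mp hh
      have h1 : Commute (t' : G) x := (Subgroup.mem_centralizer_iff.mp t'.2 x rfl).symm
      exact (h1.zpow_right k).eq.symm
    have hp := IsPGroup.to_sup_of_normal_right' hTp hxp hle
    obtain ⟨g, hg⟩ := exists_conj_mem_sylow_of_isPGroup S _ hp
    have hsx := hg x (Subgroup.mem_sup_right (Subgroup.mem_zpowers x))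
    have hst := hg (t : G) (Subgroup.mem_sup_left ⟨t, ht, rfl⟩)
    have hcomm : g * x * g⁻¹ * (g * (t : G) * g⁻¹) = g * (t : G) * g⁻¹ * (g * x * g⁻¹) := by
      have h1 : x * (t : G) = (t : G) * x := Subgroup.mem_centralizer_iff.mp t.2 x rfl
      calc g * x * g⁻¹ * (g * (t : G) * g⁻¹) = g * (x * (t : G)) * g⁻¹ := by group
        _ = g * ((t : G) * x) * g⁻¹ := by rw [h1]
        _ = g * (t : G) * g⁻¹ * (g * x * g⁻¹) := by group
    have hsx4 : orderOf (g * x * g⁻¹) = 4 := by
      rw [Helper49.orderOf_conj_eq']; exact hx4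
    rcases hScomm _ _ hsx hst hsx4 hcomm with h | h | h | h
    · left
      have : (t : G) = g⁻¹ * (g * (t : G) * g⁻¹) * g := by group
      rw [this, h]; group
    · right; left
      have : (t : G) = g⁻¹ * (g * (t : G) * g⁻¹) * g := by group
      rw [this, h]; group
    · right; right; left
      have : (t : G) = g⁻¹ * (g * (t : G) * g⁻¹) * g := by group
      rw [this, h]; group
    · right; right; right
      have : (t : G) = g⁻¹ * (g * (t : G) * g⁻¹) * g := by group
      rw [this, h]; group
  intro n _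
  rw [Subgroup.mem_centralizer_iff]
  intro t ht
  have hnx : x * (n : G) = (n : G) * x := Subgroup.mem_centralizer_iff.mp n.2 x rfl
  apply Subtype.ext
  rw [Subgroup.coe_mul, Subgroup.coe_mul]
  rcases hT t ht with h | h | h | h
  · rw [h, one_mul, mul_one]
  · rw [h]; exact hnx
  · rw [h]
    calc x * x * (n : G) = x * (x * (n : G)) := by group
      _ = x * ((n : G) * x) := by rw [hnx]
      _ = (x * (n : G)) * x := by group
      _ = (n : G) * (x * x) := by rw [hnx]; group
  · rw [h]
    calc x * x * x * (n : G) = x * x * (x * (n : G)) := by group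
      _ = x * x * ((n : G) * x) := by rw [hnx]
      _ = x * (x * (n : G)) * x := by group
      _ = x * ((n : G) * x) * x := by rw [hnx]
      _ = (x * (n : G)) * x * x := by group
      _ = (n : G) * (x * x * x) := by rw [hnx]; group

/-- The quotient of a group with quaternion Sylow 2-subgroup by its centre of order 2. -/
theorem quat_quotient_data (M : Ideal Cfsg.AlgInt) (hM : Cfsg.IsPModular 2 M)
    (S : Sylow 2 G) (e : (S : Subgroup G) ≃* QuaternionGroup 2) (z u : G)
    (hz : z ∈ Subgroup.center G ∧ orderOf z = 2 ∧ ∀ c ∈ Subgroup.center G, c = 1 ∨ c = z)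
    (hu : orderOf u = 4 ∧ u * u = z)
    (hall : ∀ x : G, x ≠ 1 → (∃ k : ℕ, orderOf x = 2 ^ k) → x = z ∨ IsConj u x) :
    ∃ ub : G ⧸ Subgroup.center G, (ub ≠ 1 ∧ ∃ k : ℕ, orderOf ub = 2 ^ k) ∧
      (∀ x : G ⧸ Subgroup.center G, x ≠ 1 → (∃ k : ℕ, orderOf x = 2 ^ k) → IsConj ub x) ∧
      (∀ x : G ⧸ Subgroup.center G, IsConj ub x →
        ∃ k : ℕ, (Cfsg.pPrimeCore 2 (Subgroup.centralizer ({x} : Set (G ⧸ Subgroup.center G)))).index
          = 2 ^ k) ∧
      Nat.card (Cfsg.principalBlock M (G ⧸ Subgroup.center G)) = 4 := by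
  classical
  have : Fact (Nat.Prime 2) := ⟨Nat.prime_two⟩
  have : Fintype (G ⧸ Subgroup.center G) := Fintype.ofFinite _
  obtain ⟨hzc, hz2, hcases⟩ := hz
  obtain ⟨hu4, huu⟩ := hu
  have hz1 : z ≠ 1 := by
    intro h
    rw [h, orderOf_one] at hz2
    omega
  have hunc : u ∉ Subgroup.center G := by
    intro h
    rcases hcases u h with h1 | h1
    · rw [h1, orderOf_one] at hu4; omega
    · rw [h1, hz2] at hu4; omega
  obtain ⟨ub, hub⟩ : ∃ ub : G ⧸ Subgroup.center G, ub = (QuotientGroup.mk u : G ⧸ Subgroup.center G) :=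
    ⟨_, rfl⟩
  have hub1 : ub ≠ 1 := by
    rw [hub]
    intro h
    exact hunc ((QuotientGroup.eq_one_iff u).mp h)
  have hubsq : ub * ub = 1 := by
    rw [hub, ← QuotientGroup.mk_mul, huu]
    exact (QuotientGroup.eq_one_iff z).mpr hzc
  have hub2 : orderOf ub = 2 := orderOf_eq_prime (by rw [pow_two]; exact hubsq) hub1
  -- lifting 2-elements
  have hlift : ∀ x : G ⧸ Subgroup.center G, (∃ k : ℕ, orderOf x = 2 ^ k) →
      ∃ w : G, (∃ j : ℕ, orderOf w = 2 ^ j) ∧ (QuotientGroup.mk w : G ⧸ Subgroup.center G) = x := by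
    intro x hx
    obtain ⟨k, hk⟩ := hx
    obtain ⟨x0, rfl⟩ := QuotientGroup.mk_surjective x
    obtain ⟨x2, y, hxy, hcomm, ⟨j, hj⟩, hy⟩ := Helper16.exists_isPPart 2 x0 (orderOf_pos x0)
    refine ⟨x2, ⟨j, hj⟩, ?_⟩
    have h1 : (QuotientGroup.mk x2 : G ⧸ Subgroup.center G) ^ (2 ^ j) = 1 := by
      rw [← QuotientGroup.mk_pow, ← hj, pow_orderOf_eq_one]
      rfl
    have h2 : (QuotientGroup.mk x0 : G ⧸ Subgroup.center G) ^ (2 ^ k) = 1 := by
      rw [← hk, pow_orderOf_eq_one]
    have h3 : (QuotientGroup.mk y : G ⧸ Subgroup.center G)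
        = (QuotientGroup.mk x2 : G ⧸ Subgroup.center G)⁻¹ * QuotientGroup.mk x0 := by
      rw [← hxy, QuotientGroup.mk_mul, inv_mul_cancel_left]
    have hc : Commute ((QuotientGroup.mk x2 : G ⧸ Subgroup.center G)⁻¹)
        (QuotientGroup.mk x0 : G ⧸ Subgroup.center G) := by
      apply Commute.inv_left
      rw [← hxy, QuotientGroup.mk_mul]
      have : Commute (QuotientGroup.mk x2 : G ⧸ Subgroup.center G) (QuotientGroup.mk y) := by
        have := congrArg (QuotientGroup.mk : G → G ⧸ Subgroup.center G) hcomm.eq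
        rw [QuotientGroup.mk_mul, QuotientGroup.mk_mul] at this
        exact this
      exact (Commute.refl _).mul_right this
    have h4 : (QuotientGroup.mk y : G ⧸ Subgroup.center G) ^ (2 ^ j * 2 ^ k) = 1 := by
      rw [h3, hc.mul_pow, inv_pow, pow_mul, h1, one_pow, inv_one, one_mul, mul_comm (2 ^ j), pow_mul,
        h2, one_pow]
    have h5 : orderOf (QuotientGroup.mk y : G ⧸ Subgroup.center G) ∣ 2 ^ (j + k) := by
      rw [pow_add]
      exact orderOf_dvd_of_pow_eq_one h4
    have h6 : orderOf (QuotientGroup.mk y : G ⧸ Subgroup.center G) ∣ orderOf y :=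
      orderOf_map_dvd (QuotientGroup.mk' (Subgroup.center G)) y
    obtain ⟨i, -, hi⟩ := (Nat.dvd_prime_pow Nat.prime_two).mp h5
    have hi0 : i = 0 := by
      by_contra hne
      apply hy
      rw [hi] at h6
      exact (dvd_pow_self 2 hne).trans h6
    rw [hi0, pow_zero, orderOf_eq_one_iff] at hi
    rw [← hxy, QuotientGroup.mk_mul, hi, mul_one]
  -- all nontrivial 2-elements are conjugate to `ub`
  have hallb : ∀ x : G ⧸ Subgroup.center G, x ≠ 1 → (∃ k : ℕ, orderOf x = 2 ^ k) → IsConj ub x := by
    intro x hx1 hxk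
    obtain ⟨w, hw2, hw⟩ := hlift x hxk
    have hw1 : w ≠ 1 := by
      intro h
      apply hx1
      rw [← hw, h]
      rfl
    have hwz : w ≠ z := by
      intro h
      apply hx1
      rw [← hw, h]
      exact (QuotientGroup.eq_one_iff z).mpr hzc
    rcases hall w hw1 hw2 with h | h
    · exact absurd h hwz
    · obtain ⟨c, hc⟩ := isConj_iff.mp h
      rw [isConj_iff]
      refine ⟨(QuotientGroup.mk c : G ⧸ Subgroup.center G), ?_⟩
      rw [← hw, ← hc, hub]
      rfl
  -- 2-elements square to 1
  have hsq : ∀ x : G ⧸ Subgroup.center G, (∃ k : ℕ, orderOf x = 2 ^ k) → x * x = 1 := by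
    intro x hxk
    by_cases hx1 : x = 1
    · rw [hx1, one_mul]
    · obtain ⟨c, hc⟩ := isConj_iff.mp (hallb x hx1 hxk)
      rw [← hc]
      calc c * ub * c⁻¹ * (c * ub * c⁻¹) = c * (ub * ub) * c⁻¹ := by group
        _ = 1 := by rw [hubsq]; group
  -- the order of the quotient
  have hS8 : Nat.card (S : Subgroup G) = 8 := by
    rw [Nat.card_congr e.toEquiv]
    exact Helper61.q8_card
  have hfacG : (Nat.card G).factorization 2 = 3 := by
    have h1 := S.card_eq_multiplicity
    rw [hS8] at h1
    have h2 : (2 : ℕ) ^ 3 = 2 ^ (Nat.card G).factorization 2 := by rw [← h1]; norm_num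
    exact (Nat.pow_right_injective (le_refl 2) h2).symm
  have hcen : Nat.card (Subgroup.center G) = 2 := by
    have h1 : (Subgroup.center G : Set G) = {1, z} := by
      ext c
      simp only [SetLike.mem_coe, Set.mem_insert_iff, Set.mem_singleton_iff]
      constructor
      · exact hcases c
      · rintro (h | h)
        · rw [h]; exact Subgroup.one_mem _
        · rw [h]; exact hzc
    have h2 : Nat.card (Subgroup.center G) = (Subgroup.center G : Set G).ncard := rfl
    rw [h2, h1, Set.ncard_pair hz1.symm]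
  have hfacQ : (Nat.card (G ⧸ Subgroup.center G)).factorization 2 = 2 := by
    have h1 := Subgroup.card_eq_card_quotient_mul_card_subgroup (Subgroup.center G)
    rw [hcen] at h1
    have h2 : (Nat.card (G ⧸ Subgroup.center G) * 2).factorization 2
        = (Nat.card (G ⧸ Subgroup.center G)).factorization 2 + 1 := by
      rw [Nat.factorization_mul Nat.card_pos.ne' (by norm_num), Finsupp.add_apply,
        Nat.prime_two.factorization_self]
    rw [← h1, hfacG] at h2
    omega
  have hcardP : ∀ P : Sylow 2 (G ⧸ Subgroup.center G),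
      Nat.card (P : Subgroup (G ⧸ Subgroup.center G)) = 4 := by
    intro P
    have := P.card_eq_multiplicity
    rw [hfacQ] at this
    exact this
  have hexpP : ∀ P : Sylow 2 (G ⧸ Subgroup.center G),
      ∀ y ∈ (P : Subgroup (G ⧸ Subgroup.center G)), y * y = 1 := by
    intro P y hy
    apply hsq
    obtain ⟨k, hk⟩ := P.2 ⟨y, hy⟩
    have h1 : y ^ 2 ^ k = 1 := by
      have := congrArg Subtype.val hk
      simpa using this
    obtain ⟨j, -, hj⟩ := (Nat.dvd_prime_pow Nat.prime_two).mp (orderOf_dvd_of_pow_eq_one h1)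
    exact ⟨j, hj⟩
  refine ⟨ub, ⟨hub1, 1, by rw [hub2, pow_one]⟩, hallb, ?_, ?_⟩
  · -- centralizers of involutions
    intro x hx
    have hx1 : x ≠ 1 := by
      obtain ⟨c, rfl⟩ := isConj_iff.mp hx
      intro h
      apply hub1
      have : ub = c⁻¹ * (c * ub * c⁻¹) * c := by group
      rw [this, h]
      group
    have hx2 : orderOf x = 2 := by
      obtain ⟨c, rfl⟩ := isConj_iff.mp hx
      rw [Helper49.orderOf_conj_eq']; exact hub2
    have hxx : x * x = 1 := hsq x ⟨1, by rw [hx2, pow_one]⟩
    obtain ⟨P, hP⟩ := (IsPGroup.of_card (n := 1) (by rw [Nat.card_zpowers, hx2, pow_one]) :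
      IsPGroup 2 (Subgroup.zpowers x)).exists_le_sylow
    have hxP : x ∈ (P : Subgroup (G ⧸ Subgroup.center G)) := hP (Subgroup.mem_zpowers x)
    have hPH : (P : Subgroup (G ⧸ Subgroup.center G))
        ≤ Subgroup.centralizer ({x} : Set (G ⧸ Subgroup.center G)) := by
      intro y hy
      rw [Subgroup.mem_centralizer_iff]
      intro s hs
      rw [Set.mem_singleton_iff] at hs
      rw [hs]
      have ha : x⁻¹ = x := inv_eq_of_mul_eq_one_left hxx
      have hb : y⁻¹ = y := inv_eq_of_mul_eq_one_left (hexpP P y hy)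
      have hab : (x * y)⁻¹ = x * y :=
        inv_eq_of_mul_eq_one_left (hexpP P (x * y) (Subgroup.mul_mem _ hxP hy))
      rw [mul_inv_rev, ha, hb] at hab
      exact hab.symm
    have hxH : x ∈ Subgroup.centralizer ({x} : Set (G ⧸ Subgroup.center G)) := hPH hxP
    apply exists_index_pPrimeCore_of_normalizer_le (P.subtype hPH)
    apply normalizer_le_centralizer_of_klein (P.subtype hPH) ?_ ?_ ⟨x, hxH⟩ ?_ ?_ ?_
    · rw [Sylow.coe_subtype, Nat.card_congr (Subgroup.subgroupOfEquivOfLe hPH).toEquiv, hcardP P]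
    · intro y hy
      rw [Sylow.coe_subtype, Subgroup.mem_subgroupOf] at hy
      exact Subtype.ext (hexpP P y hy)
    · rw [Sylow.coe_subtype, Subgroup.mem_subgroupOf]; exact hxP
    · intro h; exact hx1 (congrArg Subtype.val h)
    · intro g; exact Subtype.ext (Subgroup.mem_centralizer_iff.mp g.2 x rfl).symm
  · -- the principal block of the quotient
    obtain ⟨P⟩ : Nonempty (Sylow 2 (G ⧸ Subgroup.center G)) := inferInstance
    have hK4 : IsKleinFour (P : Subgroup (G ⧸ Subgroup.center G)) := by
      refine ⟨hcardP P, ?_⟩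
      have h1 : Monoid.exponent (P : Subgroup (G ⧸ Subgroup.center G)) ∣ 2 := by
        apply Monoid.exponent_dvd_of_forall_pow_eq_one
        intro g
        rw [pow_two]
        exact Subtype.ext (hexpP P g g.2)
      rcases (Nat.dvd_prime Nat.prime_two).mp h1 with h | h
      · exfalso
        rw [Monoid.exp_eq_one_iff] at h
        have := Nat.card_unique (α := (P : Subgroup (G ⧸ Subgroup.center G)))
        rw [hcardP P] at this
        omega
      · exact h
    have hone : ∀ s t : G ⧸ Subgroup.center G, orderOf s = 2 → orderOf t = 2 → IsConj s t := by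
      intro s t hs ht
      have hs1 : s ≠ 1 := by
        intro h; rw [h, orderOf_one] at hs; omega
      have ht1 : t ≠ 1 := by
        intro h; rw [h, orderOf_one] at ht; omega
      exact (hallb s hs1 ⟨1, by rw [hs, pow_one]⟩).symm.trans (hallb t ht1 ⟨1, by rw [ht, pow_one]⟩)
    obtain ⟨ζ₂, ζ₃, ζ₄, ε, -, h2, h3, h23, h24, h34, hB0, hval, -⟩ :=
      klein_four_principalBlock M hM P hK4 hone
    have h4 : ζ₄ ≠ trivIrr (G ⧸ Subgroup.center G) := by
      intro h
      have h5 := (hval ub hub2).2.2
      rw [h, trivIrr_apply] at h5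
      norm_num at h5
    have h2' : ζ₂ ≠ trivIrr (G ⧸ Subgroup.center G) := fun h => h2 (by rw [h]; rfl)
    have h3' : ζ₃ ≠ trivIrr (G ⧸ Subgroup.center G) := fun h => h3 (by rw [h]; rfl)
    have hset : Cfsg.principalBlock M (G ⧸ Subgroup.center G)
        = (({trivIrr (G ⧸ Subgroup.center G), ζ₂, ζ₃, ζ₄} :
            Finset (Cfsg.IrrCharacter (G ⧸ Subgroup.center G))) : Set _) := by
      rw [hB0]
      ext χ
      simp only [Set.mem_setOf_eq, Finset.coe_insert, Finset.coe_singleton, Set.mem_insert_iff,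
        Set.mem_singleton_iff]
      constructor
      · rintro (h | h | h | h)
        · left; exact Subtype.ext h
        · right; left; exact h
        · right; right; left; exact h
        · right; right; right; exact h
      · rintro (h | h | h | h)
        · left; rw [h]; rfl
        · right; left; exact h
        · right; right; left; exact h
        · right; right; right; exact h
    rw [hset, Nat.card_coe_set_eq, Set.ncard_coe_finset, Finset.card_insert_of_notMem,
      Finset.card_insert_of_notMem, Finset.card_insert_of_notMem, Finset.card_singleton]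
    · simp only [Finset.mem_singleton]; exact h34
    · simp only [Finset.mem_insert, Finset.mem_singleton, not_or]; exact ⟨h23, h24⟩
    · simp only [Finset.mem_insert, Finset.mem_singleton, not_or]
      exact ⟨fun h => h2' h.symm, fun h => h3' h.symm, fun h => h4 h.symm⟩

end quat

end Cfsg.Agent.Helper81
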