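import Cfsg.Agent.Helper77.BlockIdem
import Cfsg.Agent.Helper81.ClassAlgebra

/-!
# Robinson's pair count as a character sum

For a subgroup `S` of the finite group `G` and `g h : G`, `robPairs S g h` is the number of pairs
`(y, z)` with `y` conjugate to `g`, `z` conjugate to `h` and `z y⁻¹ ∈ S`.  We prove
`robPairs S g h = |G|⁻¹ ∑_ψ ψ(1) (∑_{s ∈ S} ψ(s)) ω_ψ(g⁻¹) ω_ψ(h)`.
-/

set_option autoImplicit false
open Cfsg

namespace Cfsg.Agent.Helper81

universe u

variable {G : Type u} [Group G]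

theorem rob_isConj_inv {a b : G} (h : IsConj a b) : IsConj a⁻¹ b⁻¹ := by
  obtain ⟨c, hc⟩ := isConj_iff.mp h
  refine isConj_iff.mpr ⟨c, ?_⟩
  rw [← hc]
  group

theorem rob_isConj_inv_iff {a b : G} : IsConj a⁻¹ b⁻¹ ↔ IsConj a b := by
  constructor
  · intro h
    have := rob_isConj_inv h
    rwa [inv_inv, inv_inv] at this
  · exact rob_isConj_inv

/-- The number of pairs `(y, z)` with `y ∼ g`, `z ∼ h` and `z y⁻¹ ∈ S`. -/
noncomputable def robPairs (S : Subgroup G) (g h : G) : ℕ :=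
  Nat.card {yz : G × G // IsConj g yz.1 ∧ IsConj h yz.2 ∧ yz.2 * yz.1⁻¹ ∈ S}

variable [Fintype G]

open Classical in
theorem robPairs_eq_sum (S : Subgroup G) (g h : G) :
    (robPairs S g h : ℂ) =
      ∑ t : G, if t ∈ S then conv (classInd h) (classInd g⁻¹) t else 0 := by
  classical
  have h1 : (robPairs S g h : ℂ) = ∑ z : G, ∑ y : G,
      (if IsConj g y ∧ IsConj h z ∧ z * y⁻¹ ∈ S then (1 : ℂ) else 0) := by
    rw [robPairs, Nat.card_eq_fintype_card, Fintype.card_subtype, Finset.card_filter]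
    push_cast
    rw [Fintype.sum_prod_type, Finset.sum_comm]
  rw [h1]
  have h2 : ∀ z : G, ∑ y : G,
      (if IsConj g y ∧ IsConj h z ∧ z * y⁻¹ ∈ S then (1 : ℂ) else 0) =
      ∑ t : G, (if IsConj g (t⁻¹ * z) ∧ IsConj h z ∧ t ∈ S then (1 : ℂ) else 0) := by
    intro z
    refine (Fintype.sum_bijective (fun t : G => t⁻¹ * z) ?_ _ _ ?_).symm
    · refine ⟨fun a b hab => ?_, fun y => ⟨z * y⁻¹, by group⟩⟩
      have : a⁻¹ = b⁻¹ := mul_right_cancel hab
      exact inv_injective this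
    · intro t
      have : z * (t⁻¹ * z)⁻¹ = t := by group
      rw [this]
  rw [Finset.sum_congr rfl fun z _ => h2 z, Finset.sum_comm]
  refine Finset.sum_congr rfl fun t _ => ?_
  by_cases ht : t ∈ S
  · simp only [ht, and_true, if_true, conv, classInd]
    refine Finset.sum_congr rfl fun z _ => ?_
    have e : IsConj g⁻¹ (z⁻¹ * t) ↔ IsConj g (t⁻¹ * z) := by
      have : z⁻¹ * t = (t⁻¹ * z)⁻¹ := by group
      rw [this, rob_isConj_inv_iff]
    by_cases hz : IsConj h z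
    · by_cases hg : IsConj g (t⁻¹ * z)
      · rw [if_pos ⟨hg, hz⟩, if_pos hz, if_pos (e.mpr hg), one_mul]
      · rw [if_neg (fun H => hg H.1), if_neg (fun H => hg (e.mp H)), mul_zero]
    · rw [if_neg (fun H => hz H.2), if_neg hz, zero_mul]
  · simp [ht]

/-- **The pair count as a character sum.** -/
theorem robPairs_eq [Fintype (Cfsg.IrrCharacter G)] (S : Subgroup G) [Fintype S] (g h : G) :
    (robPairs S g h : ℂ) = (Nat.card G : ℂ)⁻¹ * ∑ ψ : Cfsg.IrrCharacter G,
      (ψ : G → ℂ) 1 * (∑ s : S, (ψ : G → ℂ) s) * Cfsg.centralChar (ψ : G → ℂ) g⁻¹ *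
        Cfsg.centralChar (ψ : G → ℂ) h := by
  classical
  have hG : (Nat.card G : ℂ) ≠ 0 := by exact_mod_cast Nat.card_pos.ne'
  rw [robPairs_eq_sum]
  set c := conv (classInd h) (classInd g⁻¹) with hc
  have hcl : Cfsg.IsClassFunction G c :=
    conv_isClassFunction (classInd_isClassFunction h) (classInd_isClassFunction g⁻¹)
  have hom : ∀ ψ : Cfsg.IrrCharacter G, omega (ψ : G → ℂ) c =
      Cfsg.centralChar (ψ : G → ℂ) h * Cfsg.centralChar (ψ : G → ℂ) g⁻¹ := by
    intro ψ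
    rw [hc, omega_conv ψ (classInd_isClassFunction h) (classInd_isClassFunction g⁻¹),
      omega_classInd, omega_classInd]
  have h1 : ∀ t : G, c t = (Nat.card G : ℂ)⁻¹ * ∑ ψ : Cfsg.IrrCharacter G,
      (ψ : G → ℂ) 1 * omega (ψ : G → ℂ) c * (ψ : G → ℂ) t⁻¹ := by
    intro t
    rw [Helper77.sum_irr_omega_mul hcl t, ← mul_assoc, inv_mul_cancel₀ hG, one_mul]
  have h2 : ∀ ψ : Cfsg.IrrCharacter G,
      (∑ t : G, if t ∈ S then (ψ : G → ℂ) t⁻¹ else 0) = ∑ s : S, (ψ : G → ℂ) s := by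
    intro ψ
    rw [← Finset.sum_filter]
    rw [Finset.sum_subtype (Finset.univ.filter (fun t : G => t ∈ S)) (p := fun t => t ∈ S)
      (by intro x; simp) (fun t => (ψ : G → ℂ) t⁻¹)]
    refine Fintype.sum_equiv (Equiv.inv S) _ _ ?_
    intro s
    simp
  calc (∑ t : G, if t ∈ S then c t else 0)
      = ∑ t : G, (Nat.card G : ℂ)⁻¹ * ∑ ψ : Cfsg.IrrCharacter G,
          (ψ : G → ℂ) 1 * omega (ψ : G → ℂ) c * (if t ∈ S then (ψ : G → ℂ) t⁻¹ else 0) := by
        refine Finset.sum_congr rfl fun t _ => ?_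
        by_cases ht : t ∈ S
        · simp only [ht, if_true]
          exact h1 t
        · simp [ht]
    _ = (Nat.card G : ℂ)⁻¹ * ∑ ψ : Cfsg.IrrCharacter G,
          (ψ : G → ℂ) 1 * omega (ψ : G → ℂ) c * ∑ t : G, (if t ∈ S then (ψ : G → ℂ) t⁻¹ else 0) := by
        rw [← Finset.mul_sum, Finset.sum_comm]
        congr 1
        refine Finset.sum_congr rfl fun ψ _ => ?_
        rw [Finset.mul_sum]
    _ = _ := by
        congr 1
        refine Finset.sum_congr rfl fun ψ _ => ?_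
        rw [h2 ψ, hom ψ]
        ring

end Cfsg.Agent.Helper81
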