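import Cfsg.Agent.Helper81.RobinsonCount
import Cfsg.Agent.Helper73.SumSqDeg
import Cfsg.Agent.Helper77.NormalSupport
import Cfsg.Agent.Helper77.Defect
import Cfsg.Agent.Helper77.ClassSum
import Cfsg.Agent.Helper16.DefectGroup
import Cfsg.Agent.Helper16.BlockCore

/-!
# Local analysis of Robinson's pair count

`D` is a normal `p`-subgroup of `G`, `d = ν_p |D|`, `a = ν_p |G|`, `S` a Sylow `p`-subgroup.
With the weights `robW ψ = ψ(1) (∑_{s ∈ S} ψ(s)) / (|G| p^(a-d))` the pair count satisfies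
`robPairs S g h / p^(a-d) = ∑_ψ robW ψ · ω_ψ(g⁻¹) · ω_ψ(h)`.  We show that for `g`, `h` with
`ν_p |C_G(g)| = ν_p |C_G(h)| = d` this is a local integer, congruent modulo the local ideal to
`∑_B ω_B(g⁻¹) c_B ω_B(h)`, the sum over the blocks `B` of defect `d` (= the blocks with defect
group `D`), where `c_B = ∑_{ψ ∈ B} robW ψ` is a local unit (Brauer's theorem on `∑ ψ(1)^2`).
-/

set_option autoImplicit false
open Cfsg

namespace Cfsg.Agent.Helper81

universe u

variable {G : Type u} [Group G] [Fintype G]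

/-- The weight of `ψ` in Robinson's formula. -/
noncomputable def robW (p : ℕ) (S : Subgroup G) [Fintype S] (d : ℕ) (ψ : G → ℂ) : ℂ :=
  ψ 1 * (∑ s : S, ψ s) / ((Nat.card G : ℂ) * (p : ℂ) ^ ((Nat.card G).factorization p - d))

theorem robPairs_div_eq [Fintype (Cfsg.IrrCharacter G)] {p : ℕ} (hp : p ≠ 0) (S : Subgroup G)
    [Fintype S] (d : ℕ) (g h : G) :
    (robPairs S g h : ℂ) / (p : ℂ) ^ ((Nat.card G).factorization p - d) =
      ∑ ψ : Cfsg.IrrCharacter G, robW p S d (ψ : G → ℂ) *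
        Cfsg.centralChar (ψ : G → ℂ) g⁻¹ * Cfsg.centralChar (ψ : G → ℂ) h := by
  have hG : (Nat.card G : ℂ) ≠ 0 := by exact_mod_cast Nat.card_pos.ne'
  have hpc : (p : ℂ) ≠ 0 := by exact_mod_cast hp
  rw [robPairs_eq, Finset.mul_sum, Finset.sum_div]
  refine Finset.sum_congr rfl fun ψ _ => ?_
  rw [robW]
  field_simp

/-- Each term of Robinson's formula is `ω_ψ(g') · r` with `r` a local integer, when
`ν_p |C_G(h)| = d`. -/
theorem rob_term_eq {p : ℕ} [Fact p.Prime] {M : Ideal Cfsg.AlgInt} (hM : Cfsg.IsPModular p M)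
    (S : Sylow p G) [Fintype (S : Subgroup G)] {d : ℕ} (hd : d ≤ (Nat.card G).factorization p)
    (ψ : Cfsg.IrrCharacter G) (g' h : G)
    (hh : (Nat.card (Subgroup.centralizer ({h} : Set G))).factorization p = d) :
    ∃ r : ℂ, Cfsg.MemLocalRing M r ∧
      robW p (S : Subgroup G) d (ψ : G → ℂ) * Cfsg.centralChar (ψ : G → ℂ) g' *
        Cfsg.centralChar (ψ : G → ℂ) h = Cfsg.centralChar (ψ : G → ℂ) g' * r := by
  have hp : p.Prime := Fact.out
  have hMm := hM.2.1
  obtain ⟨k, hk⟩ := irr_sum_subgroup (S : Subgroup G) ψ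
  have hS : Nat.card (S : Subgroup G) = p ^ (Nat.card G).factorization p := S.card_eq_multiplicity
  have hCpos : Nat.card (Subgroup.centralizer ({h} : Set G)) ≠ 0 := Nat.card_pos.ne'
  obtain ⟨m, hm⟩ : ∃ m, m = Nat.card (Subgroup.centralizer ({h} : Set G)) / p ^ d := ⟨_, rfl⟩
  have hCm : Nat.card (Subgroup.centralizer ({h} : Set G)) = p ^ d * m := by
    have := Nat.ordProj_mul_ordCompl_eq_self (Nat.card (Subgroup.centralizer ({h} : Set G))) p
    rw [hh] at this
    rw [hm]
    exact this.symm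
  have hmp : ¬ p ∣ m := by
    have := Nat.not_dvd_ordCompl hp hCpos
    rw [hh] at this
    rw [hm]
    exact this
  have hm0 : (m : ℂ) ≠ 0 := by
    have : m ≠ 0 := fun h0 => hmp (h0 ▸ dvd_zero p)
    exact_mod_cast this
  refine ⟨(k : ℂ) * (ψ : G → ℂ) h * (m : ℂ)⁻¹, ?_, ?_⟩
  · exact Helper77.memLocalRing_mul hMm (Helper77.memLocalRing_mul hMm
      (memLocalRing_natCast hMm.ne_top k)
      (Helper77.memLocalRing_of_isIntegral hMm (Helper77.irr_isIntegral ψ h)))
      (Helper77.memLocalRing_natCast_inv hM hmp)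
  · have hG : (Nat.card G : ℂ) = ((Subgroup.centralizer ({h} : Set G)).index : ℂ) *
        ((p : ℂ) ^ d * (m : ℂ)) := by
      rw [← (Subgroup.centralizer ({h} : Set G)).index_mul_card, hCm]
      push_cast
      ring
    have hpa : (p : ℂ) ^ (Nat.card G).factorization p =
        (p : ℂ) ^ d * (p : ℂ) ^ ((Nat.card G).factorization p - d) := by
      rw [← pow_add]
      congr 1
      omega
    have hpc : (p : ℂ) ≠ 0 := by exact_mod_cast hp.ne_zero
    have hψ1 := irr_one_ne_zero ψ
    have hidx : ((Subgroup.centralizer ({h} : Set G)).index : ℂ) ≠ 0 := by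
      have : (Subgroup.centralizer ({h} : Set G)).index ≠ 0 := Subgroup.index_ne_zero_of_finite
      exact_mod_cast this
    rw [robW, hk, hS, Cfsg.centralChar, Cfsg.centralChar, hG]
    push_cast
    rw [hpa]
    field_simp

/-- The weight of a character in a block of defect at most `d` is a local integer. -/
theorem robW_memLocalRing {p : ℕ} [Fact p.Prime] {M : Ideal Cfsg.AlgInt}
    (hM : Cfsg.IsPModular p M) (S : Sylow p G) [Fintype (S : Subgroup G)] {d : ℕ}
    (hd : d ≤ (Nat.card G).factorization p) {B : Set (Cfsg.IrrCharacter G)}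
    {ψ : Cfsg.IrrCharacter G} (hψ : ψ ∈ B) (hBd : Cfsg.blockDefect p B ≤ d) :
    Cfsg.MemLocalRing M (robW p (S : Subgroup G) d (ψ : G → ℂ)) := by
  have hp : p.Prime := Fact.out
  have hMm := hM.2.1
  obtain ⟨k, hk⟩ := irr_sum_subgroup (S : Subgroup G) ψ
  have hS : Nat.card (S : Subgroup G) = p ^ (Nat.card G).factorization p := S.card_eq_multiplicity
  have hGpos : Nat.card G ≠ 0 := Nat.card_pos.ne'
  obtain ⟨g', hg'⟩ : ∃ g', g' = Nat.card G / p ^ (Nat.card G).factorization p := ⟨_, rfl⟩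
  have hGg : Nat.card G = p ^ (Nat.card G).factorization p * g' := by
    rw [hg']
    exact (Nat.ordProj_mul_ordCompl_eq_self (Nat.card G) p).symm
  have hg'p : ¬ p ∣ g' := by
    rw [hg']
    exact Nat.not_dvd_ordCompl hp hGpos
  have hg'0 : (g' : ℂ) ≠ 0 := by
    have : g' ≠ 0 := fun h0 => hg'p (h0 ▸ dvd_zero p)
    exact_mod_cast this
  have hdvd : p ^ ((Nat.card G).factorization p - d) ∣ Cfsg.charDegree (ψ : G → ℂ) := by
    have h1 : sInf ((fun χ : Cfsg.IrrCharacter G =>
        (Cfsg.charDegree (χ : G → ℂ)).factorization p) '' B)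
        ≤ (Cfsg.charDegree (ψ : G → ℂ)).factorization p := Nat.sInf_le ⟨ψ, hψ, rfl⟩
    have h2 : (Nat.card G).factorization p - d ≤ (Cfsg.charDegree (ψ : G → ℂ)).factorization p := by
      unfold Cfsg.blockDefect at hBd
      omega
    exact (pow_dvd_pow p h2).trans (Nat.ordProj_dvd _ _)
  obtain ⟨n', hn'⟩ := hdvd
  have hpc : (p : ℂ) ≠ 0 := by exact_mod_cast hp.ne_zero
  have hpa : (p : ℂ) ^ (Nat.card G).factorization p =
      (p : ℂ) ^ d * (p : ℂ) ^ ((Nat.card G).factorization p - d) := by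
    rw [← pow_add]
    congr 1
    omega
  have hGc : (Nat.card G : ℂ) = (p : ℂ) ^ (Nat.card G).factorization p * (g' : ℂ) := by
    exact_mod_cast hGg
  have hval : robW p (S : Subgroup G) d (ψ : G → ℂ) = (n' : ℂ) * (k : ℂ) * (g' : ℂ)⁻¹ := by
    rw [robW, hk, hS, irr_one_eq_charDegree, hn']
    push_cast
    rw [hGc]
    field_simp
  rw [hval]
  exact Helper77.memLocalRing_mul hMm (Helper77.memLocalRing_mul hMm
    (memLocalRing_natCast hMm.ne_top n') (memLocalRing_natCast hMm.ne_top k))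
    (Helper77.memLocalRing_natCast_inv hM hg'p)

open Classical in
/-- The sum of the weights over a block of defect `d` is a local unit. -/
theorem rob_sum_robW {p : ℕ} [Fact p.Prime] {M : Ideal Cfsg.AlgInt} (hM : Cfsg.IsPModular p M)
    [Fintype (Cfsg.IrrCharacter G)] (S : Sylow p G) [Fintype (S : Subgroup G)] {d : ℕ}
    (hd : d ≤ (Nat.card G).factorization p) {B : Set (Cfsg.IrrCharacter G)}
    (hB : Cfsg.IsPBlock M B) (hBd : Cfsg.blockDefect p B = d) :
    Cfsg.MemLocalRing M (∑ ψ : Cfsg.IrrCharacter G,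
        if ψ ∈ B then robW p (S : Subgroup G) d (ψ : G → ℂ) else 0) ∧
      ¬ Cfsg.MemLocalIdeal M (∑ ψ : Cfsg.IrrCharacter G,
        if ψ ∈ B then robW p (S : Subgroup G) d (ψ : G → ℂ) else 0) := by
  have hp : p.Prime := Fact.out
  have hMm := hM.2.1
  have hring : Cfsg.MemLocalRing M (∑ ψ : Cfsg.IrrCharacter G,
      if ψ ∈ B then robW p (S : Subgroup G) d (ψ : G → ℂ) else 0) := by
    refine Helper77.memLocalRing_sum hMm _ _ fun ψ _ => ?_
    by_cases hψ : ψ ∈ B
    · rw [if_pos hψ]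
      exact robW_memLocalRing hM S hd hψ hBd.le
    · rw [if_neg hψ]
      exact Helper77.memLocalRing_zero hMm
  refine ⟨hring, ?_⟩
  choose k hk using fun ψ : Cfsg.IrrCharacter G => irr_sum_subgroup (S : Subgroup G) ψ
  have hsq := Helper73.sum_sq_charDegree_eq hM hB (S : Subgroup G) S.isPGroup' k hk
  obtain ⟨n, hn⟩ : ∃ n : ℕ, n = ∑ᶠ χ ∈ B, Cfsg.charDegree (χ : G → ℂ) ^ 2 := ⟨_, rfl⟩
  have hnat : n = ∑ ψ : Cfsg.IrrCharacter G,
      if ψ ∈ B then Cfsg.charDegree (ψ : G → ℂ) ^ 2 else 0 := by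
    rw [hn, finsum_mem_def, finsum_eq_sum_of_fintype]
    refine Finset.sum_congr rfl fun ψ _ => ?_
    by_cases hψ : ψ ∈ B <;> simp [hψ]
  have hncast : (n : ℂ) = ∑ ψ : Cfsg.IrrCharacter G,
      if ψ ∈ B then (Cfsg.charDegree (ψ : G → ℂ) : ℂ) ^ 2 else 0 := by
    rw [hnat]
    push_cast
    refine Finset.sum_congr rfl fun ψ _ => ?_
    by_cases hψ : ψ ∈ B <;> simp [hψ]
  have hfac := Helper73.factorization_sum_sq_charDegree hM hB
  rw [← hn] at hfac
  have hG0 : Nat.card G ≠ 0 := Nat.card_pos.ne'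
  have hpk0 : p ^ ((Nat.card G).factorization p - d) ≠ 0 := pow_ne_zero _ hp.ne_zero
  have hD0 : Nat.card G * p ^ ((Nat.card G).factorization p - d) ≠ 0 := mul_ne_zero hG0 hpk0
  have hGc : (Nat.card G : ℂ) ≠ 0 := by exact_mod_cast hG0
  have hpc : (p : ℂ) ≠ 0 := by exact_mod_cast hp.ne_zero
  have heq : (n : ℂ) = ((Nat.card G * p ^ ((Nat.card G).factorization p - d) : ℕ) : ℂ) *
      ∑ ψ : Cfsg.IrrCharacter G, if ψ ∈ B then robW p (S : Subgroup G) d (ψ : G → ℂ) else 0 := by
    rw [hncast, hsq, Finset.mul_sum, Finset.mul_sum]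
    refine Finset.sum_congr rfl fun ψ _ => ?_
    by_cases hψ : ψ ∈ B
    · simp only [hψ, if_true]
      rw [robW, hk ψ, irr_one_eq_charDegree]
      push_cast
      field_simp
    · simp [hψ]
  have hval := (Helper73.localRing_nat_val hM n _ hD0 _ hring heq).2
  rw [hval]
  refine ⟨?_, ?_⟩
  · intro h0
    obtain ⟨χ₀, hχ₀⟩ := Helper77.block_nonempty hMm hB
    rw [hnat] at h0
    have h1 := (Finset.sum_eq_zero_iff.mp h0) χ₀ (Finset.mem_univ _)
    rw [if_pos hχ₀] at h1
    have h2 := charDegree_pos χ₀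
    have h3 : Cfsg.charDegree (χ₀ : G → ℂ) = 0 := by
      exact pow_eq_zero_iff (n := 2) (by norm_num) |>.mp h1
    omega
  · rw [hfac, Nat.factorization_mul hG0 hpk0, Finsupp.add_apply, hp.factorization_pow,
      Finsupp.single_eq_same, hBd]
    omega

/-- If the coefficient of a block idempotent at `g` is a local unit and `D` is a normal
`p`-subgroup, then `g` is `p`-regular, `D` centralizes `g`, and
`ν_p |D| ≤ ν_p |C_G(g)| ≤ d(B)`. -/
theorem rob_of_blockCoeff {p : ℕ} [Fact p.Prime] {M : Ideal Cfsg.AlgInt}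
    (hM : Cfsg.IsPModular p M) (D : Subgroup G) [D.Normal] (hD : IsPGroup p D)
    {B : Set (Cfsg.IrrCharacter G)} (hB : Cfsg.IsPBlock M B) {g : G}
    (hne : ¬ Cfsg.MemLocalIdeal M (Cfsg.blockCoeff B g)) :
    ¬ p ∣ orderOf g ∧ D ≤ Subgroup.centralizer ({g} : Set G) ∧
    (Nat.card D).factorization p ≤
      (Nat.card (Subgroup.centralizer ({g} : Set G))).factorization p ∧
    (Nat.card (Subgroup.centralizer ({g} : Set G))).factorization p ≤ Cfsg.blockDefect p B := by
  have hMm := hM.2.1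
  have h0 : Cfsg.blockCoeff B g ≠ 0 := fun h => hne (h ▸ Helper77.memLocalIdeal_zero hMm)
  have h1 : ¬ p ∣ orderOf g := fun h => h0 (Helper77.blockCoeff_eq_zero_of_dvd_orderOf hM hB h)
  have h2 : g ∈ Subgroup.centralizer (D : Set G) := by
    by_contra h
    exact h0 (Helper77.blockCoeff_eq_zero_of_not_mem_centralizer p M hM D hD B hB g h)
  have h3 : D ≤ Subgroup.centralizer ({g} : Set G) := by
    intro u hu
    rw [Subgroup.mem_centralizer_iff]
    intro x hx
    rw [Set.mem_singleton_iff] at hx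
    subst hx
    exact (Subgroup.mem_centralizer_iff.mp h2 u hu).symm
  refine ⟨h1, h3, ?_, Helper77.factorization_centralizer_le_blockDefect hM hB hne⟩
  have hdvd : Nat.card D ∣ Nat.card (Subgroup.centralizer ({g} : Set G)) :=
    Subgroup.card_dvd_of_le h3
  exact (Nat.factorization_le_iff_dvd Nat.card_pos.ne' Nat.card_pos.ne').mpr hdvd p

/-- A normal `p`-subgroup has order at most `p ^ d(B)` for every block `B`. -/
theorem rob_le_blockDefect {p : ℕ} [Fact p.Prime] {M : Ideal Cfsg.AlgInt}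
    (hM : Cfsg.IsPModular p M) (D : Subgroup G) [D.Normal] (hD : IsPGroup p D)
    {B : Set (Cfsg.IrrCharacter G)} (hB : Cfsg.IsPBlock M B) :
    (Nat.card D).factorization p ≤ Cfsg.blockDefect p B := by
  obtain ⟨g, hg⟩ := Helper77.exists_isDefectClass hM.2.1 hB
  obtain ⟨-, -, h3, h4⟩ := rob_of_blockCoeff hM D hD hB hg.2.1
  exact h3.trans h4

/-- A normal `p`-subgroup `D` is a defect group of the block `B` iff `B` has defect `ν_p |D|`. -/
theorem rob_isDefectGroup_iff {p : ℕ} [Fact p.Prime] {M : Ideal Cfsg.AlgInt}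
    (hM : Cfsg.IsPModular p M) (D : Subgroup G) [D.Normal] (hD : IsPGroup p D)
    {B : Set (Cfsg.IrrCharacter G)} (hB : Cfsg.IsPBlock M B) :
    Cfsg.IsDefectGroup p M B D ↔ Cfsg.blockDefect p B = (Nat.card D).factorization p := by
  have hp : p.Prime := Fact.out
  constructor
  · intro h
    rw [Helper77.card_of_isDefectGroup hM hB h, hp.factorization_pow, Finsupp.single_eq_same]
  · intro h
    obtain ⟨g, hg⟩ := Helper77.exists_isDefectClass hM.2.1 hB
    obtain ⟨-, h2, h3, h4⟩ := rob_of_blockCoeff hM D hD hB hg.2.1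
    obtain ⟨n, hn⟩ := IsPGroup.iff_card.mp hD
    have hn' : (Nat.card D).factorization p = n := by
      rw [hn, hp.factorization_pow, Finsupp.single_eq_same]
    refine Helper16.isDefectGroup_of_card hg h2 ?_
    rw [hn]
    congr 1
    omega

open Classical in
/-- **Truncated idempotents.**  Let `B` be a block whose defect is `ν_p |D|`, `D` a normal
`p`-subgroup, and let `y` be a system of representatives of the classes of `p`-regular elements
`g` with `D ≤ C_G(g)` and `ν_p |C_G(g)| = ν_p |D|`.  Then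
`∑_i a_B(y_i) ω_χ(y_i) ≡ [χ ∈ B]` modulo the local ideal. -/
theorem rob_orth {p : ℕ} [Fact p.Prime] {M : Ideal Cfsg.AlgInt} (hM : Cfsg.IsPModular p M)
    (D : Subgroup G) [D.Normal] (hD : IsPGroup p D) {B : Set (Cfsg.IrrCharacter G)}
    (hB : Cfsg.IsPBlock M B) (hBd : Cfsg.blockDefect p B = (Nat.card D).factorization p)
    (χ : Cfsg.IrrCharacter G) {ι : Type*} [Fintype ι] (y : ι → G)
    (hinj : ∀ i j, IsConj (y i) (y j) → i = j)
    (hsurj : ∀ g : G, ¬ p ∣ orderOf g → D ≤ Subgroup.centralizer ({g} : Set G) →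
      (Nat.card (Subgroup.centralizer ({g} : Set G))).factorization p
        = (Nat.card D).factorization p → ∃ i, IsConj (y i) g) :
    Cfsg.MemLocalIdeal M (∑ i, Cfsg.blockCoeff B (y i) * Cfsg.centralChar (χ : G → ℂ) (y i)
      - if χ ∈ B then 1 else 0) := by
  have hMm := hM.2.1
  haveI : Fintype (ConjClasses G) := Fintype.ofFinite _
  have hcl := Helper77.blockCoeff_isClassFunction (G := G) B
  have key : ∑ c : ConjClasses G, Cfsg.blockCoeff B (Quotient.out c) *
      Cfsg.centralChar (χ : G → ℂ) (Quotient.out c) = if χ ∈ B then 1 else 0 := by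
    rw [← Helper77.omega_eq_sum_conjClasses χ hcl]
    by_cases hχ : χ ∈ B
    · rw [if_pos hχ, Helper77.omega_blockCoeff_of_mem hχ]
    · rw [if_neg hχ, Helper77.omega_blockCoeff_of_not_mem hχ]
  have hout : ∀ g : G, IsConj (Quotient.out (ConjClasses.mk g)) g :=
    fun g => ConjClasses.mk_eq_mk_iff_isConj.mp (Quotient.out_eq (ConjClasses.mk g))
  have hF : ∀ i, Cfsg.blockCoeff B (y i) * Cfsg.centralChar (χ : G → ℂ) (y i) =
      Cfsg.blockCoeff B (Quotient.out (ConjClasses.mk (y i))) *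
        Cfsg.centralChar (χ : G → ℂ) (Quotient.out (ConjClasses.mk (y i))) := by
    intro i
    have h1 := hout (y i)
    rw [Helper77.isClassFunction_isConj hcl h1]
    obtain ⟨c, hc⟩ := isConj_iff.mp h1
    rw [← hc, Helper16.centralChar_conj, hc]
  have himg : ∑ i, Cfsg.blockCoeff B (y i) * Cfsg.centralChar (χ : G → ℂ) (y i) =
      ∑ c ∈ Finset.univ.image (fun i => ConjClasses.mk (y i)),
        Cfsg.blockCoeff B (Quotient.out c) * Cfsg.centralChar (χ : G → ℂ) (Quotient.out c) := by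
    rw [Finset.sum_image]
    · exact Finset.sum_congr rfl fun i _ => hF i
    · intro i _ j _ hij
      exact hinj i j (ConjClasses.mk_eq_mk_iff_isConj.mp hij)
  rw [← key, himg, ← Finset.sum_add_sum_compl (Finset.univ.image (fun i => ConjClasses.mk (y i))),
    sub_add_cancel_left]
  refine Helper77.memLocalIdeal_neg (Helper77.memLocalIdeal_sum hMm _ _ fun c hc => ?_)
  refine Helper77.memLocalIdeal_mul' hMm ?_
    (Helper77.memLocalRing_of_isIntegral hMm (centralChar_isIntegral χ _))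
  by_contra hne
  obtain ⟨h1, h2, h3, h4⟩ := rob_of_blockCoeff hM D hD hB hne
  obtain ⟨i, hi⟩ := hsurj _ h1 h2 (by omega)
  apply Finset.mem_compl.mp hc
  refine Finset.mem_image.mpr ⟨i, Finset.mem_univ _, ?_⟩
  rw [ConjClasses.mk_eq_mk_iff_isConj.mpr hi]
  exact Quotient.out_eq c

open Classical in
/-- The contribution of `ψ` to Robinson's formula, modulo the local ideal. -/
theorem rob_term_congr {p : ℕ} [Fact p.Prime] {M : Ideal Cfsg.AlgInt} (hM : Cfsg.IsPModular p M)
    (D : Subgroup G) [D.Normal] (hD : IsPGroup p D) (S : Sylow p G) [Fintype (S : Subgroup G)]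
    {β : Type*} [Fintype β] (blk : β → Set (Cfsg.IrrCharacter G))
    (hblk : ∀ b, Cfsg.IsPBlock M (blk b) ∧
      Cfsg.blockDefect p (blk b) = (Nat.card D).factorization p)
    (hinj : Function.Injective blk)
    (hsurj : ∀ B, Cfsg.IsPBlock M B → Cfsg.blockDefect p B = (Nat.card D).factorization p →
      ∃ b, blk b = B)
    (rep : β → Cfsg.IrrCharacter G) (hrep : ∀ b, rep b ∈ blk b)
    (ψ : Cfsg.IrrCharacter G) (g' h : G)
    (hg' : (Nat.card (Subgroup.centralizer ({g'} : Set G))).factorization p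
      = (Nat.card D).factorization p)
    (hh : (Nat.card (Subgroup.centralizer ({h} : Set G))).factorization p
      = (Nat.card D).factorization p) :
    Cfsg.MemLocalIdeal M
      (robW p (S : Subgroup G) ((Nat.card D).factorization p) (ψ : G → ℂ) *
          Cfsg.centralChar (ψ : G → ℂ) g' * Cfsg.centralChar (ψ : G → ℂ) h
        - ∑ b, Cfsg.centralChar (rep b : G → ℂ) g' *
            (if ψ ∈ blk b then robW p (S : Subgroup G) ((Nat.card D).factorization p) (ψ : G → ℂ)
              else 0) * Cfsg.centralChar (rep b : G → ℂ) h) := by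
  have hMm := hM.2.1
  have hd : (Nat.card D).factorization p ≤ (Nat.card G).factorization p :=
    (Nat.factorization_le_iff_dvd Nat.card_pos.ne' Nat.card_pos.ne').mpr
      (Subgroup.card_subgroup_dvd_card D) p
  have hccR : ∀ (φ : Cfsg.IrrCharacter G) (x : G),
      Cfsg.MemLocalRing M (Cfsg.centralChar (φ : G → ℂ) x) :=
    fun φ x => Helper77.memLocalRing_of_isIntegral hMm (centralChar_isIntegral φ x)
  have hψself : ψ ∈ Cfsg.blockOf M (ψ : G → ℂ) := Helper16.sameBlock_refl hMm _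
  have hBψ : Cfsg.IsPBlock M (Cfsg.blockOf M (ψ : G → ℂ)) := ⟨ψ, rfl⟩
  by_cases hcase : Cfsg.blockDefect p (Cfsg.blockOf M (ψ : G → ℂ)) = (Nat.card D).factorization p
  · obtain ⟨b₀, hb₀⟩ := hsurj _ hBψ hcase
    have hψb₀ : ψ ∈ blk b₀ := by rw [hb₀]; exact hψself
    rw [Finset.sum_eq_single b₀]
    · rw [if_pos hψb₀]
      have hW := robW_memLocalRing hM S hd hψb₀ (hblk b₀).2.le
      have hs := Helper16.sameBlock_of_mem hMm (hblk b₀).1 hψb₀ (hrep b₀)
      have e : robW p (S : Subgroup G) ((Nat.card D).factorization p) (ψ : G → ℂ) *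
            Cfsg.centralChar (ψ : G → ℂ) g' * Cfsg.centralChar (ψ : G → ℂ) h -
          Cfsg.centralChar (rep b₀ : G → ℂ) g' *
            robW p (S : Subgroup G) ((Nat.card D).factorization p) (ψ : G → ℂ) *
            Cfsg.centralChar (rep b₀ : G → ℂ) h =
          robW p (S : Subgroup G) ((Nat.card D).factorization p) (ψ : G → ℂ) *
            ((Cfsg.centralChar (ψ : G → ℂ) g' - Cfsg.centralChar (rep b₀ : G → ℂ) g') *
                Cfsg.centralChar (ψ : G → ℂ) h +
              Cfsg.centralChar (rep b₀ : G → ℂ) g' *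
                (Cfsg.centralChar (ψ : G → ℂ) h - Cfsg.centralChar (rep b₀ : G → ℂ) h)) := by
        ring
      rw [e]
      exact Helper77.memLocalIdeal_mul hMm hW (Helper77.memLocalIdeal_add hMm
        (Helper77.memLocalIdeal_mul' hMm (hs g') (hccR ψ h))
        (Helper77.memLocalIdeal_mul hMm (hccR (rep b₀) g') (hs h)))
    · intro b _ hb
      have : ψ ∉ blk b := fun hψb => hb (hinj (by
        rw [Helper16.eq_blockOf_of_mem hMm (hblk b).1 hψb,
          Helper16.eq_blockOf_of_mem hMm (hblk b₀).1 hψb₀]))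
      rw [if_neg this]
      ring
    · intro h
      exact absurd (Finset.mem_univ _) h
  · have hlt : (Nat.card D).factorization p < Cfsg.blockDefect p (Cfsg.blockOf M (ψ : G → ℂ)) :=
      lt_of_le_of_ne (rob_le_blockDefect hM D hD hBψ) (Ne.symm hcase)
    have hzero : ∑ b, Cfsg.centralChar (rep b : G → ℂ) g' *
        (if ψ ∈ blk b then robW p (S : Subgroup G) ((Nat.card D).factorization p) (ψ : G → ℂ)
          else 0) * Cfsg.centralChar (rep b : G → ℂ) h = 0 := by
      refine Finset.sum_eq_zero fun b _ => ?_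
      have : ψ ∉ blk b := fun hψb => hcase (by
        rw [← Helper16.eq_blockOf_of_mem hMm (hblk b).1 hψb]
        exact (hblk b).2)
      rw [if_neg this]
      ring
    rw [hzero, sub_zero]
    obtain ⟨r, hr, he⟩ := rob_term_eq hM S hd ψ g' h hh
    rw [he]
    have hcc : Cfsg.MemLocalIdeal M (Cfsg.centralChar (ψ : G → ℂ) g') := by
      by_contra hcon
      have := Helper77.blockDefect_le_factorization_centralizer hM hBψ ⟨ψ, hψself, hcon⟩
      omega
    exact Helper77.memLocalIdeal_mul' hMm hcc hr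

open Classical in
/-- **Robinson's congruence.**  For `g'`, `h` with `ν_p |C_G(g')| = ν_p |C_G(h)| = ν_p |D|`:
`∑_ψ robW ψ · ω_ψ(g') · ω_ψ(h) ≡ ∑_b ω_b(g') c_b ω_b(h)`, the sum over the blocks of defect
`ν_p |D|`. -/
theorem rob_main_congr {p : ℕ} [Fact p.Prime] {M : Ideal Cfsg.AlgInt} (hM : Cfsg.IsPModular p M)
    [Fintype (Cfsg.IrrCharacter G)]
    (D : Subgroup G) [D.Normal] (hD : IsPGroup p D) (S : Sylow p G) [Fintype (S : Subgroup G)]
    {β : Type*} [Fintype β] (blk : β → Set (Cfsg.IrrCharacter G))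
    (hblk : ∀ b, Cfsg.IsPBlock M (blk b) ∧
      Cfsg.blockDefect p (blk b) = (Nat.card D).factorization p)
    (hinj : Function.Injective blk)
    (hsurj : ∀ B, Cfsg.IsPBlock M B → Cfsg.blockDefect p B = (Nat.card D).factorization p →
      ∃ b, blk b = B)
    (rep : β → Cfsg.IrrCharacter G) (hrep : ∀ b, rep b ∈ blk b) (g' h : G)
    (hg' : (Nat.card (Subgroup.centralizer ({g'} : Set G))).factorization p
      = (Nat.card D).factorization p)
    (hh : (Nat.card (Subgroup.centralizer ({h} : Set G))).factorization p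
      = (Nat.card D).factorization p) :
    Cfsg.MemLocalIdeal M
      (∑ ψ : Cfsg.IrrCharacter G,
          robW p (S : Subgroup G) ((Nat.card D).factorization p) (ψ : G → ℂ) *
          Cfsg.centralChar (ψ : G → ℂ) g' * Cfsg.centralChar (ψ : G → ℂ) h
        - ∑ b, Cfsg.centralChar (rep b : G → ℂ) g' *
            (∑ ψ : Cfsg.IrrCharacter G, if ψ ∈ blk b then
              robW p (S : Subgroup G) ((Nat.card D).factorization p) (ψ : G → ℂ) else 0) *
            Cfsg.centralChar (rep b : G → ℂ) h) := by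
  have hMm := hM.2.1
  have e2 : ∑ b, Cfsg.centralChar (rep b : G → ℂ) g' *
      (∑ ψ : Cfsg.IrrCharacter G, if ψ ∈ blk b then
        robW p (S : Subgroup G) ((Nat.card D).factorization p) (ψ : G → ℂ) else 0) *
      Cfsg.centralChar (rep b : G → ℂ) h =
      ∑ ψ : Cfsg.IrrCharacter G, ∑ b, Cfsg.centralChar (rep b : G → ℂ) g' *
        (if ψ ∈ blk b then robW p (S : Subgroup G) ((Nat.card D).factorization p) (ψ : G → ℂ)
          else 0) * Cfsg.centralChar (rep b : G → ℂ) h := by
    rw [Finset.sum_comm]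
    refine Finset.sum_congr rfl fun b _ => ?_
    rw [Finset.mul_sum, Finset.sum_mul]
  rw [e2, ← Finset.sum_sub_distrib]
  exact Helper77.memLocalIdeal_sum hMm _ _ fun ψ _ =>
    rob_term_congr hM D hD S blk hblk hinj hsurj rep hrep ψ g' h hg' hh

/-- Robinson's sum is a local integer when `ν_p |C_G(h)| = d`. -/
theorem rob_main_ring {p : ℕ} [Fact p.Prime] {M : Ideal Cfsg.AlgInt} (hM : Cfsg.IsPModular p M)
    [Fintype (Cfsg.IrrCharacter G)] (S : Sylow p G) [Fintype (S : Subgroup G)] {d : ℕ}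
    (hd : d ≤ (Nat.card G).factorization p) (g' h : G)
    (hh : (Nat.card (Subgroup.centralizer ({h} : Set G))).factorization p = d) :
    Cfsg.MemLocalRing M (∑ ψ : Cfsg.IrrCharacter G, robW p (S : Subgroup G) d (ψ : G → ℂ) *
      Cfsg.centralChar (ψ : G → ℂ) g' * Cfsg.centralChar (ψ : G → ℂ) h) := by
  have hMm := hM.2.1
  refine Helper77.memLocalRing_sum hMm _ _ fun ψ _ => ?_
  obtain ⟨r, hr, he⟩ := rob_term_eq hM S hd ψ g' h hh
  rw [he]
  exact Helper77.memLocalRing_mul hMm
    (Helper77.memLocalRing_of_isIntegral hMm (centralChar_isIntegral ψ g')) hr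

/-- The local ideal is a maximal ideal of the local ring. -/
theorem rob_localIdeal_isMaximal {M : Ideal Cfsg.AlgInt} (hMm : M.IsMaximal) :
    (Helper77.localIdeal M hMm).IsMaximal := by
  rw [Ideal.isMaximal_iff]
  refine ⟨?_, ?_⟩
  · intro h
    exact Helper77.not_memLocalIdeal_one hMm (by simpa using (Helper77.mem_localIdeal hMm).mp h)
  · intro J x _ hxI hxJ
    have hx1 : ¬ Cfsg.MemLocalIdeal M (x : ℂ) := fun h => hxI ((Helper77.mem_localIdeal hMm).mpr h)
    have hx0 : (x : ℂ) ≠ 0 := fun h => hx1 (h ▸ Helper77.memLocalIdeal_zero hMm)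
    have hinv : Cfsg.MemLocalRing M (x : ℂ)⁻¹ := Helper77.memLocalRing_inv hMm x.2 hx1
    have : (1 : Helper77.localSubring M hMm) = ⟨(x : ℂ)⁻¹, hinv⟩ * x := by
      apply Subtype.ext
      simp [inv_mul_cancel₀ hx0]
    rw [this]
    exact J.mul_mem_left _ hxJ

end Cfsg.Agent.Helper81
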