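import Cfsg.Agent.Helper81.RobinsonLocal
import Cfsg.Agent.Helper81.RobinsonRank

/-!
# Robinson's theorem: blocks with a normal defect group and the rank of the pair-count matrix

`rob_rank`: let `D` be a normal `p`-subgroup of `G`, `S` a Sylow `p`-subgroup, and `x` a system of
representatives of the classes of `p`-regular elements `g` with `D ≤ C_G(g)` and
`ν_p |C_G(g)| = ν_p |D|`.  Then the rank over `ZMod p` of the matrix
`robPairs S (x i) (x j) / p^(a - d)` is the number of blocks of defect `d = ν_p |D|`.
-/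

set_option autoImplicit false
open Cfsg

namespace Cfsg.Agent.Helper81

universe u

theorem rob_orderOf_conj {G : Type u} [Group G] (c g : G) : orderOf (c * g * c⁻¹) = orderOf g := by
  rw [← MulAut.conj_apply]
  exact orderOf_injective (MulAut.conj c).toMonoidHom (MulAut.conj c).injective g

theorem rob_centralizer_inv {G : Type u} [Group G] (g : G) :
    Subgroup.centralizer ({g⁻¹} : Set G) = Subgroup.centralizer ({g} : Set G) := by
  ext u
  simp only [Subgroup.mem_centralizer_iff, Set.mem_singleton_iff, forall_eq]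
  exact (Commute.inv_left_iff (a := g) (b := u))

theorem rob_le_centralizer_conj {G : Type u} [Group G] (D : Subgroup G) [D.Normal] {g : G}
    (h : D ≤ Subgroup.centralizer ({g} : Set G)) (c : G) :
    D ≤ Subgroup.centralizer ({c * g * c⁻¹} : Set G) := by
  intro u hu
  have h1 : c⁻¹ * u * c⁻¹⁻¹ ∈ D := ‹D.Normal›.conj_mem u hu c⁻¹
  have h2 := Subgroup.mem_centralizer_iff.mp (h h1) g rfl
  rw [Subgroup.mem_centralizer_iff]
  intro y hy
  rw [Set.mem_singleton_iff] at hy
  subst hy
  rw [inv_inv] at h2
  calc c * g * c⁻¹ * u = c * (g * (c⁻¹ * u * c)) * c⁻¹ := by group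
    _ = c * ((c⁻¹ * u * c) * g) * c⁻¹ := by rw [h2]
    _ = u * (c * g * c⁻¹) := by group

variable {G : Type u} [Group G] [Fintype G]

/-- **Robinson's theorem** in terms of representatives. -/
theorem rob_rank {p : ℕ} [Fact p.Prime] {M : Ideal Cfsg.AlgInt} (hM : Cfsg.IsPModular p M)
    (D : Subgroup G) [D.Normal] (hD : IsPGroup p D) (S : Sylow p G)
    {ι : Type*} [Fintype ι] [DecidableEq ι] (x : ι → G)
    (hx1 : ∀ i, ¬ p ∣ orderOf (x i) ∧ D ≤ Subgroup.centralizer ({x i} : Set G) ∧
      (Nat.card (Subgroup.centralizer ({x i} : Set G))).factorization p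
        = (Nat.card D).factorization p)
    (hxinj : ∀ i j, IsConj (x i) (x j) → i = j)
    (hxsurj : ∀ g : G, ¬ p ∣ orderOf g → D ≤ Subgroup.centralizer ({g} : Set G) →
      (Nat.card (Subgroup.centralizer ({g} : Set G))).factorization p
        = (Nat.card D).factorization p → ∃ i, IsConj (x i) g)
    {β : Type*} [Fintype β] [DecidableEq β] (blk : β → Set (Cfsg.IrrCharacter G))
    (hblk : ∀ b, Cfsg.IsPBlock M (blk b) ∧
      Cfsg.blockDefect p (blk b) = (Nat.card D).factorization p)
    (hinj : Function.Injective blk)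
    (hsurj : ∀ B, Cfsg.IsPBlock M B → Cfsg.blockDefect p B = (Nat.card D).factorization p →
      ∃ b, blk b = B) :
    (Matrix.of fun i j : ι => ((robPairs (S : Subgroup G) (x i) (x j) /
      p ^ ((Nat.card G).factorization p - (Nat.card D).factorization p) : ℕ) : ZMod p)).rank
      = Fintype.card β := by
  classical
  have hp : p.Prime := Fact.out
  have hMm := hM.2.1
  haveI : Fintype (Cfsg.IrrCharacter G) := Fintype.ofFinite _
  haveI : Fintype (S : Subgroup G) := Fintype.ofFinite _
  have hda : (Nat.card D).factorization p ≤ (Nat.card G).factorization p :=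
    (Nat.factorization_le_iff_dvd Nat.card_pos.ne' Nat.card_pos.ne').mpr
      (Subgroup.card_subgroup_dvd_card D) p
  choose rep hrep using fun b => Helper77.block_nonempty hMm (hblk b).1
  -- the inverses of the representatives
  have hy1 : ∀ i, (Nat.card (Subgroup.centralizer ({(x i)⁻¹} : Set G))).factorization p
      = (Nat.card D).factorization p := by
    intro i
    rw [rob_centralizer_inv]
    exact (hx1 i).2.2
  have hyinj : ∀ i j, IsConj (x i)⁻¹ (x j)⁻¹ → i = j :=
    fun i j h => hxinj i j (rob_isConj_inv_iff.mp h)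
  have hysurj : ∀ g : G, ¬ p ∣ orderOf g → D ≤ Subgroup.centralizer ({g} : Set G) →
      (Nat.card (Subgroup.centralizer ({g} : Set G))).factorization p
        = (Nat.card D).factorization p → ∃ i, IsConj (x i)⁻¹ g := by
    intro g h1 h2 h3
    obtain ⟨i, hi⟩ := hxsurj g⁻¹ (by rwa [orderOf_inv]) (by rwa [rob_centralizer_inv])
      (by rwa [rob_centralizer_inv])
    refine ⟨i, ?_⟩
    have := rob_isConj_inv hi
    rwa [inv_inv] at this
  -- the quotients
  have hq1 : ∀ i j, ((robPairs (S : Subgroup G) (x i) (x j) /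
      p ^ ((Nat.card G).factorization p - (Nat.card D).factorization p) : ℕ) : ℂ) =
      ∑ ψ : Cfsg.IrrCharacter G,
        robW p (S : Subgroup G) ((Nat.card D).factorization p) (ψ : G → ℂ) *
          Cfsg.centralChar (ψ : G → ℂ) (x i)⁻¹ * Cfsg.centralChar (ψ : G → ℂ) (x j) := by
    intro i j
    have hring := rob_main_ring hM S hda (x i)⁻¹ (x j) (hx1 j).2.2
    have hdiv := robPairs_div_eq hp.ne_zero (S : Subgroup G) ((Nat.card D).factorization p)
      (x i) (x j)
    have hpk : ((p ^ ((Nat.card G).factorization p - (Nat.card D).factorization p) : ℕ) : ℂ)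
        ≠ 0 := by
      exact_mod_cast pow_ne_zero _ hp.ne_zero
    have heq : (robPairs (S : Subgroup G) (x i) (x j) : ℂ) =
        ((p ^ ((Nat.card G).factorization p - (Nat.card D).factorization p) : ℕ) : ℂ) *
        ∑ ψ : Cfsg.IrrCharacter G,
          robW p (S : Subgroup G) ((Nat.card D).factorization p) (ψ : G → ℂ) *
            Cfsg.centralChar (ψ : G → ℂ) (x i)⁻¹ * Cfsg.centralChar (ψ : G → ℂ) (x j) := by
      rw [← hdiv]
      push_cast
      push_cast at hpk
      field_simp
    have hval := (Helper73.localRing_nat_val hM _ _ (pow_ne_zero _ hp.ne_zero) _ hring heq).1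
    have hdvd : p ^ ((Nat.card G).factorization p - (Nat.card D).factorization p) ∣
        robPairs (S : Subgroup G) (x i) (x j) := by
      by_cases h0 : robPairs (S : Subgroup G) (x i) (x j) = 0
      · rw [h0]
        exact dvd_zero _
      · have := hval h0
        rw [hp.factorization_pow, Finsupp.single_eq_same] at this
        exact (pow_dvd_pow p this).trans (Nat.ordProj_dvd _ _)
    rw [Nat.cast_div hdvd hpk, heq, mul_div_assoc, mul_comm, div_mul_cancel₀ _ hpk]
  -- the local ring and its maximal ideal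
  haveI := rob_localIdeal_isMaximal hMm
  have hpI : ((p : ℕ) : Helper77.localSubring M hMm) ∈ Helper77.localIdeal M hMm := by
    rw [Helper77.mem_localIdeal]
    simpa using Helper77.memLocalIdeal_prime hM
  have hccR : ∀ (φ : Cfsg.IrrCharacter G) (g : G),
      Cfsg.MemLocalRing M (Cfsg.centralChar (φ : G → ℂ) g) :=
    fun φ g => Helper77.memLocalRing_of_isIntegral hMm (centralChar_isIntegral φ g)
  have hrepiff : ∀ b b', rep b ∈ blk b' ↔ b = b' := by
    intro b b'
    constructor
    · intro h
      apply hinj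
      rw [Helper16.eq_blockOf_of_mem hMm (hblk b).1 (hrep b),
        Helper16.eq_blockOf_of_mem hMm (hblk b').1 h]
    · rintro rfl
      exact hrep b
  refine rob_rank_eq_card (Helper77.localIdeal M hMm) hpI _
    (fun b i => ⟨Cfsg.centralChar (rep b : G → ℂ) (x i)⁻¹, hccR _ _⟩)
    (fun b j => ⟨Cfsg.centralChar (rep b : G → ℂ) (x j), hccR _ _⟩)
    (fun b => ⟨∑ ψ : Cfsg.IrrCharacter G, if ψ ∈ blk b then
      robW p (S : Subgroup G) ((Nat.card D).factorization p) (ψ : G → ℂ) else 0,
      (rob_sum_robW hM S hda (hblk b).1 (hblk b).2).1⟩)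
    (fun j b => ⟨Cfsg.blockCoeff (blk b) (x j),
      Helper77.blockCoeff_memLocalRing hMm (hblk b).1 _⟩)
    (fun i b => ⟨Cfsg.blockCoeff (blk b) (x i)⁻¹,
      Helper77.blockCoeff_memLocalRing hMm (hblk b).1 _⟩) ?_ ?_ ?_ ?_
  · intro b
    rw [Helper77.mem_localIdeal]
    exact (rob_sum_robW hM S hda (hblk b).1 (hblk b).2).2
  · intro i j
    rw [Helper77.mem_localIdeal]
    have := rob_main_congr hM D hD S blk hblk hinj hsurj rep hrep (x i)⁻¹ (x j) (hy1 i)
      (hx1 j).2.2
    rw [← hq1 i j] at this
    push_cast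
    exact this
  · intro b b'
    rw [Helper77.mem_localIdeal]
    have := rob_orth hM D hD (hblk b').1 (hblk b').2 (rep b) x hxinj hxsurj
    have e : ∑ i, Cfsg.blockCoeff (blk b') (x i) * Cfsg.centralChar (rep b : G → ℂ) (x i) =
        ∑ i, Cfsg.centralChar (rep b : G → ℂ) (x i) * Cfsg.blockCoeff (blk b') (x i) :=
      Finset.sum_congr rfl fun i _ => mul_comm _ _
    rw [e] at this
    by_cases hbb : b = b'
    · rw [if_pos ((hrepiff b b').mpr hbb)] at this
      rw [if_pos hbb]
      push_cast
      exact this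
    · rw [if_neg (fun h => hbb ((hrepiff b b').mp h))] at this
      rw [if_neg hbb]
      push_cast
      exact this
  · intro b b'
    rw [Helper77.mem_localIdeal]
    have := rob_orth hM D hD (hblk b').1 (hblk b').2 (rep b) (fun i => (x i)⁻¹) hyinj hysurj
    have e : ∑ i, Cfsg.blockCoeff (blk b') (x i)⁻¹ * Cfsg.centralChar (rep b : G → ℂ) (x i)⁻¹ =
        ∑ i, Cfsg.centralChar (rep b : G → ℂ) (x i)⁻¹ * Cfsg.blockCoeff (blk b') (x i)⁻¹ :=
      Finset.sum_congr rfl fun i _ => mul_comm _ _
    rw [e] at this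
    by_cases hbb : b = b'
    · rw [if_pos ((hrepiff b b').mpr hbb)] at this
      rw [if_pos hbb]
      push_cast
      exact this
    · rw [if_neg (fun h => hbb ((hrepiff b b').mp h))] at this
      rw [if_neg hbb]
      push_cast
      exact this

end Cfsg.Agent.Helper81
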