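import Mathlib
import Cfsg.Agent.Helper45.StDDefs
import Cfsg.Agent.Helper81.StDAux
import Cfsg.Agent.Helper88.StPAT

/-!
# CALL S2548 piece STABDD
-/

set_option autoImplicit false
set_option linter.unusedSectionVars false
set_option linter.unusedSimpArgs false

universe u

namespace Cfsg.Agent.Helper81.StSTABDD

open Cfsg Cfsg.Agent.Helper13 Cfsg.Agent.Helper95.SpBN Cfsg.Agent.Helper45 Cfsg.Agent.Helper45.St
  Cfsg.Agent.Helper45.StD Cfsg.Agent.Helper81.StAux Cfsg.Agent.Helper81.StDAux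
  Cfsg.Agent.Helper88.StPAT

variable {ι : Type} [Fintype ι] [DecidableEq ι] {F : Type u} [Field F]
  {Q : QuadraticForm F (ι → F)} {m : ℕ} {L R : Fin m → ι}

/-- if `n₀⁻¹ g₁ n₀` is in the Borel subgroup then `g₁ f_i` lies in `⟨f_0, …, f_i⟩` (`i + 1 < m`) -/
theorem lowf (H : HypPairs Q m L R) (g₁ n₀ : ↥(isometryGroup F ⇑Q))
    (π₀ : Equiv.Perm (Fin m ⊕ Fin m))
    (hπ₀ : ∀ i : Fin m, (i : ℕ) + 1 < m → π₀ (Sum.inl i) = Sum.inr i)
    (hn₀ : PatO Q L R n₀ π₀) (hn₀' : PatO Q L R n₀⁻¹ π₀⁻¹)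
    (h : n₀⁻¹ * g₁ * n₀ ∈ borelO Q L) (i : Fin m) (hi : (i : ℕ) + 1 < m) (d : Fin m ⊕ Fin m)
    (hd : mv ⇑Q g₁ (ev L R F (Sum.inr i)) (idx L R d) ≠ 0) :
    ∃ i' : Fin m, (i' : ℕ) ≤ (i : ℕ) ∧ d = Sum.inr i' := by
  obtain ⟨c, hc⟩ := hn₀ (Sum.inl i)
  rw [hπ₀ i hi] at hc
  have hc0 : c ≠ 0 := pat_coeff_ne_zero88 n₀ _ _ c hc
  have h3 : mv ⇑Q n₀ (mv ⇑Q (n₀⁻¹ * g₁ * n₀) (ev L R F (Sum.inl i))) =
      c • mv ⇑Q g₁ (ev L R F (Sum.inr i)) := by
    rw [mv_mul, mv_mul, mv_inv_cancel, hc, mv_smul]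
  have hy : FlagP L ((i : ℕ) + 1) (mv ⇑Q (n₀⁻¹ * g₁ * n₀) (ev L R F (Sum.inl i))) :=
    flag_of_mem_borelO _ h i
  obtain ⟨y, hydef⟩ : ∃ y : ι → F, y = mv ⇑Q (n₀⁻¹ * g₁ * n₀) (ev L R F (Sum.inl i)) := ⟨_, rfl⟩
  rw [← hydef] at h3 hy
  obtain ⟨c', hc'⟩ := hn₀' (tauP m d)
  have h4 : mv ⇑Q n₀ y (idx L R d) = c' * y (idx L R (tauP m (π₀⁻¹ (tauP m d)))) := by
    have e1 := polar_ev H (tauP m d) (mv ⇑Q n₀ y)
    rw [tauP_tauP] at e1
    have e2 := mv_polar Q n₀ (mv ⇑Q n₀⁻¹ (ev L R F (tauP m d))) y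
    rw [mv_inv_cancel, hc', QuadraticMap.polar_smul_left, polar_ev H (π₀⁻¹ (tauP m d)) y,
      smul_eq_mul, e1] at e2
    exact e2
  have h5 : mv ⇑Q n₀ y (idx L R d) ≠ 0 := by
    rw [h3, Pi.smul_apply, smul_eq_mul]
    exact mul_ne_zero hc0 hd
  rw [h4] at h5
  have h6 : y (idx L R (tauP m (π₀⁻¹ (tauP m d)))) ≠ 0 := fun h0 => h5 (by rw [h0, mul_zero])
  obtain ⟨i', hi', h7⟩ := hy _ h6
  have h8 : tauP m (π₀⁻¹ (tauP m d)) = Sum.inl i' := idx_injective H h7
  refine ⟨i', by omega, ?_⟩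
  have h9 : π₀⁻¹ (tauP m d) = Sum.inr i' := by
    have h := congrArg (tauP m) h8
    rwa [tauP_tauP, tauP_inl] at h
  have h10 : tauP m d = π₀ (Sum.inr i') := by
    rw [← h9, ← Equiv.Perm.mul_apply, mul_inv_cancel, Equiv.Perm.one_apply]
  have h11 : π₀ (Sum.inr i') = Sum.inl i' := by
    have h := p_PATTAU H n₀ π₀ hn₀ (Sum.inl i')
    rw [tauP_inl, hπ₀ i' (by omega), tauP_inr] at h
    exact h
  rw [h11] at h10
  have h12 := congrArg (tauP m) h10
  rwa [tauP_tauP, tauP_inl] at h12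

theorem p_STABDD (H : HypPairs Q m L R) (hV0 : ∀ x : ι → F, InV0 L R x → x = 0)
    (g n₀ : ↥(isometryGroup F ⇑Q)) (π₀ : Equiv.Perm (Fin m ⊕ Fin m))
    (hπ₀ : ∀ i : Fin m, (i : ℕ) + 1 < m → π₀ (Sum.inl i) = Sum.inr i)
    (hg : g ∈ borelO Q L) (hn₀ : PatO Q L R n₀ π₀) (hn₀' : PatO Q L R n₀⁻¹ π₀⁻¹)
    (h : n₀⁻¹ * g * n₀ ∈ borelO Q L) : PatO Q L R g 1 := by
  have hinv : g⁻¹ ∈ borelO Q L := inv_mem hg
  have hh' : n₀⁻¹ * g⁻¹ * n₀ ∈ borelO Q L := by
    have e : (n₀⁻¹ * g * n₀)⁻¹ = n₀⁻¹ * g⁻¹ * n₀ := by group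
    rw [← e]
    exact inv_mem h
  intro a
  rw [Equiv.Perm.one_apply]
  rcases a with j | j
  · refine ⟨mv ⇑Q g (ev L R F (Sum.inl j)) (L j), ?_⟩
    apply ext_frame hV0
    intro d
    rw [Pi.smul_apply, ev_idx H, smul_eq_mul]
    have hF : FlagP L ((j : ℕ) + 1) (mv ⇑Q g (ev L R F (Sum.inl j))) :=
      flag_of_mem_borelO g hg j
    rcases d with i | i
    · by_cases hij : i = j
      · rw [hij, if_pos rfl, mul_one]
        rfl
      · rw [if_neg (fun h => hij (Sum.inl.inj h).symm), mul_zero]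
        have hij' : (i : ℕ) ≠ j := fun h => hij (Fin.ext h)
        by_cases hlt : (j : ℕ) < i
        · exact flagP_L H hF i (by omega)
        · by_contra hne
          have e := coord_swap H g (Sum.inl j) (Sum.inl i)
          have hne' : mv ⇑Q g⁻¹ (ev L R F (tauP m (Sum.inl i))) (idx L R (tauP m (Sum.inl j))) ≠ 0 :=
            fun h0 => hne (e.trans h0)
          have hjlt := j.2
          obtain ⟨i', hi'', hd⟩ := lowf H g⁻¹ n₀ π₀ hπ₀ hn₀ hn₀' hh' i (by omega)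
            (tauP m (Sum.inl j)) hne'
          rw [tauP_inl] at hd
          have h5 := congrArg Fin.val (Sum.inr.inj hd)
          omega
    · rw [if_neg Sum.inl_ne_inr, mul_zero]
      exact flagP_R H hF i
  · refine ⟨mv ⇑Q g (ev L R F (Sum.inr j)) (R j), ?_⟩
    apply ext_frame hV0
    intro d
    rw [Pi.smul_apply, ev_idx H, smul_eq_mul]
    have hRi : ∀ i : Fin m, (i : ℕ) < j → mv ⇑Q g (ev L R F (Sum.inr j)) (R i) = 0 := by
      intro i hi
      have e := coord_swap H g (Sum.inr j) (Sum.inr i)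
      refine e.trans ?_
      exact flagP_L H (flag_of_mem_borelO (R := R) g⁻¹ hinv i) j (by omega)
    by_cases hj : (j : ℕ) + 1 < m
    · rcases d with i | i
      · rw [if_neg Sum.inr_ne_inl, mul_zero]
        by_contra hne
        obtain ⟨i', _, hd⟩ := lowf H g n₀ π₀ hπ₀ hn₀ hn₀' h j hj (Sum.inl i) hne
        exact Sum.inl_ne_inr hd
      · by_cases hij : i = j
        · rw [hij, if_pos rfl, mul_one]
          rfl
        · rw [if_neg (fun h => hij (Sum.inr.inj h).symm), mul_zero]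
          have hij' : (i : ℕ) ≠ j := fun h => hij (Fin.ext h)
          by_cases hlt : (i : ℕ) < j
          · exact hRi i hlt
          · by_contra hne
            obtain ⟨i', hi', hd⟩ := lowf H g n₀ π₀ hπ₀ hn₀ hn₀' h j hj (Sum.inr i) hne
            have h5 := congrArg Fin.val (Sum.inr.inj hd)
            omega
    · have hjm : (j : ℕ) + 1 = m := by
        have h4 := j.2
        omega
      have hLi : ∀ i : Fin m, (i : ℕ) < j → mv ⇑Q g (ev L R F (Sum.inr j)) (L i) = 0 := by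
        intro i hi
        have e := coord_swap H g (Sum.inr j) (Sum.inl i)
        refine e.trans ?_
        by_contra hne
        obtain ⟨i', _, hd⟩ := lowf H g⁻¹ n₀ π₀ hπ₀ hn₀ hn₀' hh' i (by omega)
          (tauP m (Sum.inr j)) hne
        rw [tauP_inr] at hd
        exact Sum.inl_ne_inr hd
      have hRj : mv ⇑Q g (ev L R F (Sum.inr j)) (R j) ≠ 0 := by
        have e := coord_swap H g (Sum.inr j) (Sum.inr j)
        intro h0
        exact borel_diag_ne H g⁻¹ hinv j (e.symm.trans h0)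
      have hLj : mv ⇑Q g (ev L R F (Sum.inr j)) (L j) = 0 := by
        have h3 : Q (mv ⇑Q g (ev L R F (Sum.inr j))) = 0 :=
          (mv_quad ⇑Q _ _).trans (ev_quad H _)
        rw [Qsum H hV0, Finset.sum_eq_single j (fun i _ hi => by
          have h5 : (i : ℕ) ≠ j := fun h => hi (Fin.ext h)
          have h6 := i.2
          rw [hLi i (by omega), zero_mul]) (fun h => absurd (Finset.mem_univ j) h)] at h3
        rcases mul_eq_zero.mp h3 with h4 | h4
        · exact h4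
        · exact absurd h4 hRj
      rcases d with i | i
      · rw [if_neg Sum.inr_ne_inl, mul_zero]
        by_cases hij : i = j
        · rw [hij]
          exact hLj
        · have h5 : (i : ℕ) ≠ j := fun h => hij (Fin.ext h)
          have h6 := i.2
          exact hLi i (by omega)
      · by_cases hij : i = j
        · rw [hij, if_pos rfl, mul_one]
          rfl
        · rw [if_neg (fun h => hij (Sum.inr.inj h).symm), mul_zero]
          have h5 : (i : ℕ) ≠ j := fun h => hij (Fin.ext h)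
          have h6 := i.2
          exact hRi i (by omega)

end Cfsg.Agent.Helper81.StSTABDD
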